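import Cfsg.Agent.CTits.Bruhat
import Cfsg.Agent.CentralExt.Free
import Cfsg.Agent.CentralExt.SL2

/-!
# Central extensions with kernel prime to the characteristic of groups with a split rank two BN-pair

Two homomorphisms of `SL₂` generating a group with a Weyl group of order dividing 12 and an injective
product of their tori: a central extension by an `r`-group, `r ≠ p`, inside the commutator group is trivial.
-/

set_option autoImplicit false
set_option linter.unusedSectionVars false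

namespace Cfsg.Agent.CentralExt.BNLift

open Cfsg.Agent.CTits
open scoped MatrixGroups commutatorElement

universe u v

section Lifts

variable {E : Type u} {G : Type v} [Group E] [Group G] {σ : E →* G} {r p : ℕ} [hr : Fact r.Prime]
  [hp : Fact p.Prime]

/-- An element of `p`-power order. -/
def PEl {M : Type*} [Monoid M] (p : ℕ) (x : M) : Prop := ∃ k, x ^ p ^ k = 1

theorem PEl.map {M N : Type*} [Monoid M] [Monoid N] (f : M →* N) {x : M} (h : PEl p x) : PEl p (f x) := by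
  obtain ⟨k, hk⟩ := h
  exact ⟨k, by rw [← map_pow, hk, map_one]⟩

theorem PEl.conj {M : Type*} [Group M] {x : M} (h : PEl p x) (g : M) : PEl p (g * x * g⁻¹) := by
  obtain ⟨k, hk⟩ := h
  exact ⟨k, by rw [conj_pow, hk]; group⟩

theorem eq_one_of_both (hne : p ≠ r) {M : Type*} [Monoid M] {z : M} {k m : ℕ} (h1 : z ^ p ^ k = 1)
    (h2 : z ^ r ^ m = 1) : z = 1 := by
  have h3 : z ^ Nat.gcd (p ^ k) (r ^ m) = 1 := pow_gcd_eq_one.2 ⟨h1, h2⟩
  rwa [((Nat.coprime_primes hp.out hr.out).2 hne).pow k m |>.gcd_eq_one, pow_one] at h3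

theorem plift_unique (hne : p ≠ r) (hc : σ.ker ≤ Subgroup.center E) (hk : IsPGroup r σ.ker) {x y : E}
    (hx : PEl p x) (hy : PEl p y) (h : σ x = σ y) : x = y := by
  have hz : x⁻¹ * y ∈ σ.ker := by rw [MonoidHom.mem_ker, map_mul, map_inv, h, inv_mul_cancel]
  obtain ⟨k, hk1⟩ := hx
  obtain ⟨l, hl1⟩ := hy
  obtain ⟨m, hm⟩ := hk ⟨_, hz⟩
  have hm1 : (x⁻¹ * y) ^ r ^ m = 1 := congrArg Subtype.val hm
  have hcomm : Commute x (x⁻¹ * y) := Subgroup.mem_center_iff.1 (hc hz) x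
  have e : (x⁻¹ * y) ^ p ^ (k + l) = 1 := by
    have h1 : x ^ p ^ (k + l) = 1 := by rw [pow_add, pow_mul, hk1, one_pow]
    have h2 : y ^ p ^ (k + l) = 1 := by rw [add_comm, pow_add, pow_mul, hl1, one_pow]
    conv_rhs at h2 => rw [← h1]
    rw [show y = x * (x⁻¹ * y) by group, hcomm.mul_pow] at h2
    exact mul_eq_left.1 h2
  exact inv_mul_eq_one.1 (eq_one_of_both hne e hm1)

theorem plift_exists (hne : p ≠ r) (hs : Function.Surjective σ) (hc : σ.ker ≤ Subgroup.center E)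
    (hk : IsPGroup r σ.ker) {u : G} (hu : PEl p u) : ∃ x : E, σ x = u ∧ PEl p x := by
  obtain ⟨k, hu⟩ := hu
  obtain ⟨y, rfl⟩ := hs u
  have hz : y ^ p ^ k ∈ σ.ker := by rw [MonoidHom.mem_ker, map_pow, hu]
  obtain ⟨m, hm⟩ := hk ⟨_, hz⟩
  have hm1 : (y ^ p ^ k) ^ r ^ m = 1 := congrArg Subtype.val hm
  have hco : Nat.Coprime (p ^ k) (r ^ m) := ((Nat.coprime_primes hp.out hr.out).2 hne).pow k m
  have hgcd := Nat.gcd_eq_gcd_ab (p ^ k) (r ^ m)
  rw [hco.gcd_eq_one, Nat.cast_one] at hgcd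
  set a := Nat.gcdA (p ^ k) (r ^ m)
  set b := Nat.gcdB (p ^ k) (r ^ m)
  refine ⟨y * ((y ^ p ^ k) ^ a)⁻¹, ?_, k, ?_⟩
  · rw [map_mul, map_inv, map_zpow, MonoidHom.mem_ker.1 hz, one_zpow, inv_one, mul_one]
  · have hcy : Commute y ((y ^ p ^ k) ^ a)⁻¹ :=
      (((Commute.refl y).pow_right (p ^ k)).zpow_right a).inv_right
    rw [hcy.mul_pow]
    have e : ((y ^ p ^ k) ^ a) ^ p ^ k = y ^ p ^ k := by
      rw [← zpow_natCast ((y ^ p ^ k) ^ a), ← zpow_mul]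
      conv_rhs => rw [← zpow_one (y ^ p ^ k)]
      rw [show a * ((p ^ k : ℕ) : ℤ) = 1 - (r ^ m : ℕ) * b by linarith, zpow_sub, zpow_mul, zpow_natCast, hm1]
      simp
    rw [inv_pow, e, mul_inv_cancel]

/-- The lift of a `p`-subgroup. -/
theorem exists_lift_subgroup [Finite E] (hne : p ≠ r) (hs : Function.Surjective σ)
    (hc : σ.ker ≤ Subgroup.center E) (hk : IsPGroup r σ.ker) (U : Subgroup G) (hU : IsPGroup p U) :
    ∃ U' : Subgroup E, ∀ x, x ∈ U' ↔ PEl p x ∧ σ x ∈ U := by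
  let P := U.comap σ
  let S : Sylow p ↥P := default
  refine ⟨(S : Subgroup ↥P).map P.subtype, fun x => ⟨?_, ?_⟩⟩
  · rintro ⟨⟨y, hy⟩, hyS, rfl⟩
    obtain ⟨k, hk'⟩ := S.isPGroup' ⟨_, hyS⟩
    exact ⟨⟨k, congrArg Subtype.val (congrArg Subtype.val hk')⟩, hy⟩
  · rintro ⟨hx, hxU⟩
    let f : ↥P →* ↥U := σ.subgroupComap U
    have hf : Function.Surjective f := fun ⟨u, hu⟩ => by
      obtain ⟨y, rfl⟩ := hs u
      exact ⟨⟨y, hu⟩, rfl⟩
    have hmap : (S : Subgroup ↥P).map f = ⊤ := by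
      rw [← Subgroup.index_eq_one]
      have : Finite ↥U := Finite.of_surjective f hf
      obtain ⟨k, hk'⟩ := hU.index ((S : Subgroup ↥P).map f)
      have hd := Subgroup.index_map_dvd (S : Subgroup ↥P) hf
      rcases Nat.eq_zero_or_pos k with rfl | hkpos
      · simpa using hk'
      · exact absurd ((dvd_pow_self p hkpos.ne').trans (hk' ▸ hd)) (Sylow.not_dvd_index S)
    obtain ⟨⟨y, hy⟩, hyS, hyx⟩ : (⟨σ x, hxU⟩ : ↥U) ∈ (S : Subgroup ↥P).map f := hmap ▸ Subgroup.mem_top _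
    obtain ⟨k, hk'⟩ := S.isPGroup' ⟨_, hyS⟩
    have : y = x := plift_unique hne hc hk ⟨k, congrArg Subtype.val (congrArg Subtype.val hk')⟩ hx
      (congrArg Subtype.val hyx)
    subst this
    exact ⟨⟨y, hy⟩, hyS, rfl⟩

/-- Lifting homomorphisms of groups generated by `p`-elements with `r'`-multiplier. -/
theorem exists_lift [Finite E] (hne : p ≠ r) (hs : Function.Surjective σ) (hc : σ.ker ≤ Subgroup.center E)
    (hk : IsPGroup r σ.ker) {H : Type*} [Group H] [Finite H] (φ : H →* G)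
    (hgen : Subgroup.closure {h : H | PEl p h} = ⊤) (hM : ¬ r ∣ Nat.card (schurMult H)) :
    ∃ ρ : H →* E, ∀ h, σ (ρ h) = φ h := by
  let gens : Set (H × E) := {x | PEl p x ∧ φ x.1 = σ x.2}
  let P : Subgroup (H × E) := Subgroup.closure gens
  let τ : ↥P →* H := (MonoidHom.fst H E).comp P.subtype
  have hP : ∀ x ∈ P, φ x.1 = σ x.2 := fun x hx =>
    (Subgroup.closure_le (φ.comp (MonoidHom.fst H E) |>.eqLocus (σ.comp (MonoidHom.snd H E)))).2
      (fun y hy => hy.2) hx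
  have hτ : Function.Surjective τ := by
    have hle : Subgroup.closure {h : H | PEl p h} ≤ τ.range := by
      rw [Subgroup.closure_le]
      intro h hh
      obtain ⟨e, he, hpe⟩ := plift_exists hne hs hc hk (hh.map φ)
      refine ⟨⟨(h, e), Subgroup.subset_closure ⟨?_, he.symm⟩⟩, rfl⟩
      obtain ⟨k, hk1⟩ := hh
      obtain ⟨l, hl1⟩ := hpe
      exact ⟨k + l, Prod.ext (by simp [pow_add, pow_mul, hk1]) (by simp [add_comm k, pow_add, pow_mul, hl1])⟩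
    intro h
    exact hle (hgen ▸ Subgroup.mem_top h)
  have hker : ∀ z : ↥P, τ z = 1 → (z : H × E).1 = 1 ∧ σ (z : H × E).2 = 1 := fun z hz =>
    ⟨hz, by rw [← hP _ z.2, show (z : H × E).1 = 1 from hz, map_one]⟩
  have hτc : τ.ker ≤ Subgroup.center ↥P := fun z hz => Subgroup.mem_center_iff.2 fun g => Subtype.ext
    (Prod.ext (by simp [(hker z hz).1]) (Subgroup.mem_center_iff.1 (hc (MonoidHom.mem_ker.2 (hker z hz).2)) _))
  have hτk : IsPGroup r τ.ker := by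
    rintro ⟨z, hz⟩
    obtain ⟨m, hm⟩ := hk ⟨_, MonoidHom.mem_ker.2 (hker z hz).2⟩
    exact ⟨m, Subtype.ext (Subtype.ext (Prod.ext (by simp [(hker z hz).1])
      (by simpa using congrArg Subtype.val hm)))⟩
  have habel : ∀ x : ↥P, PEl p (Abelianization.of x) := by
    rintro ⟨x, hx⟩
    refine Subgroup.closure_induction (p := fun x hx => PEl p (Abelianization.of (⟨x, hx⟩ : ↥P))) ?_ ?_ ?_ ?_ hx
    · rintro y ⟨⟨k, hk1⟩, -⟩
      exact ⟨k, by rw [← map_pow, show (⟨y, _⟩ : ↥P) ^ p ^ k = 1 from Subtype.ext hk1, map_one]⟩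
    · exact ⟨0, by simp only [pow_zero, pow_one]; exact map_one _⟩
    · rintro a b ha hb ⟨k, hka⟩ ⟨l, hlb⟩
      refine ⟨k + l, ?_⟩
      rw [show (⟨a * b, _⟩ : ↥P) = ⟨a, ha⟩ * ⟨b, hb⟩ from rfl, map_mul, mul_pow]
      conv_lhs => arg 1; rw [pow_add, pow_mul, hka, one_pow]
      rw [one_mul, add_comm, pow_add, pow_mul, hlb, one_pow]
    · rintro a ha ⟨k, hka⟩
      exact ⟨k, by rw [show (⟨a⁻¹, _⟩ : ↥P) = (⟨a, ha⟩ : ↥P)⁻¹ from rfl, map_inv, inv_pow, hka, inv_one]⟩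
  have hinj : Function.Injective τ := (injective_iff_map_eq_one τ).2 fun z hz => by
    refine Free.eq_one_of_free hM hτ hτc hτk hz ?_
    rw [← Abelianization.ker_of, MonoidHom.mem_ker]
    obtain ⟨k, hk1⟩ := habel z
    obtain ⟨m, hm⟩ := hτk ⟨z, hz⟩
    exact eq_one_of_both hne hk1 (by rw [← map_pow, show z ^ r ^ m = 1 from congrArg Subtype.val hm, map_one])
  let e := MulEquiv.ofBijective τ ⟨hinj, hτ⟩
  refine ⟨(MonoidHom.snd H E).comp (P.subtype.comp e.symm.toMonoidHom), fun h => ?_⟩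
  show σ ((e.symm h : ↥P) : H × E).2 = φ h
  rw [← hP _ (e.symm h).2]
  exact congrArg φ (e.apply_symm_apply h)

end Lifts

section SLTwo

variable {F : Type*} [Field F]

/-- The diagonal element. -/
def dg (a : Fˣ) : SL(2, F) := ⟨!![(a : F), 0; 0, (a⁻¹ : Fˣ)], by simp [Matrix.det_fin_two]⟩

/-- The diagonal homomorphism. -/
def dgHom : Fˣ →* SL(2, F) := MonoidHom.mk' dg fun a b => by
  apply Subtype.ext
  rw [Linear.val_mul]
  ext i j
  fin_cases i <;> fin_cases j <;> simp [dg, Matrix.mul_apply, Fin.sum_univ_two, mul_comm]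

theorem dgHom_apply (a : Fˣ) : dgHom a = dg a := rfl

theorem dg_inv (a : Fˣ) : dg a⁻¹ = (dg a)⁻¹ := map_inv (dgHom (F := F)) a

theorem dg_pow (a : Fˣ) (n : ℕ) : dg (a ^ n) = dg a ^ n := map_pow (dgHom (F := F)) a n

theorem dg_one : dg (1 : Fˣ) = 1 := map_one (dgHom (F := F))

theorem wm_sq : wm (1 : F) * wm 1 = dg (-1) := by
  apply Subtype.ext
  rw [Linear.val_mul, wm_val' one_ne_zero]
  ext i j
  fin_cases i <;> fin_cases j <;> simp [dg, Matrix.mul_apply, Fin.sum_univ_two]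

theorem wm_flip (a : Fˣ) : wm (1 : F) * dg a * (wm 1)⁻¹ = dg a⁻¹ := by
  rw [mul_inv_eq_iff_eq_mul]
  apply Subtype.ext
  rw [Linear.val_mul, Linear.val_mul, wm_val' one_ne_zero]
  ext i j
  fin_cases i <;> fin_cases j <;> simp [dg, Matrix.mul_apply, Fin.sum_univ_two]

theorem wm_eq {a : F} (ha : a ≠ 0) : wm a = dg (Units.mk0 a ha) * wm 1 := by
  apply Subtype.ext
  rw [Linear.val_mul, wm_val' ha, wm_val' one_ne_zero]
  ext i j
  fin_cases i <;> fin_cases j <;> simp [dg, Matrix.mul_apply, Fin.sum_univ_two]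

theorem wm_inv : wm (-1 : F) = (wm 1)⁻¹ := eq_inv_of_mul_eq_one_right (wm_neg one_ne_zero)

theorem wm_mul_neg_one {a : F} (ha : a ≠ 0) : wm a * wm (-1) = dg (Units.mk0 a ha) := by
  rw [wm_eq ha, wm_inv, mul_inv_cancel_right]

theorem wm_conj_up (t : F) : wm 1 * up t * (wm 1)⁻¹ = lo (-t) := by
  rw [mul_inv_eq_iff_eq_mul, wm_comm one_ne_zero]
  simp

theorem wm_conj_lo (t : F) : wm 1 * lo t * (wm 1)⁻¹ = up (-t) := by
  rw [mul_inv_eq_iff_eq_mul]
  apply Subtype.ext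
  rw [Linear.val_mul, Linear.val_mul, wm_val' one_ne_zero, up_val, lo_val]
  ext i j
  fin_cases i <;> fin_cases j <;> simp [Matrix.mul_apply, Fin.sum_univ_two]

theorem dg_conj_up (a : Fˣ) (t : F) : dg a * up t * (dg a)⁻¹ = up ((a : F) ^ 2 * t) := by
  rw [mul_inv_eq_iff_eq_mul]
  apply Subtype.ext
  rw [Linear.val_mul, Linear.val_mul, up_val, up_val]
  ext i j
  fin_cases i <;> fin_cases j <;> simp [dg, Matrix.mul_apply, Fin.sum_univ_two]
  field_simp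

theorem dg_conj_lo (a : Fˣ) (t : F) : dg a * lo t * (dg a)⁻¹ = lo ((↑(a⁻¹) : F) ^ 2 * t) := by
  rw [mul_inv_eq_iff_eq_mul]
  apply Subtype.ext
  rw [Linear.val_mul, Linear.val_mul, lo_val, lo_val]
  ext i j
  fin_cases i <;> fin_cases j <;> simp [dg, Matrix.mul_apply, Fin.sum_univ_two]
  field_simp

/-- An element exchanging the two unipotent groups. -/
theorem eq_wm_of_swap {y : SL(2, F)} (h1 : ∃ c, y * up 1 * y⁻¹ = lo c) (h2 : ∃ c, y * lo 1 * y⁻¹ = up c) :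
    ∃ a : Fˣ, y = dg a * wm 1 := by
  obtain ⟨c, hc⟩ := h1
  obtain ⟨d, hd⟩ := h2
  rw [mul_inv_eq_iff_eq_mul] at hc hd
  have e1 := congrArg (fun A : SL(2, F) => A.1 0 1) hc
  have e2 := congrArg (fun A : SL(2, F) => A.1 1 0) hd
  simp [Linear.val_mul, up_val, lo_val, Matrix.mul_apply, Fin.sum_univ_two] at e1 e2
  have hdet := y.2
  rw [Matrix.det_fin_two, e1, zero_mul, zero_sub] at hdet
  have h01 : y.1 0 1 ≠ 0 := fun h => by rw [h] at hdet; simp at hdet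
  refine ⟨Units.mk0 _ h01, ?_⟩
  rw [← wm_eq h01]
  apply Subtype.ext
  rw [wm_val' h01]
  have h10 : y.1 1 0 = -(y.1 0 1)⁻¹ := by
    field_simp
    linear_combination (-1 : F) * hdet
  ext i j
  fin_cases i <;> fin_cases j <;> simp [e1, e2, h10]

theorem pel_up {p : ℕ} [CharP F p] (t : F) : PEl p (up t) := by
  refine ⟨1, ?_⟩
  have h : ∀ n : ℕ, up t ^ n = up ((n : F) * t) := fun n => by
    induction n with
    | zero => simp [up_zero]
    | succ n ih => rw [pow_succ, ih, up_add]; congr 1; push_cast; ring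
  rw [h, pow_one, CharP.cast_eq_zero F p, zero_mul, up_zero]

theorem pel_lo {p : ℕ} [CharP F p] (t : F) : PEl p (lo t) := by
  rw [show lo t = wm 1 * up (-t) * (wm 1)⁻¹ by rw [wm_conj_up, neg_neg]]
  obtain ⟨k, hk⟩ := pel_up (p := p) (-t)
  exact ⟨k, by rw [conj_pow, hk]; group⟩

theorem gen_pel {p : ℕ} [CharP F p] : Subgroup.closure {h : SL(2, F) | PEl p h} = ⊤ := by
  refine eq_top_iff.2 fun A _ => sl2_induction (fun A => A ∈ _) (fun t => Subgroup.subset_closure (pel_up t))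
    (fun t => Subgroup.subset_closure (pel_lo t)) (fun _ _ => mul_mem) A

end SLTwo

section Group12

/-- The elements of a group generated by two involutions with product of order dividing 6. -/
theorem dihedral_words {Q : Type*} [Group Q] {a b : Q} (ha : a * a = 1) (hb : b * b = 1) (h : (a * b) ^ 6 = 1)
    {x : Q} (hx : x ∈ Subgroup.closure ({a, b} : Set Q)) :
    ∃ k < 6, ∃ e < 2, x = (a * b) ^ k * a ^ e := by
  have hainv : a⁻¹ = a := inv_eq_of_mul_eq_one_right ha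
  have hbinv : b⁻¹ = b := inv_eq_of_mul_eq_one_right hb
  have hflip : ∀ l : ℤ, a * (a * b) ^ l = (a * b) ^ (-l) * a := by
    intro l
    have h1 : a * (a * b) * a⁻¹ = (a * b)⁻¹ := by
      rw [mul_inv_rev, hbinv, hainv, ← mul_assoc, ha, one_mul]
    have h2 : (a * (a * b) * a⁻¹) ^ l = a * (a * b) ^ l * a⁻¹ := conj_zpow
    rw [h1, inv_zpow'] at h2
    rw [h2]
    group
  let S : Subgroup Q :=
    { carrier := {x | ∃ k : ℤ, x = (a * b) ^ k ∨ x = (a * b) ^ k * a}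
      one_mem' := ⟨0, Or.inl (by simp)⟩
      mul_mem' := by
        rintro x y ⟨k, rfl | rfl⟩ ⟨l, rfl | rfl⟩
        · exact ⟨k + l, Or.inl (zpow_add _ _ _).symm⟩
        · exact ⟨k + l, Or.inr (by rw [zpow_add, mul_assoc])⟩
        · refine ⟨k + -l, Or.inr ?_⟩
          rw [mul_assoc, hflip, zpow_add, mul_assoc]
        · refine ⟨k + -l, Or.inl ?_⟩
          rw [mul_assoc, ← mul_assoc a, hflip, mul_assoc, ha, mul_one, zpow_add]
      inv_mem' := by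
        rintro x ⟨k, rfl | rfl⟩
        · exact ⟨-k, Or.inl (zpow_neg _ _).symm⟩
        · refine ⟨k, Or.inr ?_⟩
          rw [mul_inv_rev, hainv, ← zpow_neg, hflip, neg_neg] }
  have hle : Subgroup.closure ({a, b} : Set Q) ≤ S := by
    rw [Subgroup.closure_le]
    rintro x (rfl | rfl)
    · exact ⟨0, Or.inr (by simp)⟩
    · refine ⟨-1, Or.inr ?_⟩
      rw [zpow_neg_one, mul_inv_rev, hbinv, hainv, mul_assoc, ha, mul_one]
  obtain ⟨k, hk⟩ := hle hx
  have hmod : (a * b) ^ k = (a * b) ^ (k % 6).toNat := by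
    have h6 : (a * b) ^ (6 : ℤ) = 1 := by exact_mod_cast h
    rw [← zpow_natCast, Int.toNat_of_nonneg (Int.emod_nonneg k (by norm_num))]
    conv_lhs => rw [← Int.mul_ediv_add_emod k 6, zpow_add, zpow_mul, h6, one_zpow, one_mul]
  have hlt : (k % 6).toNat < 6 := by omega
  rcases hk with hk | hk
  · exact ⟨_, hlt, 0, by norm_num, by rw [pow_zero, mul_one, hk, hmod]⟩
  · exact ⟨_, hlt, 1, by norm_num, by rw [pow_one, hk, hmod]⟩

end Group12

variable {E : Type u} {G : Type v} [Group E] [Group G] {σ : E →* G} {r p : ℕ}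
variable {F L : Type*} [Field F] [Field L]

/-- The torus of two copies of `SL₂`. -/
def torus {M : Type*} [Group M] (φ : SL(2, F) →* M) (ψ : SL(2, L) →* M) : Subgroup M :=
  (φ.comp dgHom).range ⊔ (ψ.comp dgHom).range

/-- The monomial group of two copies of `SL₂`. -/
def mono {M : Type*} [Group M] (φ : SL(2, F) →* M) (ψ : SL(2, L) →* M) : Subgroup M :=
  Subgroup.closure {φ (wm 1), ψ (wm 1)} ⊔ torus φ ψ

/-- The properties of one side. -/
structure Side (φ : SL(2, F) →* G) (ψ : SL(2, L) →* G) (U : Subgroup G) : Prop where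
  inj : Function.Injective φ
  up_mem : ∀ t, φ (up t) ∈ U
  tor_up : ∀ (b : Lˣ) (t : F), ∃ t', ψ (dg b) * φ (up t) * (ψ (dg b))⁻¹ = φ (up t')
  tor_lo : ∀ (b : Lˣ) (t : F), ∃ t', ψ (dg b) * φ (lo t) * (ψ (dg b))⁻¹ = φ (lo t')
  tor_U : ∀ (a : Fˣ), ∀ u ∈ U, φ (dg a) * u * (φ (dg a))⁻¹ ∈ U
  split : ∀ u ∈ U, ∃ t, φ (wm 1) * (u * φ (up t)) * (φ (wm 1))⁻¹ ∈ U
  dich : ∀ n ∈ mono φ ψ, (∀ t, n⁻¹ * φ (up t) * n ∈ U) ∨
    ∀ t, ((φ (wm 1))⁻¹ * n)⁻¹ * φ (up t) * ((φ (wm 1))⁻¹ * n) ∈ U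

/-- The common properties. -/
structure Frame (φ : SL(2, F) →* G) (ψ : SL(2, L) →* G) (U : Subgroup G) : Prop where
  left : Side φ ψ U
  right : Side ψ φ U
  pgroup : IsPGroup p U
  gen : φ.range ⊔ ψ.range = ⊤
  tcomm : ∀ a b, Commute (φ (dg a)) (ψ (dg b))
  tinj : ∀ a b, φ (dg a) * ψ (dg b) = 1 → a = 1 ∧ b = 1
  borel : ∀ n ∈ mono φ ψ, n ∈ U ⊔ torus φ ψ → n ∈ torus φ ψ
  braid_up : ∀ t, ∃ t', (ψ (wm 1) * φ (wm 1) * ψ (wm 1) * φ (wm 1) * ψ (wm 1)) * φ (up t) *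
    (ψ (wm 1) * φ (wm 1) * ψ (wm 1) * φ (wm 1) * ψ (wm 1))⁻¹ = φ (up t')
  braid_lo : ∀ t, ∃ t', (ψ (wm 1) * φ (wm 1) * ψ (wm 1) * φ (wm 1) * ψ (wm 1)) * φ (lo t) *
    (ψ (wm 1) * φ (wm 1) * ψ (wm 1) * φ (wm 1) * ψ (wm 1))⁻¹ = φ (lo t')
  words : ∀ k < 6, ∀ e < 2, (φ (wm 1) * ψ (wm 1)) ^ k * φ (wm 1) ^ e ∈ torus φ ψ → k = 0 ∧ e = 0

theorem mono_comm {M : Type*} [Group M] (φ : SL(2, F) →* M) (ψ : SL(2, L) →* M) :
    mono ψ φ = mono φ ψ := by
  rw [mono, mono, torus, torus, sup_comm (ψ.comp dgHom).range, Set.pair_comm]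

theorem dg_mem_torus {M : Type*} [Group M] (φ : SL(2, F) →* M) (ψ : SL(2, L) →* M) (a : Fˣ) :
    φ (dg a) ∈ torus φ ψ := Subgroup.mem_sup_left ⟨a, rfl⟩

theorem dg_mem_torus' {M : Type*} [Group M] (φ : SL(2, F) →* M) (ψ : SL(2, L) →* M) (b : Lˣ) :
    ψ (dg b) ∈ torus φ ψ := Subgroup.mem_sup_right ⟨b, rfl⟩

variable [hr : Fact r.Prime] [hp : Fact p.Prime]

/-- Conjugates of a lifted `SL₂`. -/
theorem conj_lift [CharP F p] (hne : p ≠ r) (hc : σ.ker ≤ Subgroup.center E) (hk : IsPGroup r σ.ker)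
    {φ : SL(2, F) →* G} (hinj : Function.Injective φ) {ρ : SL(2, F) →* E} (hρ : ∀ h, σ (ρ h) = φ h) {g : E}
    (hup : ∀ t, ∃ t', σ g * φ (up t) * (σ g)⁻¹ = φ (up t'))
    (hlo : ∀ t, ∃ t', σ g * φ (lo t) * (σ g)⁻¹ = φ (lo t')) (y : SL(2, F)) :
    ∃ y', g * ρ y * g⁻¹ = ρ y' ∧ ∀ z, σ g * φ y * (σ g)⁻¹ = φ z → g * ρ y * g⁻¹ = ρ z := by
  suffices h : ∃ y', g * ρ y * g⁻¹ = ρ y' by
    obtain ⟨y', hy'⟩ := h
    refine ⟨y', hy', fun z hz => ?_⟩
    have : φ y' = φ z := by rw [← hρ, ← hy', map_mul, map_mul, map_inv, hρ, hz]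
    rw [hy', hinj this]
  refine sl2_induction (fun y => ∃ y', g * ρ y * g⁻¹ = ρ y') (fun t => ?_) (fun t => ?_) ?_ y
  · obtain ⟨t', ht'⟩ := hup t
    refine ⟨up t', plift_unique hne hc hk (((pel_up t).map ρ).conj g) ((pel_up t').map ρ) ?_⟩
    rw [map_mul, map_mul, map_inv, hρ, hρ, ht']
  · obtain ⟨t', ht'⟩ := hlo t
    refine ⟨lo t', plift_unique hne hc hk (((pel_lo t).map ρ).conj g) ((pel_lo t').map ρ) ?_⟩
    rw [map_mul, map_mul, map_inv, hρ, hρ, ht']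
  · rintro A B ⟨A', hA⟩ ⟨B', hB⟩
    exact ⟨A' * B', by rw [map_mul, map_mul, ← hA, ← hB]; group⟩

/-- The lifted torus element of one side moves the lifted Weyl element of the other inside the torus. -/
theorem wm_conj_dg [CharP F p] (hne : p ≠ r) (hc : σ.ker ≤ Subgroup.center E) (hk : IsPGroup r σ.ker)
    {φ : SL(2, F) →* G} {ψ : SL(2, L) →* G} {U : Subgroup G} (S : Side φ ψ U)
    {ρ : SL(2, F) →* E} {ρ' : SL(2, L) →* E} (hρ : ∀ h, σ (ρ h) = φ h) (hρ' : ∀ h, σ (ρ' h) = ψ h) (b : Lˣ) :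
    ρ (wm 1) * ρ' (dg b) * (ρ (wm 1))⁻¹ ∈ torus ρ ρ' := by
  have hcl : ∀ (c : Lˣ) y, ∃ y', ρ' (dg c) * ρ y * (ρ' (dg c))⁻¹ = ρ y' ∧
      ∀ z, σ (ρ' (dg c)) * φ y * (σ (ρ' (dg c)))⁻¹ = φ z → ρ' (dg c) * ρ y * (ρ' (dg c))⁻¹ = ρ z := fun c y =>
    conj_lift hne hc hk S.inj hρ (fun t => by rw [hρ']; exact S.tor_up c t)
      (fun t => by rw [hρ']; exact S.tor_lo c t) y
  obtain ⟨y, hy, -⟩ := hcl b⁻¹ (wm 1)
  have hyG : φ y = ψ (dg b⁻¹) * φ (wm 1) * (ψ (dg b⁻¹))⁻¹ := by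
    rw [← hρ, ← hy, map_mul, map_mul, map_inv, hρ', hρ]
  have hb : (ψ (dg b⁻¹))⁻¹ = ψ (dg b) := by rw [dg_inv, map_inv, inv_inv]
  have swap1 : ∃ c, y * up 1 * y⁻¹ = lo c := by
    obtain ⟨t, ht⟩ := S.tor_up b 1
    obtain ⟨t', ht'⟩ := S.tor_lo b⁻¹ (-t)
    refine ⟨t', S.inj ?_⟩
    rw [map_mul, map_mul, map_inv, hyG, ← ht', ← wm_conj_up, map_mul, map_mul, map_inv, ← ht, ← hb]
    group
  have swap2 : ∃ c, y * lo 1 * y⁻¹ = up c := by
    obtain ⟨t, ht⟩ := S.tor_lo b 1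
    obtain ⟨t', ht'⟩ := S.tor_up b⁻¹ (-t)
    refine ⟨t', S.inj ?_⟩
    rw [map_mul, map_mul, map_inv, hyG, ← ht', ← wm_conj_lo, map_mul, map_mul, map_inv, ← ht, ← hb]
    group
  obtain ⟨a, rfl⟩ := eq_wm_of_swap swap1 swap2
  have e : ρ (wm 1) * ρ' (dg b) * (ρ (wm 1))⁻¹ = (ρ' (dg b⁻¹))⁻¹ * ρ (dg a) := by
    have hb' : ρ' (dg b) = (ρ' (dg b⁻¹))⁻¹ := by rw [dg_inv, map_inv, inv_inv]
    rw [map_mul] at hy
    rw [mul_inv_eq_iff_eq_mul, hb', mul_assoc, ← hy]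
    group
  rw [e]
  exact mul_mem (inv_mem (dg_mem_torus' _ _ _)) (dg_mem_torus _ _ _)

/-- One cell step. -/
theorem cell_step [CharP F p] (hne : p ≠ r) (hc : σ.ker ≤ Subgroup.center E) (hk : IsPGroup r σ.ker)
    {φ : SL(2, F) →* G} {ψ : SL(2, L) →* G} {U : Subgroup G} (S : Side φ ψ U)
    {ρ : SL(2, F) →* E} (hρ : ∀ h, σ (ρ h) = φ h) {U' T' N' : Subgroup E}
    (hU' : ∀ x, x ∈ U' ↔ PEl p x ∧ σ x ∈ U) (hT : ∀ a, ρ (dg a) ∈ T') (hTN : T' ≤ N')
    (hTU : T' ≤ Subgroup.normalizer (U' : Set E)) (hN : ∀ n ∈ N', σ n ∈ mono φ ψ)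
    (hw : ρ (wm 1) ∈ N') :
    ∀ g ∈ {g | ∃ b ∈ U' ⊔ T', ∃ n ∈ N', ∃ b' ∈ U' ⊔ T', g = b * n * b'}, ∀ y : SL(2, F),
      ρ y * g ∈ {g | ∃ b ∈ U' ⊔ T', ∃ n ∈ N', ∃ b' ∈ U' ⊔ T', g = b * n * b'} := by
  set C : Set E := {g | ∃ b ∈ U' ⊔ T', ∃ n ∈ N', ∃ b' ∈ U' ⊔ T', g = b * n * b'}
  have hCB : ∀ b ∈ U' ⊔ T', ∀ g ∈ C, b * g ∈ C := by
    rintro b hb _ ⟨b1, h1, n, hn, b2, h2, rfl⟩
    exact ⟨b * b1, mul_mem hb h1, n, hn, b2, h2, by simp [mul_assoc]⟩
  have hmemU : ∀ x, PEl p x → σ x ∈ U → x ∈ U' ⊔ T' := fun x h h' =>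
    Subgroup.mem_sup_left ((hU' x).2 ⟨h, h'⟩)
  have hupU : ∀ t, ρ (up t) ∈ U' ⊔ T' := fun t =>
    hmemU _ ((pel_up t).map ρ) (by rw [hρ]; exact S.up_mem t)
  set s := ρ (wm 1) with hs
  -- the Weyl element times a root element times a monomial element
  have key : ∀ (t : F), ∀ n ∈ N', ∀ b' ∈ U' ⊔ T', s * ρ (up t) * n * b' ∈ C := by
    intro t n hn b' hb'
    rcases S.dich _ (hN n hn) with h | h
    · have hm : n⁻¹ * ρ (up t) * n ∈ U' ⊔ T' := by
        refine hmemU _ ?_ ?_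
        · simpa using ((pel_up t).map ρ).conj n⁻¹
        · simpa [hρ] using h t
      exact ⟨1, one_mem _, s * n, mul_mem hw hn, _, mul_mem hm hb', by simp [mul_assoc]⟩
    rcases eq_or_ne t 0 with rfl | ht
    · exact ⟨1, one_mem _, s * n, mul_mem hw hn, b', hb', by simp [up_zero, mul_assoc]⟩
    have hm : (s⁻¹ * n)⁻¹ * ρ (up (-t⁻¹)) * (s⁻¹ * n) ∈ U' ⊔ T' := by
      refine hmemU _ ?_ ?_
      · simpa using ((pel_up _).map ρ).conj (s⁻¹ * n)⁻¹
      · simpa [hρ, hs] using h (-t⁻¹)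
    refine ⟨ρ (up (-t⁻¹)) * ρ (dg (Units.mk0 (-t⁻¹) (neg_ne_zero.2 (inv_ne_zero ht)))),
      mul_mem (hupU _) (Subgroup.mem_sup_right (hT _)), n, hn, _, mul_mem hm hb', ?_⟩
    rw [hs, ← map_mul, wm_up ht, map_mul, map_mul, wm_mul_neg_one (neg_ne_zero.2 (inv_ne_zero ht)),
      show lo t⁻¹ = wm 1 * up (-t⁻¹) * (wm 1)⁻¹ by rw [wm_conj_up, neg_neg], map_mul, map_mul, map_inv]
    group
  have hsC : ∀ g ∈ C, s * g ∈ C := by
    rintro _ ⟨b, hb, n, hn, b', hb', rfl⟩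
    have hb2 : b ∈ (↑(U' ⊔ T') : Set E) := hb
    rw [Subgroup.coe_mul_of_right_le_normalizer_left U' T' hTU] at hb2
    obtain ⟨u, hu, t₁, ht₁, rfl⟩ := Set.mem_mul.1 hb2
    obtain ⟨c, hcU⟩ := S.split _ ((hU' u).1 hu).2
    set v := u * ρ (up c) with hv
    have hvU : v ∈ U' := mul_mem hu ((hU' _).2 ⟨(pel_up c).map ρ, by rw [hρ]; exact S.up_mem c⟩)
    have hsv : s * v * s⁻¹ ∈ U' ⊔ T' := hmemU _ (((hU' v).1 hvU).1.conj s)
      (by simpa [hv, hs, hρ] using hcU)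
    have hc0 : ρ (up (-c)) = (ρ (up c))⁻¹ :=
      (inv_eq_of_mul_eq_one_right (by rw [← map_mul, up_add, add_neg_cancel, up_zero, map_one])).symm
    have := hCB _ hsv _ (key (-c) (t₁ * n) (mul_mem (hTN ht₁) hn) b' hb')
    convert this using 1
    rw [hc0, hv]
    group
  have hsC' : ∀ g ∈ C, s⁻¹ * g ∈ C := by
    intro g hg
    have e : s⁻¹ = ρ (dg (Units.mk0 (-1) (neg_ne_zero.2 one_ne_zero))) * s := by
      rw [hs, ← map_inv, ← map_mul, ← wm_inv, ← wm_eq]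
    rw [e, mul_assoc]
    exact hCB _ (Subgroup.mem_sup_right (hT _)) _ (hsC g hg)
  intro g hg y
  revert g
  refine sl2_induction (fun y => ∀ g ∈ C, ρ y * g ∈ C) (fun t g hg => hCB _ (hupU t) g hg) (fun t g hg => ?_)
    (fun A B hA hB g hg => ?_) y
  · rw [show lo t = wm 1 * up (-t) * (wm 1)⁻¹ by rw [wm_conj_up, neg_neg], map_mul, map_mul, map_inv, ← hs,
      mul_assoc, mul_assoc]
    exact hsC _ (hCB _ (hupU _) _ (hsC' g hg))
  · rw [map_mul, mul_assoc]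
    exact hA _ (hB g hg)

theorem not_dvd_card (hne : p ≠ r) {K : Type*} [Field K] [Fintype K] [CharP K p] :
    ¬ r ∣ Fintype.card K := fun hd => by
  obtain ⟨f, -, hf⟩ := FiniteField.card K p
  exact hne ((Nat.prime_dvd_prime_iff_eq hr.out hp.out).1 (hr.out.dvd_of_dvd_pow (hf ▸ hd))).symm

theorem units_eq_one {K : Type*} [Field K] [CharP K p] {k : ℕ} (a : Kˣ) (h : a ^ p ^ k = 1) : a = 1 := by
  have h1 : (a : K) ^ p ^ k = 1 := by rw [← Units.val_pow_eq_pow_val, h, Units.val_one]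
  have h2 : ((a : K) - 1) ^ p ^ k = 0 := by rw [sub_pow_char_pow, h1, one_pow, sub_self]
  exact Units.ext (sub_eq_zero.1 (eq_zero_of_pow_eq_zero h2))

/-- The kernel is trivial. -/
theorem ker_eq_bot [Finite E] [Finite F] [Finite L] [CharP F p] [CharP L p] (hne : p ≠ r)
    (hstem : IsStemExtension σ) (hk : IsPGroup r σ.ker)
    {φ : SL(2, F) →* G} {ψ : SL(2, L) →* G} {U : Subgroup G} (H : Frame (p := p) φ ψ U) : σ.ker = ⊥ := by
  obtain ⟨hs, hc, hcomm⟩ := hstem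
  have := Fintype.ofFinite F
  have := Fintype.ofFinite L
  classical
  obtain ⟨ρ, hρ⟩ := exists_lift hne hs hc hk φ gen_pel
    (SL2.not_dvd_card_schurMult_of_ne_char r (not_dvd_card hne))
  obtain ⟨ρ', hρ'⟩ := exists_lift hne hs hc hk ψ gen_pel
    (SL2.not_dvd_card_schurMult_of_ne_char r (not_dvd_card hne))
  obtain ⟨U', hU'⟩ := exists_lift_subgroup hne hs hc hk U H.pgroup
  set T' := torus ρ ρ' with hT'
  set N' := mono ρ ρ' with hN'
  have hTN : T' ≤ N' := le_sup_right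
  have hTU : T' ≤ Subgroup.normalizer (U' : Set E) := by
    have key : ∀ g : E, (∀ u ∈ U, σ g * u * (σ g)⁻¹ ∈ U) → (∀ u ∈ U, (σ g)⁻¹ * u * σ g ∈ U) →
        g ∈ Subgroup.normalizer (U' : Set E) := fun g h1 h2 => Subgroup.mem_normalizer_iff.2 fun x => by
      refine ⟨fun hx => ?_, fun hx => ?_⟩
      · exact (hU' _).2 ⟨((hU' x).1 hx).1.conj g, by simpa using h1 _ ((hU' x).1 hx).2⟩
      · refine (hU' _).2 ⟨by simpa [mul_assoc] using ((hU' _).1 hx).1.conj g⁻¹, ?_⟩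
        simpa [mul_assoc] using h2 _ ((hU' _).1 hx).2
    rw [hT', torus, sup_le_iff]
    constructor
    · rintro _ ⟨a, rfl⟩
      refine key _ (fun u hu => by rw [MonoidHom.comp_apply, hρ]; exact H.left.tor_U a u hu) fun u hu => ?_
      have := H.left.tor_U a⁻¹ u hu
      simpa [dgHom_apply, hρ, dg_inv] using this
    · rintro _ ⟨b, rfl⟩
      refine key _ (fun u hu => by rw [MonoidHom.comp_apply, hρ']; exact H.right.tor_U b u hu) fun u hu => ?_
      have := H.right.tor_U b⁻¹ u hu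
      simpa [dgHom_apply, hρ', dg_inv] using this
  have himgT : T'.map σ = torus φ ψ := by
    rw [hT', torus, torus, Subgroup.map_sup, MonoidHom.map_range, MonoidHom.map_range]
    congr 2 <;> exact MonoidHom.ext fun a => by simp [hρ, hρ']
  have himgN : N'.map σ = mono φ ψ := by
    rw [hN', mono, mono, Subgroup.map_sup, ← hT', himgT, MonoidHom.map_closure, Set.image_pair, hρ, hρ']
  have hN : ∀ n ∈ N', σ n ∈ mono φ ψ := fun n hn => himgN ▸ Subgroup.mem_map_of_mem σ hn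
  -- torus elements
  have hdd : ∀ a b, Commute (ρ (dg a)) (ρ' (dg b)) := by
    intro a b
    obtain ⟨y, hy, hy'⟩ := conj_lift hne hc hk H.left.inj hρ (g := ρ' (dg b))
      (fun t => by rw [hρ']; exact H.left.tor_up b t) (fun t => by rw [hρ']; exact H.left.tor_lo b t) (dg a)
    refine (mul_inv_eq_iff_eq_mul.1 (hy' (dg a) ?_)).symm
    rw [hρ', ← (H.tcomm a b).eq, mul_inv_cancel_right]
  have hTel : ∀ x ∈ T', ∃ a b, x = ρ (dg a) * ρ' (dg b) := by
    intro x hx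
    rw [hT', torus, ← SetLike.mem_coe, Subgroup.coe_mul_of_left_le_normalizer_right] at hx
    · obtain ⟨_, ⟨a, rfl⟩, _, ⟨b, rfl⟩, rfl⟩ := Set.mem_mul.1 hx
      exact ⟨a, b, rfl⟩
    · rintro _ ⟨a, rfl⟩
      refine Subgroup.mem_normalizer_iff.2 fun x => ⟨?_, ?_⟩
      · rintro ⟨b, rfl⟩
        exact ⟨b, by simp [dgHom_apply, (hdd a b).eq]⟩
      · rintro ⟨b, hb⟩
        exact ⟨b, mul_left_cancel (a := ρ (dg a)) (mul_right_cancel (b := (ρ (dg a))⁻¹)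
          (hb.symm.trans (by simp [dgHom_apply, (hdd a b).eq])).symm)⟩
  -- the Weyl elements normalise the torus
  have hwT : ∀ g ∈ T', ρ (wm 1) * g * (ρ (wm 1))⁻¹ ∈ T' ∧ ρ' (wm 1) * g * (ρ' (wm 1))⁻¹ ∈ T' := by
    intro g hg
    obtain ⟨a, b, rfl⟩ := hTel g hg
    constructor
    · rw [show ρ (wm 1) * (ρ (dg a) * ρ' (dg b)) * (ρ (wm 1))⁻¹ =
        ρ (wm 1 * dg a * (wm 1)⁻¹) * (ρ (wm 1) * ρ' (dg b) * (ρ (wm 1))⁻¹) by
          rw [map_mul, map_mul, map_inv]; group, wm_flip]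
      exact mul_mem (dg_mem_torus _ _ _) (wm_conj_dg hne hc hk H.left hρ hρ' b)
    · rw [show ρ' (wm 1) * (ρ (dg a) * ρ' (dg b)) * (ρ' (wm 1))⁻¹ =
        (ρ' (wm 1) * ρ (dg a) * (ρ' (wm 1))⁻¹) * ρ' (wm 1 * dg b * (wm 1)⁻¹) by
          rw [map_mul, map_mul, map_inv]; group, wm_flip]
      refine mul_mem ?_ (dg_mem_torus' _ _ _)
      have := wm_conj_dg hne hc hk H.right hρ' hρ a
      rwa [torus, sup_comm] at this
  have hnorm : N' ≤ Subgroup.normalizer (T' : Set E) := by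
    have key : ∀ g : E, (∀ x ∈ T', g * x * g⁻¹ ∈ T') → g ∈ Subgroup.normalizer (T' : Set E) := by
      intro g hg
      refine Subgroup.mem_normalizer_iff.2 fun x => ⟨hg x, fun hx => ?_⟩
      let f : ↥T' → ↥T' := fun x => ⟨g * x * g⁻¹, hg x x.2⟩
      have hf : Function.Injective f := fun a b e => Subtype.ext
        (mul_left_cancel (mul_right_cancel (congrArg Subtype.val e)))
      obtain ⟨⟨y, hy⟩, hyx⟩ := Finite.injective_iff_surjective.1 hf ⟨_, hx⟩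
      have : y = x := mul_left_cancel (mul_right_cancel (congrArg Subtype.val hyx))
      exact this ▸ hy
    rw [hN', mono, sup_le_iff, Subgroup.closure_le]
    refine ⟨?_, Subgroup.le_normalizer⟩
    rintro g (rfl | rfl)
    · exact key _ fun x hx => (hwT x hx).1
    · exact key _ fun x hx => (hwT x hx).2
  have hw : ρ (wm 1) ∈ N' := Subgroup.mem_sup_left (Subgroup.subset_closure (Or.inl rfl))
  have hw' : ρ' (wm 1) ∈ N' := Subgroup.mem_sup_left (Subgroup.subset_closure (Or.inr rfl))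
  have hweyl : ∀ n ∈ N', σ n ∈ torus φ ψ → n ∈ T' := by
    intro n hn hnT
    set Nn := Subgroup.normalizer (T' : Set E) with hNn
    have : (T'.subgroupOf Nn).Normal := Subgroup.normal_in_normalizer
    let π := QuotientGroup.mk' (T'.subgroupOf Nn)
    have hπ : ∀ x : ↥Nn, π x = 1 ↔ (x : E) ∈ T' := fun x =>
      (QuotientGroup.eq_one_iff x).trans Subgroup.mem_subgroupOf
    set a := π ⟨ρ (wm 1), hnorm hw⟩
    set b := π ⟨ρ' (wm 1), hnorm hw'⟩
    have ha : a * a = 1 := by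
      rw [← map_mul, hπ]
      show ρ (wm 1) * ρ (wm 1) ∈ T'
      rw [← map_mul, wm_sq]
      exact dg_mem_torus _ _ _
    have hb : b * b = 1 := by
      rw [← map_mul, hπ]
      show ρ' (wm 1) * ρ' (wm 1) ∈ T'
      rw [← map_mul, wm_sq]
      exact dg_mem_torus' _ _ _
    -- the braid relation
    set g := ρ' (wm 1) * ρ (wm 1) * ρ' (wm 1) * ρ (wm 1) * ρ' (wm 1) with hg
    set g₀ := ψ (wm 1) * φ (wm 1) * ψ (wm 1) * φ (wm 1) * ψ (wm 1) with hg₀
    have hσg : σ g = g₀ := by rw [hg, hg₀]; simp [hρ, hρ']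
    obtain ⟨y, hy, -⟩ := conj_lift hne hc hk H.left.inj hρ (g := g) (fun t => by rw [hσg]; exact H.braid_up t)
      (fun t => by rw [hσg]; exact H.braid_lo t) (wm 1)
    have hyG : φ y = g₀ * φ (wm 1) * g₀⁻¹ := by rw [← hρ, ← hy, map_mul, map_mul, map_inv, hρ, hσg]
    choose fu hfu using H.braid_up
    choose fl hfl using H.braid_lo
    have hfui : Function.Injective fu := fun s t e => up_inj (H.left.inj
      (mul_left_cancel (mul_right_cancel ((hfu s).trans ((congrArg (fun x => φ (up x)) e).trans (hfu t).symm)))))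
    have hfli : Function.Injective fl := fun s t e => lo_inj (H.left.inj
      (mul_left_cancel (mul_right_cancel ((hfl s).trans ((congrArg (fun x => φ (lo x)) e).trans (hfl t).symm)))))
    obtain ⟨t₀, ht₀⟩ := Finite.injective_iff_surjective.1 hfui 1
    obtain ⟨u₀, hu₀⟩ := Finite.injective_iff_surjective.1 hfli 1
    have swap1 : ∃ c, y * up 1 * y⁻¹ = lo c := by
      refine ⟨fl (-t₀), H.left.inj ?_⟩
      have e := hfu t₀
      rw [ht₀, ← hg₀] at e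
      rw [map_mul, map_mul, map_inv, hyG, ← hfl, ← wm_conj_up, ← e, map_mul, map_mul, map_inv, hg₀]
      group
    have swap2 : ∃ c, y * lo 1 * y⁻¹ = up c := by
      refine ⟨fu (-u₀), H.left.inj ?_⟩
      have e := hfl u₀
      rw [hu₀, ← hg₀] at e
      rw [map_mul, map_mul, map_inv, hyG, ← hfu, ← wm_conj_lo, ← e, map_mul, map_mul, map_inv, hg₀]
      group
    obtain ⟨c, rfl⟩ := eq_wm_of_swap swap1 swap2
    have hbraid : (b * a * b * a * b) * a * (b * a * b * a * b)⁻¹ = a := by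
      rw [← mul_inv_eq_one]
      simp only [a, b, ← map_mul, ← map_inv]
      rw [hπ]
      show g * ρ (wm 1) * g⁻¹ * (ρ (wm 1))⁻¹ ∈ T'
      rw [hy, map_mul, mul_inv_cancel_right]
      exact dg_mem_torus _ _ _
    have h6 : (a * b) ^ 6 = 1 := by
      have hainv : a⁻¹ = a := inv_eq_of_mul_eq_one_right ha
      have hbinv : b⁻¹ = b := inv_eq_of_mul_eq_one_right hb
      rw [mul_inv_eq_iff_eq_mul] at hbraid
      have e1 : (b * a) ^ 3 = (a * b) ^ 3 := by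
        simp only [pow_succ, pow_zero, one_mul, ← mul_assoc] at hbraid ⊢
        exact hbraid
      have e2 : (b * a) = (a * b)⁻¹ := by rw [mul_inv_rev, hainv, hbinv]
      rw [e2, inv_pow, inv_eq_iff_mul_eq_one, ← pow_add] at e1
      exact e1
    have hle : N' ≤ ((Subgroup.closure ({a, b} : Set _)).comap π).map Nn.subtype := by
      rw [hN', mono, sup_le_iff, Subgroup.closure_le]
      refine ⟨?_, fun x hx => ⟨⟨x, hnorm (hTN hx)⟩, ?_, rfl⟩⟩
      · rintro x (rfl | rfl)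
        · exact ⟨⟨_, hnorm hw⟩, Subgroup.mem_comap.2 (Subgroup.subset_closure (Or.inl rfl)), rfl⟩
        · exact ⟨⟨_, hnorm hw'⟩, Subgroup.mem_comap.2 (Subgroup.subset_closure (Or.inr rfl)), rfl⟩
      · rw [SetLike.mem_coe, Subgroup.mem_comap, (hπ ⟨x, hnorm (hTN hx)⟩).2 hx]
        exact one_mem _
    obtain ⟨x, hx, rfl⟩ := hle hn
    obtain ⟨k, hk', e, he, hxe⟩ := dihedral_words ha hb h6 (Subgroup.mem_comap.1 hx)
    simp only [a, b, ← map_mul, ← map_pow] at hxe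
    rw [← mul_inv_eq_one, ← map_inv, ← map_mul, hπ] at hxe
    have hσ : (φ (wm 1) * ψ (wm 1)) ^ k * φ (wm 1) ^ e ∈ torus φ ψ := by
      have h1 : σ ((x : E) * ((ρ (wm 1) * ρ' (wm 1)) ^ k * ρ (wm 1) ^ e)⁻¹) ∈ torus φ ψ :=
        himgT ▸ Subgroup.mem_map_of_mem σ hxe
      have h2 := mul_mem (inv_mem h1) hnT
      simpa [hρ, hρ'] using h2
    obtain ⟨rfl, rfl⟩ := H.words k hk' e he hσ
    simpa using hxe
  -- the cells
  have himgB : (U' ⊔ T').map σ ≤ U ⊔ torus φ ψ := by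
    rw [Subgroup.map_sup, himgT]
    exact sup_le_sup_right (Subgroup.map_le_iff_le_comap.2 fun x hx => ((hU' x).1 hx).2) _
  set C : Set E := {g | ∃ b ∈ U' ⊔ T', ∃ n ∈ N', ∃ b' ∈ U' ⊔ T', g = b * n * b'} with hC
  have hst := cell_step hne hc hk H.left hρ hU' (fun a => dg_mem_torus _ _ a) hTN hTU hN hw
  have hst' := cell_step hne hc hk H.right hρ' hU' (fun b => dg_mem_torus' _ _ b) hTN hTU
    (fun n hn => by rw [mono_comm]; exact hN n hn) hw'
  let St : Subgroup E :=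
    { carrier := {h | (∀ g ∈ C, h * g ∈ C) ∧ ∀ g ∈ C, h⁻¹ * g ∈ C}
      one_mem' := ⟨fun g hg => by simpa using hg, fun g hg => by simpa using hg⟩
      mul_mem' := fun {a b} ha hb => ⟨fun g hg => by rw [mul_assoc]; exact ha.1 _ (hb.1 g hg),
        fun g hg => by rw [_root_.mul_inv_rev, mul_assoc]; exact hb.2 _ (ha.2 g hg)⟩
      inv_mem' := fun {a} ha => ⟨ha.2, fun g hg => by rw [inv_inv]; exact ha.1 g hg⟩ }
  have hR : ρ.range ⊔ ρ'.range ≤ St := by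
    rw [sup_le_iff]
    constructor
    · rintro _ ⟨y, rfl⟩
      exact ⟨fun g hg => hst g hg y, fun g hg => by rw [← map_inv]; exact hst g hg y⁻¹⟩
    · rintro _ ⟨y, rfl⟩
      exact ⟨fun g hg => hst' g hg y, fun g hg => by rw [← map_inv]; exact hst' g hg y⁻¹⟩
  have hsup : (ρ.range ⊔ ρ'.range) ⊔ Subgroup.center E = ⊤ := by
    rw [eq_top_iff]
    intro x _
    have hx : σ x ∈ (ρ.range ⊔ ρ'.range).map σ := by
      rw [Subgroup.map_sup, MonoidHom.map_range, MonoidHom.map_range, show σ.comp ρ = φ from MonoidHom.ext hρ,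
        show σ.comp ρ' = ψ from MonoidHom.ext hρ', H.gen]
      trivial
    obtain ⟨y, hy, hyx⟩ := hx
    rw [show x = y * (y⁻¹ * x) by group]
    exact mul_mem (Subgroup.mem_sup_left hy) (Subgroup.mem_sup_right (hc (by
      rw [MonoidHom.mem_ker, map_mul, map_inv, hyx, inv_mul_cancel])))
  rw [Subgroup.eq_bot_iff_forall]
  intro z hz
  have h1C : (1 : E) ∈ C := ⟨1, one_mem _, 1, one_mem _, 1, one_mem _, by simp⟩
  have hzC := (hR (commutator_le_of_sup_center hsup (hcomm hz))).1 1 h1C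
  rw [mul_one] at hzC
  obtain ⟨b, hb, n, hn, b', hb', rfl⟩ := hzC
  have hnB : σ n ∈ U ⊔ torus φ ψ := by
    rw [MonoidHom.mem_ker, map_mul, map_mul, mul_assoc, ← eq_inv_iff_mul_eq_one] at hz
    have h := congrArg (fun x => (σ n * σ b') * (σ b')⁻¹) (rfl : σ n = σ n)
    have h' : σ n = (σ b)⁻¹ * (σ b')⁻¹ := by rw [hz]; group
    rw [h']
    exact mul_mem (inv_mem (himgB (Subgroup.mem_map_of_mem σ hb))) (inv_mem (himgB (Subgroup.mem_map_of_mem σ hb')))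
  have hnT : n ∈ T' := hweyl n hn (H.borel _ (hN n hn) hnB)
  have hzB : b * n * b' ∈ (↑(U' ⊔ T') : Set E) := mul_mem (mul_mem hb (Subgroup.mem_sup_right hnT)) hb'
  rw [Subgroup.coe_mul_of_right_le_normalizer_left U' T' hTU] at hzB
  obtain ⟨u, hu, t, ht, hut⟩ := Set.mem_mul.1 hzB
  rw [← hut] at hz ⊢
  rw [MonoidHom.mem_ker, map_mul] at hz
  obtain ⟨hpu, -⟩ := (hU' u).1 hu
  obtain ⟨a, c, rfl⟩ := hTel t ht
  have hpt : PEl p (φ (dg a) * ψ (dg c)) := by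
    obtain ⟨k, hk'⟩ := hpu.map σ
    refine ⟨k, ?_⟩
    rw [show φ (dg a) * ψ (dg c) = (σ u)⁻¹ by
      rw [eq_inv_iff_mul_eq_one]
      have := eq_inv_of_mul_eq_one_left hz
      rw [this, ← hρ, ← hρ', ← map_mul, mul_inv_cancel], inv_pow, hk', inv_one]
  obtain ⟨k, hk'⟩ := hpt
  rw [(H.tcomm a c).mul_pow, ← map_pow, ← map_pow, ← dg_pow, ← dg_pow] at hk'
  obtain ⟨ha, hc'⟩ := H.tinj _ _ hk'
  obtain rfl := units_eq_one (p := p) a ha
  obtain rfl := units_eq_one (p := p) c hc'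
  simp only [dg_one, map_one, mul_one] at hz ⊢
  exact plift_unique hne hc hk hpu ⟨0, by simp⟩ (hz.trans (map_one σ).symm)

end Cfsg.Agent.CentralExt.BNLift
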