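import Cfsg.Agent.CentralExt.BNLift
import Cfsg.Agent.ChevTw.D4Torus.Levi
import Cfsg.Agent.D4Deg.Group

/-!
# The two rank one homomorphisms of ³D₄(q)
-/

set_option autoImplicit false
set_option linter.unusedSectionVars false

namespace Cfsg.Agent.CentralExt.D4M

open Cfsg.Lie Cfsg.Agent.ChevGrp Cfsg.Agent.ChevTw Cfsg.Agent.CTits
open Cfsg.Agent.CentralExt.BNLift
open scoped MatrixGroups

variable {K : Type*} [Field K] [Fintype K] {q : ℕ} (hq : IsPrimePow q) (hK : Fintype.card K = q ^ 3)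


/-- The long orbit. -/
abbrev J0 : Fin twD4.nOrb := ⟨0, by decide⟩

/-- The short orbit. -/
abbrev J1 : Fin twD4.nOrb := ⟨1, by decide⟩

/-- A homomorphism of `SL₂` onto the fixed points of an orbit and its negative. -/
structure OrbHom {F : Type*} [Field F] (φ : SL(2, F) →* GL chevD4.Idx K) (J : Fin twD4.nOrb) : Prop where
  pos : ∀ g, g ∈ fixUS (twistD4 hq hK) ((orbD4 hq hK).posJ J) ↔ ∃ t, g = φ (up t)
  neg : ∀ g, g ∈ fixUS (twistD4 hq hK) ((orbD4 hq hK).negJ J) ↔ ∃ t, g = φ (lo t)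
  dg_mem : ∀ a, φ (dg a) ∈ Sys.Hbar (glSys (rulesD4 K))
  up_one : ∀ t, φ (up t) = 1 → t = 0
  dg_one : ∀ a, φ (dg a) = 1 → a = 1

namespace OrbHom

variable {hq hK} {F : Type*} [Field F] {φ : SL(2, F) →* GL chevD4.Idx K} {J : Fin twD4.nOrb} (h : OrbHom hq hK φ J)
include h

theorem up_Ubar (t : F) : φ (up t) ∈ Sys.Ubar (glSys (rulesD4 K)) :=
  Sys.US_mono (glSys (rulesD4 K)) (fun _ hr => hr.1) ((h.pos _).2 ⟨t, rfl⟩).1

theorem up_Tw (t : F) : φ (up t) ∈ twistedD4 K q :=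
  TwGroup.fixPos_mem (grpD4 hq hK) J ((h.pos _).2 ⟨t, rfl⟩)

theorem lo_Tw (t : F) : φ (lo t) ∈ twistedD4 K q :=
  TwGroup.fixNeg_mem (grpD4 hq hK) J ((h.neg _).2 ⟨t, rfl⟩)

theorem mem_Tw (y : SL(2, F)) : φ y ∈ twistedD4 K q :=
  sl2_induction (fun y => φ y ∈ twistedD4 K q) h.up_Tw h.lo_Tw (fun _ _ ha hb => by rw [map_mul]; exact mul_mem ha hb) y

theorem lo_one (t : F) (ht : φ (lo t) = 1) : t = 0 := by
  have e : up (-t) = wm 1 * lo t * (wm 1)⁻¹ := (wm_conj_lo t).symm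
  have := h.up_one (-t) (by rw [e, map_mul, map_mul, ht, map_inv, mul_one, mul_inv_cancel])
  simpa using this

theorem injective : Function.Injective φ := by
  obtain ⟨len, hR⟩ := (rulesD4 K).root
  have hS := rulesD4 K
  refine (injective_iff_map_eq_one φ).2 fun y hy => ?_
  by_cases hc : y.1 1 0 = 0
  · have ha : y.1 0 0 ≠ 0 := by
      have hd := y.2
      rw [Matrix.det_fin_two, hc, mul_zero, sub_zero] at hd
      exact left_ne_zero_of_mul_eq_one hd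
    have hd : y.1 1 1 = (y.1 0 0)⁻¹ := by
      have hd := y.2
      rw [Matrix.det_fin_two, hc, mul_zero, sub_zero] at hd
      exact eq_inv_of_mul_eq_one_right hd
    have e : y = up (y.1 0 1 * y.1 0 0) * dg (Units.mk0 _ ha) := by
      apply Subtype.ext
      rw [Linear.val_mul, up_val]
      ext i j
      fin_cases i <;> fin_cases j <;>
        simp [dg, Matrix.mul_apply, Fin.sum_univ_two, hc, hd]
      field_simp
    rw [e, map_mul] at hy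
    obtain ⟨e1, e2⟩ := Sys.Bbar_decomp_unique (glSys (rulesD4 K)) hS hR (h.up_Ubar _) (one_mem _) (h.dg_mem _) (one_mem _)
      (hy.trans (one_mul 1).symm)
    rw [e, h.up_one _ e1, h.dg_one _ e2, up_zero, BNLift.dg_one, one_mul]
  exfalso
  set c := y.1 1 0 with hcdef
  have hci : -c⁻¹ ≠ 0 := neg_ne_zero.2 (inv_ne_zero hc)
  have e : y = up (y.1 0 0 / c) * wm (-c⁻¹) * up (y.1 1 1 / c) := by
    apply Subtype.ext
    rw [Linear.val_mul, Linear.val_mul, up_val, up_val, wm_val' hci]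
    have hd := y.2
    rw [Matrix.det_fin_two, ← hcdef] at hd
    ext i j
    fin_cases i <;> fin_cases j <;> simp [Matrix.mul_apply, Fin.sum_univ_two, ← hcdef] <;> field_simp <;>
      first | linear_combination hd | linear_combination -hd | rfl | simp [hcdef]
  rw [e, map_mul, map_mul, wm_eq hci, map_mul] at hy
  have hwB : φ (wm 1) ∈ Sys.Bbar (glSys (rulesD4 K)) := by
    have e' : φ (wm 1) = (φ (up (y.1 0 0 / c)) * φ (dg (Units.mk0 _ hci)))⁻¹ * (φ (up (y.1 1 1 / c)))⁻¹ := by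
      rw [eq_inv_mul_iff_mul_eq, eq_inv_iff_mul_eq_one, mul_assoc, mul_assoc, ← mul_assoc (φ (dg _)),
        ← mul_assoc]
      exact hy
    rw [e']
    exact mul_mem (inv_mem (mul_mem (Sys.Ubar_le_Bbar (glSys (rulesD4 K)) (h.up_Ubar _)) (Sys.Hbar_le_Bbar (glSys (rulesD4 K)) (h.dg_mem _))))
      (inv_mem (Sys.Ubar_le_Bbar (glSys (rulesD4 K)) (h.up_Ubar _)))
  have hv : φ (lo (-1)) ∈ Sys.Vbar (glSys (rulesD4 K)) ⊓ Sys.Bbar (glSys (rulesD4 K)) := by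
    refine Subgroup.mem_inf.2 ⟨Sys.US_mono (glSys (rulesD4 K)) (fun _ hr => hr.1) ((h.neg _).2 ⟨_, rfl⟩).1, ?_⟩
    rw [← wm_conj_up, map_mul, map_mul, map_inv]
    exact mul_mem (mul_mem hwB (Sys.Ubar_le_Bbar (glSys (rulesD4 K)) (h.up_Ubar _))) (inv_mem hwB)
  rw [Sys.Vbar_inf_Bbar (glSys (rulesD4 K)) hS hR, Subgroup.mem_bot] at hv
  exact neg_ne_zero.2 one_ne_zero (h.lo_one _ hv)

theorem wm_conjP : Sys.ConjP (glSys (rulesD4 K)) (φ (wm 1)) ((orbD4 hq hK).wJ J) ∧ φ (wm 1) ∈ Sys.Nbar (glSys (rulesD4 K)) := by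
  obtain ⟨len, hR⟩ := (rulesD4 K).root
  have hS := rulesD4 K
  have hv1 : φ (lo (-1)) ≠ 1 := fun e => neg_ne_zero.2 (one_ne_zero (α := F)) (h.lo_one _ e)
  obtain ⟨c, hc, u, hu, n, hn, hnc, hnT, hv⟩ :=
    TwGroup.neg_decomp (grpD4 hq hK) hS hR J ((h.neg _).2 ⟨_, rfl⟩) hv1
  obtain ⟨a, rfl⟩ := (h.pos _).1 hc
  obtain ⟨b, rfl⟩ := (h.pos _).1 hu
  set y := (up a)⁻¹ * lo (-1) * (up b)⁻¹
  have hy : n = φ y := by
    simp only [y, map_mul, map_inv, hv]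
    group
  have s1 : ∃ c, y * up 1 * y⁻¹ = lo c := by
    have := TwGroup.conj_neg_fix (grpD4 hq hK) hnT hnc (orbD4 hq hK).posJ_lt
      (fun r hr => (orbD4 hq hK).act_wJ_mem hR J hr) ((h.pos _).2 ⟨1, rfl⟩)
    obtain ⟨c, hc⟩ := (h.neg _).1 this
    exact ⟨c, h.injective (by rw [map_mul, map_mul, map_inv, ← hy, hc])⟩
  have s2 : ∃ c, y * lo 1 * y⁻¹ = up c := by
    have hback : ∀ r ∈ (orbD4 hq hK).negJ J, act chevD4 ((orbD4 hq hK).wJ J) r ∈ (orbD4 hq hK).posJ J :=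
      fun r hr => (orbD4 hq hK).act_wJ_mem' hR J hr
    have := TwGroup.conj_neg_fix (grpD4 hq hK) hnT hnc (orbD4 hq hK).negJ_lt hback ((h.neg _).2 ⟨1, rfl⟩)
    obtain ⟨c, hc⟩ := (h.pos _).1 this
    exact ⟨c, h.injective (by rw [map_mul, map_mul, map_inv, ← hy, hc])⟩
  obtain ⟨d, hd⟩ := eq_wm_of_swap s1 s2
  have e : φ (wm 1) = (φ (dg d))⁻¹ * n := by rw [hy, hd, map_mul, inv_mul_cancel_left]
  refine ⟨?_, ?_⟩
  · rw [e]
    have := (Sys.conjP_Hbar (glSys (rulesD4 K)) hS hR (inv_mem (h.dg_mem d))).mul hR hnc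
    simpa using this
  · rw [e]
    exact mul_mem (Sys.Hbar_le_Nbar (glSys (rulesD4 K)) (inv_mem (h.dg_mem d))) hn

end OrbHom

/-- One side inside the matrix group. -/
theorem side_core {F L : Type*} [Field F] [Field L] {φ : SL(2, F) →* GL chevD4.Idx K} {ψ : SL(2, L) →* GL chevD4.Idx K}
    {J J' : Fin twD4.nOrb} (h : OrbHom hq hK φ J) (h' : OrbHom hq hK ψ J') :
    (∀ (b : Lˣ) (t : F), ∃ t', ψ (dg b) * φ (up t) * (ψ (dg b))⁻¹ = φ (up t')) ∧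
    (∀ (b : Lˣ) (t : F), ∃ t', ψ (dg b) * φ (lo t) * (ψ (dg b))⁻¹ = φ (lo t')) ∧
    (∀ u ∈ Sys.Ubar (glSys (rulesD4 K)) ⊓ twistedD4 K q, ∃ t,
      φ (wm 1) * (u * φ (up t)) * (φ (wm 1))⁻¹ ∈ Sys.Ubar (glSys (rulesD4 K)) ⊓ twistedD4 K q) ∧
    (∀ n ∈ Sys.Nbar (glSys (rulesD4 K)) ⊓ twistedD4 K q, (∀ t, n⁻¹ * φ (up t) * n ∈ Sys.Ubar (glSys (rulesD4 K)) ⊓ twistedD4 K q) ∨
      ∀ t, ((φ (wm 1))⁻¹ * n)⁻¹ * φ (up t) * ((φ (wm 1))⁻¹ * n) ∈ Sys.Ubar (glSys (rulesD4 K)) ⊓ twistedD4 K q) := by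
  obtain ⟨len, hR⟩ := (rulesD4 K).root
  have hS := rulesD4 K
  set O := orbD4 hq hK
  have h0 := twD4_ok.isLongest (T := twistD4 hq hK) (fun _ => rfl) rfl
  obtain ⟨hsc, -⟩ := h.wm_conjP
  have hsT := h.mem_Tw (wm 1)
  have hc0 : (twistD4 hq hK).Comm (O.word twD4.longSeq) := O.comm_word hR _
  refine ⟨fun b t => ?_, fun b t => ?_, fun u hu => ?_, fun n hn => ?_⟩
  · have := TwGroup.conj_neg_fix (grpD4 hq hK) (h'.mem_Tw (dg b)) (Sys.conjP_Hbar (glSys (rulesD4 K)) hS hR (h'.dg_mem b))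
      (B := O.posJ J) O.posJ_lt (fun r hr => by simpa [act_nil] using hr) ((h.pos _).2 ⟨t, rfl⟩)
    exact (h.pos _).1 this
  · have := TwGroup.conj_neg_fix (grpD4 hq hK) (h'.mem_Tw (dg b)) (Sys.conjP_Hbar (glSys (rulesD4 K)) hS hR (h'.dg_mem b))
      (B := O.negJ J) O.negJ_lt (fun r hr => by simpa [act_nil] using hr) ((h.neg _).2 ⟨t, rfl⟩)
    exact (h.neg _).1 this
  · obtain ⟨huU, hufix⟩ := (TwGroup.fixUbar_eq (grpD4 hq hK) hS hR hc0 (h0.invSet_eq hR)).1 hu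
    set A : Set ℕ := {r | chevD4.IsPosRoot r ∧ ¬ chevD4.InRootSub (O.nodes J) r} with hA
    have hAc : UClosed chevD4 len (htHom chevD4) A := by
      rw [hA, ← hR.degPos_outJ_eq]
      exact hR.posSet_closed.subset_closed (fun r hr => hR.pos_of_degPos _ hr)
        fun r hr s hs hne c hc => (hR.degPos_closed _).closed r hr s hs hne c hc
    obtain ⟨a, ha, c, hc, rfl⟩ := Sys.US_eq_mul (glSys (rulesD4 K)) hR hR.posSet_closed hAc (O.posJ_closed hR J)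
      (Set.ext fun r => ⟨fun h => h.elim (fun h => h.1) fun h => h.1, fun h => by
        by_cases hJ : chevD4.InRootSub (O.nodes J) r
        · exact Or.inr ⟨h, hJ⟩
        · exact Or.inl ⟨h, hJ⟩⟩)
      (Set.disjoint_left.2 fun r h1 h2 => h1.2 h2.2) huU
    have hAlt : ∀ r ∈ A, r < chevD4.nroots := fun r hr => hr.1.1
    have hAρ : ∀ r ∈ A, (twistD4 hq hK).ρ r ∈ A := fun r hr =>
      ⟨(twistD4 hq hK).ρ_pos r hr.1, fun hin => O.ρ_out hR J hr.1 (fun h => hr.2 h.2)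
        ⟨(twistD4 hq hK).ρ_pos r hr.1, hin⟩⟩
    rw [(twistD4 hq hK).sig_mul a (Twist.US_le_Gbar hAlt ha) c (Twist.US_le_Gbar O.posJ_lt hc)] at hufix
    obtain ⟨ea, ec⟩ := split_unique hS hR O J ((twistD4 hq hK).sig_US hAlt hAρ ha) ha
      (posJ_le_LJ O J ((twistD4 hq hK).sig_US O.posJ_lt (fun r hr => O.ρ_posJ hR J hr) hc))
      (posJ_le_LJ O J hc) hufix
    obtain ⟨t, rfl⟩ := (h.pos c).1 ⟨hc, ec⟩
    refine ⟨-t, ?_⟩
    rw [mul_assoc a, ← map_mul, up_add, add_neg_cancel, up_zero, map_one, mul_one]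
    exact TwGroup.conj_pos_mem (grpD4 hq hK) hS hR h0 hsT hsc hAlt
      (fun r hr => (O.act_wJ_out hR J hr.1 fun h => hr.2 h.2).1) ⟨ha, ea⟩
  · obtain ⟨hnN, hnT⟩ := Subgroup.mem_inf.1 hn
    obtain ⟨w, hw⟩ := TwGroup.conjP_of_mem_Nbar hS hR hnN
    have hwr : (twistD4 hq hK).Comm w.reverse := (TwGroup.comm_of_conjP (grpD4 hq hK) hS hR hnT hw).reverse hR
    by_cases hd : ∀ r ∈ O.posJ J, chevD4.IsPosRoot (act chevD4 w.reverse r)
    · refine Or.inl fun t => ?_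
      have := TwGroup.conj_pos_mem (grpD4 hq hK) hS hR h0 (inv_mem hnT) (hw.inv hR) O.posJ_lt hd ((h.pos _).2 ⟨t, rfl⟩)
      rw [inv_inv] at this
      exact this
    push Not at hd
    obtain ⟨r, hr, hrn⟩ := hd
    obtain ⟨i, hiJ, hi⟩ : ∃ i : Fin chevD4.rank, (i : ℕ) ∈ O.nodes J ∧
        ¬ chevD4.IsPosRoot (act chevD4 w.reverse (chevD4.simple i)) := by
      by_contra hcon
      push Not at hcon
      exact hrn (pos_of_support hR _ _ hcon hr.1 hr.2)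
    have hJ := O.orbit_neg hR hwr hiJ (hR.neg_of_not_pos (hR.act_lt _ (hR.simple_lt i i.2)) hi)
    obtain ⟨-, hdis, -, -⟩ := O.descend hR hwr hJ
    have hn0c : Sys.ConjP (glSys (rulesD4 K)) ((φ (wm 1))⁻¹ * n)⁻¹ (w.reverse ++ O.wJ J) := by
      have := (hw.inv hR).mul hR hsc
      simpa using this
    have hpos0 : ∀ r ∈ O.posJ J, chevD4.IsPosRoot (act chevD4 (w.reverse ++ O.wJ J) r) := fun r hr => by
      by_contra hneg
      exact Set.disjoint_left.1 hdis hr ⟨hr.1, hR.neg_of_not_pos (hR.act_lt _ hr.1.1) hneg⟩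
    refine Or.inr fun t => ?_
    have := TwGroup.conj_pos_mem (grpD4 hq hK) hS hR h0 (inv_mem (mul_mem (inv_mem hsT) hnT)) hn0c O.posJ_lt hpos0
      ((h.pos _).2 ⟨t, rfl⟩)
    rw [inv_inv] at this
    exact this

end Cfsg.Agent.CentralExt.D4M
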