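import Cfsg.Agent.CentralExt.D4Frame

/-!
# The homomorphisms of SL₂ for the two orbits of ³D₄(q) and the frame
-/

set_option autoImplicit false
set_option linter.unusedSectionVars false

namespace Cfsg.Agent.CentralExt.D4M

open Cfsg.Lie Cfsg.Agent.ChevGrp Cfsg.Agent.ChevTw Cfsg.Agent.CTits Cfsg.Agent.D4Deg Cfsg.Agent.Chev
open Cfsg.Agent.CentralExt.BNLift
open scoped MatrixGroups

variable {K : Type*} [Field K]

theorem rankOneRoot {r : ℕ} (hr : r < chevD4.nroots) :
    Cfsg.Agent.Chev.RankOne K (xGL chevD4 K r) (xGL chevD4 K (chevD4.neg r)) := by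
  have e1 : (validD4.xU (F := K) hr) = xGL chevD4 K r :=
    funext fun t => Units.ext (val_xGL (rulesD4 K) r t).symm
  have e2 : (validD4.xU (F := K) (validD4.neg_lt hr)) = xGL chevD4 K (chevD4.neg r) :=
    funext fun t => Units.ext (val_xGL (rulesD4 K) _ t).symm
  have h := validD4.rankOne (F := K) hr
  rwa [e1, e2] at h

/-- The `SL₂` of a root. -/
noncomputable def rootHom {r : ℕ} (hr : r < chevD4.nroots) : SL(2, K) →* GL chevD4.Idx K := (rankOneRoot hr).hom

theorem rootHom_up {r : ℕ} (hr : r < chevD4.nroots) (t : K) : rootHom hr (up t) = X K r t :=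
  (rankOneRoot hr).hom_upper rfl

theorem rootHom_lo {r : ℕ} (hr : r < chevD4.nroots) (t : K) : rootHom hr (lo t) = X K (chevD4.neg r) t :=
  (rankOneRoot hr).hom_lower rfl

theorem rootHom_wm {r : ℕ} (hr : r < chevD4.nroots) (a : K) :
    rootHom hr (wm a) = (glSys (rulesD4 K)).nEl r a := by
  rw [wm, map_mul, map_mul, rootHom_up, rootHom_lo]
  rfl

theorem rootHom_dg {r : ℕ} (hr : r < chevD4.nroots) (a : Kˣ) :
    rootHom hr (dg a) = (glSys (rulesD4 K)).hEl r a := by
  rw [← show wm (a : K) * wm (-1) = dg a by rw [wm_mul_neg_one a.ne_zero]; simp, map_mul, rootHom_wm, rootHom_wm]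
  rfl

theorem hEl_eq_tau (i : Fin chevD4.rank) (u : Kˣ) :
    (glSys (rulesD4 K)).hEl (chevD4.simple i) u = (glSys (rulesD4 K)).tau (rulesD4 K)
      (rulesD4 K).root.choose_spec (glSys_HMul (rulesD4 K) (rulesD4 K).root.choose_spec) (Pi.mulSingle i u) := by
  rw [Sys.tau, MonoidHom.noncommPiCoprod_mulSingle]
  rfl

variable [Fintype K] {q : ℕ} (hq : IsPrimePow q) (hK : Fintype.card K = q ^ 3)

local notation "σ" => frobD4 hq hK
local notation "GK" => GL chevD4.Idx K

theorem rootHom_commute {ab : ℕ × ℕ} (hab : ab ∈ [(18, 13), (18, 12), (13, 12)]) (h1 : ab.1 < chevD4.nroots)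
    (h2 : ab.2 < chevD4.nroots) (y z : SL(2, K)) : Commute (rootHom h1 y) (rootHom h2 z) := by
  have key : ∀ r ∈ [ab.1, chevD4.neg ab.1], ∀ s ∈ [ab.2, chevD4.neg ab.2], ∀ t u : K,
      Commute (X K r t) (X K s u) := fun r hr s hs t u => by
    obtain ⟨a1, a2, a3, a4, a5⟩ := commCrossD4 ab hab r hr s hs
    exact x_commute (glSys (rulesD4 K)) a4 a5 a1 a2 a3 t u
  refine sl2_induction (fun y => ∀ z, Commute (rootHom h1 y) (rootHom h2 z)) (fun t z => ?_) (fun t z => ?_)
    (fun A B hA hB z => by rw [map_mul]; exact (hA z).mul_left (hB z)) y z <;>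
  · refine sl2_induction (fun z => Commute _ (rootHom h2 z)) (fun u => ?_) (fun u => ?_)
      (fun A B hA hB => by rw [map_mul]; exact hA.mul_right hB) z <;>
    · simp only [rootHom_up, rootHom_lo]
      exact key _ (by simp) _ (by simp) t u

/-- The long homomorphism. -/
noncomputable def phiL : SL(2, ↥(Fx σ)) →* GK :=
  (rootHom (show 14 < chevD4.nroots by decide)).comp (Matrix.SpecialLinearGroup.map (Fx σ).subtype)

/-- The short homomorphism. -/
noncomputable def psiS : SL(2, K) →* GK :=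
  MonoidHom.mk' (fun y => rootHom (show 18 < chevD4.nroots by decide) y *
      rootHom (show 13 < chevD4.nroots by decide) (Matrix.SpecialLinearGroup.map σ y) *
      rootHom (show 12 < chevD4.nroots by decide) (Matrix.SpecialLinearGroup.map σ (Matrix.SpecialLinearGroup.map σ y)))
    fun y z => by
    simp only [map_mul]
    set a := rootHom (K := K) (show 18 < chevD4.nroots by decide)
    set b := rootHom (K := K) (show 13 < chevD4.nroots by decide)
    set c := rootHom (K := K) (show 12 < chevD4.nroots by decide)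
    have hab : ∀ u v, Commute (a u) (b v) := rootHom_commute (ab := (18, 13)) (by simp) _ _
    have hac : ∀ u v, Commute (a u) (c v) := rootHom_commute (ab := (18, 12)) (by simp) _ _
    have hbc : ∀ u v, Commute (b u) (c v) := rootHom_commute (ab := (13, 12)) (by simp) _ _
    set B := b (Matrix.SpecialLinearGroup.map σ y)
    set B' := b (Matrix.SpecialLinearGroup.map σ z)
    set C := c (Matrix.SpecialLinearGroup.map σ (Matrix.SpecialLinearGroup.map σ y))
    set C' := c (Matrix.SpecialLinearGroup.map σ (Matrix.SpecialLinearGroup.map σ z))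
    calc a y * a z * (B * B') * (C * C') = a y * (a z * B) * (B' * C) * C' := by simp only [mul_assoc]
      _ = a y * (B * a z) * (C * B') * C' := by rw [(hab z _).eq, (hbc _ _).eq]
      _ = a y * B * (a z * C) * B' * C' := by simp only [mul_assoc]
      _ = a y * B * (C * a z) * B' * C' := by rw [(hac z _).eq]
      _ = _ := by simp only [mul_assoc]

theorem map_up {F L : Type*} [Field F] [Field L] (f : F →+* L) (t : F) :
    Matrix.SpecialLinearGroup.map f (up t) = up (f t) := by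
  apply Subtype.ext; show (up t).1.map f = (up (f t)).1
  ext i j; fin_cases i <;> fin_cases j <;> simp [up]

theorem map_lo {F L : Type*} [Field F] [Field L] (f : F →+* L) (t : F) :
    Matrix.SpecialLinearGroup.map f (lo t) = lo (f t) := by
  apply Subtype.ext; show (lo t).1.map f = (lo (f t)).1
  ext i j; fin_cases i <;> fin_cases j <;> simp [lo]

theorem map_dg {F L : Type*} [Field F] [Field L] (f : F →+* L) (a : Fˣ) :
    Matrix.SpecialLinearGroup.map f (dg a) = dg (Units.map f.toMonoidHom a) := by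
  apply Subtype.ext; show (dg a).1.map f = (dg (Units.map f.toMonoidHom a)).1
  ext i j; fin_cases i <;> fin_cases j <;> simp [dg]

theorem phiL_up (t : ↥(Fx σ)) : phiL hq hK (up t) = X K 14 t := by
  rw [phiL, MonoidHom.comp_apply, map_up, rootHom_up]; rfl

theorem phiL_lo (t : ↥(Fx σ)) : phiL hq hK (lo t) = X K 9 t := by
  rw [phiL, MonoidHom.comp_apply, map_lo, rootHom_lo, negD4.1]; rfl

theorem psiS_up (t : K) : psiS hq hK (up t) = shortEl hq hK false t := by
  show rootHom _ (up t) * _ * _ = _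
  rw [map_up, map_up, rootHom_up, rootHom_up, rootHom_up]
  rfl

theorem psiS_lo (t : K) : psiS hq hK (lo t) = shortEl hq hK true t := by
  show rootHom _ (lo t) * _ * _ = _
  rw [map_lo, map_lo, rootHom_lo, rootHom_lo, rootHom_lo, negD4.2.1, negD4.2.2.1, negD4.2.2.2.1]
  rfl

/-- The torus of parameters. -/
noncomputable def tauD : (Fin chevD4.rank → Kˣ) →* GK :=
  (glSys (rulesD4 K)).tau (rulesD4 K) (rulesD4 K).root.choose_spec
    (glSys_HMul (rulesD4 K) (rulesD4 K).root.choose_spec)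

theorem phiL_dg (u : (↥(Fx σ))ˣ) :
    phiL hq hK (dg u) = tauD (mkD4 1 (Units.map (Fx σ).subtype.toMonoidHom u) 1 1) := by
  rw [phiL, MonoidHom.comp_apply, map_dg, rootHom_dg]
  have h := hEl_eq_tau (K := K) ⟨1, by decide⟩ (Units.map (Fx σ).subtype.toMonoidHom u)
  rw [negD4.2.2.2.2.2.1] at h
  rw [h, tauD]
  congr 1
  funext j; revert j; rw [forallD4]
  simp [mkD4, Fin.ext_iff]

theorem psiS_dg (v : Kˣ) : psiS hq hK (dg v) = tauD (mkD4 v 1 (v ^ q) ((v ^ q) ^ q)) := by
  have e : ∀ w : Kˣ, Units.map (σ).toMonoidHom w = w ^ q := fun w => Units.ext (by simp [frobD4_apply])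
  show rootHom _ (dg v) * _ * _ = _
  rw [map_dg, map_dg, e, e, rootHom_dg, rootHom_dg, rootHom_dg]
  have h0 := hEl_eq_tau (K := K) ⟨0, by decide⟩ v
  have h2 := hEl_eq_tau (K := K) ⟨2, by decide⟩ (v ^ q)
  have h3 := hEl_eq_tau (K := K) ⟨3, by decide⟩ ((v ^ q) ^ q)
  rw [negD4.2.2.2.2.1] at h0
  rw [negD4.2.2.2.2.2.2.1] at h2
  rw [negD4.2.2.2.2.2.2.2] at h3
  rw [h0, h2, h3, tauD, ← map_mul, ← map_mul]
  congr 1
  funext j; revert j; rw [forallD4]
  simp [mkD4, Fin.ext_iff]

theorem tauD_mem (c : Fin chevD4.rank → Kˣ) : tauD c ∈ Sys.Hbar (glSys (rulesD4 K)) := by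
  rw [← (glSys (rulesD4 K)).tau_range (rulesD4 K) (rulesD4 K).root.choose_spec
    (glSys_HMul (rulesD4 K) (rulesD4 K).root.choose_spec)]
  exact ⟨c, rfl⟩

theorem fx_units (u : (↥(Fx σ))ˣ) :
    Units.map (Fx σ).subtype.toMonoidHom u ^ q = Units.map (Fx σ).subtype.toMonoidHom u :=
  Units.ext (by simpa [frobD4_apply] using fx_apply (u : ↥(Fx σ)))

include hq hK in
theorem tauD_inj {c : Fin chevD4.rank → Kˣ} (hc : c ∈ fixTorusD4 K q) (h : tauD c = 1) : c = 1 := by
  have hk : c ∈ rootKer chevD4 K := ((glSys (rulesD4 K)).θ_tau_eq_one_iff (rulesD4 K)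
    (rulesD4 K).root.choose_spec (glSys_HMul (rulesD4 K) (rulesD4 K).root.choose_spec) c).1 h
  have : c ∈ (rootKer chevD4 K ⊓ fixTorusD4 K q : Subgroup (Fin chevD4.rank → Kˣ)) := ⟨hk, hc⟩
  rwa [kerD4_bot hq hK, Subgroup.mem_bot] at this

theorem dg_prod (u : (↥(Fx σ))ˣ) (v : Kˣ) :
    phiL hq hK (dg u) * psiS hq hK (dg v) =
      tauD (mkD4 v (Units.map (Fx σ).subtype.toMonoidHom u) (v ^ q) ((v ^ q) ^ q)) := by
  rw [phiL_dg, psiS_dg, ← map_mul]
  congr 1
  funext j; revert j; rw [forallD4]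
  simp [mkD4]

theorem mk_fix (u : (↥(Fx σ))ˣ) (v : Kˣ) :
    mkD4 v (Units.map (Fx σ).subtype.toMonoidHom u) (v ^ q) ((v ^ q) ^ q) ∈ fixTorusD4 K q :=
  (mem_mkD4_iff _).2 ⟨units_pow_cube hK _, fx_units hq hK u, rfl, rfl⟩

theorem dg_prod_inj (u : (↥(Fx σ))ˣ) (v : Kˣ) (h : phiL hq hK (dg u) * psiS hq hK (dg v) = 1) :
    u = 1 ∧ v = 1 := by
  rw [dg_prod] at h
  have e := tauD_inj hq hK (mk_fix hq hK u v) h
  refine ⟨?_, congrFun e ⟨0, by decide⟩⟩
  exact Units.map_injective (f := (Fx σ).subtype.toMonoidHom) Subtype.val_injective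
    ((congrFun e ⟨1, by decide⟩).trans (map_one _).symm)

theorem orbHom_phi : OrbHom hq hK (phiL hq hK) J0 := by
  refine ⟨fun g => ?_, fun g => ?_, fun a => ?_, fun t ht => ?_, fun a ha => ?_⟩
  · refine (fixD4 hq hK J0 false g).trans ⟨?_, ?_⟩
    · rintro ⟨t, ht, rfl⟩
      exact ⟨⟨t, (frobD4_apply hq hK t).trans (ht rfl)⟩, by simp [phiL_up, wordsD4]; rfl⟩
    · rintro ⟨t, rfl⟩
      refine ⟨(t : K), fun _ => (frobD4_apply hq hK _).symm.trans (fx_apply t), ?_⟩
      simp [phiL_up, wordsD4]; rfl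
  · refine (fixD4 hq hK J0 true g).trans ⟨?_, ?_⟩
    · rintro ⟨t, ht, rfl⟩
      exact ⟨⟨t, (frobD4_apply hq hK t).trans (ht rfl)⟩, by simp [phiL_lo, wordsD4]; rfl⟩
    · rintro ⟨t, rfl⟩
      refine ⟨(t : K), fun _ => (frobD4_apply hq hK _).symm.trans (fx_apply t), ?_⟩
      simp [phiL_lo, wordsD4]; rfl
  · rw [phiL_dg]; exact tauD_mem _
  · refine Subtype.ext (wordD4_inj hq hK J0 (t : K) 0 ?_)
    have : X K 14 (0 : K) = 1 := (glSys (rulesD4 K)).x_zero (by decide)
    simp [wordsD4]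
    exact (phiL_up hq hK t).symm.trans (ht.trans this.symm)
  · refine (dg_prod_inj hq hK a 1 ?_).1
    rw [ha, BNLift.dg_one, map_one, one_mul]

theorem orbHom_psi : OrbHom hq hK (psiS hq hK) J1 := by
  have hword : ∀ (neg : Bool) (t : K), shortEl hq hK neg t =
      (((wordsD4 q t).getD (bif neg then 3 else 1) []).map fun p => xGL chevD4 K p.1 p.2).prod := fun neg t => by
    have h2 : σ (σ t) = t ^ (q ^ 2) := by rw [frobD4_apply, frobD4_apply, ← pow_mul, pow_two]
    cases neg <;> simp [shortEl, wordsD4, frobD4_apply, mul_assoc, pow_two, pow_mul] <;> rfl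
  have h13 : ¬ ((J1 : Fin twD4.nOrb).val = 0) := by decide
  refine ⟨fun g => ?_, fun g => ?_, fun a => ?_, fun t ht => ?_, fun a ha => ?_⟩
  · refine (fixD4 hq hK J1 false g).trans ⟨?_, ?_⟩
    · rintro ⟨t, -, rfl⟩
      exact ⟨t, by rw [psiS_up, hword]⟩
    · rintro ⟨t, rfl⟩
      exact ⟨t, fun h => absurd h h13, by rw [psiS_up, hword]⟩
  · refine (fixD4 hq hK J1 true g).trans ⟨?_, ?_⟩
    · rintro ⟨t, -, rfl⟩
      exact ⟨t, by rw [psiS_lo, hword]⟩
    · rintro ⟨t, rfl⟩
      exact ⟨t, fun h => absurd h h13, by rw [psiS_lo, hword]⟩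
  · rw [psiS_dg]; exact tauD_mem _
  · refine wordD4_inj hq hK J1 t 0 ?_
    have e0 : psiS hq hK (up 0) = 1 := by rw [up_zero, map_one]
    rw [psiS_up, hword] at ht e0
    exact ht.trans e0.symm
  · refine (dg_prod_inj hq hK 1 a ?_).2
    rw [ha, BNLift.dg_one, map_one, one_mul]

end Cfsg.Agent.CentralExt.D4M
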