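import Cfsg.Agent.CentralExt.Basic
import Cfsg.Agent.CentralExt.FieldAction
import Cfsg.Agent.CentralExt.Sylow

/-!
# Central extensions of a product of root groups with a torus

Canonical lifts of the root groups, ordered linearly such that commutators go up, span a complement of the
central kernel as soon as the kernel component of each commutator vanishes.
-/

set_option autoImplicit false
set_option linter.unusedSectionVars false

namespace Cfsg.Agent.CentralExt.RootLift

open scoped commutatorElement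

universe u v

variable {E : Type u} {G : Type v} [Group E] [Group G] {σ : E →* G}

theorem eq_central_mul (hc : σ.ker ≤ Subgroup.center E) {x y : E} (h : σ x = σ y) :
    ∃ z ∈ Subgroup.center E, σ z = 1 ∧ x = y * z := by
  have hz : y⁻¹ * x ∈ σ.ker := by rw [MonoidHom.mem_ker, map_mul, map_inv, h, inv_mul_cancel]
  exact ⟨_, hc hz, hz, by group⟩

/-- Commutators only depend on images. -/
theorem comm_congr (hc : σ.ker ≤ Subgroup.center E) {x x' y y' : E} (hx : σ x = σ x') (hy : σ y = σ y') :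
    ⁅x, y⁆ = ⁅x', y'⁆ := by
  obtain ⟨z, hz, -, rfl⟩ := eq_central_mul hc hx
  obtain ⟨w, hw, -, rfl⟩ := eq_central_mul hc hy
  rw [Subgroup.mem_center_iff] at hz hw
  simp only [commutatorElement_def, mul_inv_rev]
  calc x' * z * (y' * w) * (z⁻¹ * x'⁻¹) * (w⁻¹ * y'⁻¹)
      = x' * (z * (y' * w)) * z⁻¹ * x'⁻¹ * w⁻¹ * y'⁻¹ := by group
    _ = x' * y' * w * x'⁻¹ * w⁻¹ * y'⁻¹ := by rw [← hz (y' * w)]; group
    _ = x' * y' * (w * x'⁻¹) * w⁻¹ * y'⁻¹ := by group
    _ = _ := by rw [← hw x'⁻¹]; group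

theorem conj_congr (hc : σ.ker ≤ Subgroup.center E) {t t' : E} (ht' : σ t = σ t') (x : E) :
    t * x * t⁻¹ = t' * x * t'⁻¹ := by
  obtain ⟨z, hz, -, rfl⟩ := eq_central_mul hc ht'
  rw [Subgroup.mem_center_iff] at hz
  calc t' * z * x * (t' * z)⁻¹ = t' * (z * x) * z⁻¹ * t'⁻¹ := by group
    _ = _ := by rw [← hz x]; group

/-- Two lifts of commuting elements, one fixed and the other moved by a torus element, commute. -/
theorem commute_of_fix_move (hc : σ.ker ≤ Subgroup.center E) {z x t y : E}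
    (hfix : Commute (σ t) (σ z)) (hmove : σ x = σ (t * y * t⁻¹ * y⁻¹)) (hzy : Commute (σ z) (σ y)) :
    Commute z x := by
  have hzy' : ⁅z, y⁆ ∈ Subgroup.center E := hc (by
    rw [MonoidHom.mem_ker, map_commutatorElement, commutatorElement_eq_one_iff_mul_comm]; exact hzy.eq)
  have h1 : ⁅z, t * y * t⁻¹⁆ = ⁅z, y⁆ := by
    rw [comm_congr hc (x' := t * z * t⁻¹) (y' := t * y * t⁻¹) (by simp [map_mul, hfix.eq]) rfl,
      ← conjugate_commutatorElement, Subgroup.mem_center_iff.1 hzy' t, mul_inv_cancel_right]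
  rw [commute_iff_eq, ← commutatorElement_eq_one_iff_mul_comm, comm_congr hc rfl hmove]
  rw [commutatorElement_def] at h1 ⊢
  have e : z * (t * y * t⁻¹ * y⁻¹) * z⁻¹ * (t * y * t⁻¹ * y⁻¹)⁻¹ =
      z * (t * y * t⁻¹) * z⁻¹ * (t * y * t⁻¹)⁻¹ * (t * y * t⁻¹) * y⁻¹ * (z * y * z⁻¹ * y⁻¹)⁻¹ * y * (t * y * t⁻¹)⁻¹ := by
    group
  rw [e, h1, ← commutatorElement_def z y, mul_assoc ⁅z, y⁆ (t * y * t⁻¹) y⁻¹,
    ← Subgroup.mem_center_iff.1 hzy' (t * y * t⁻¹ * y⁻¹)]
  group

/-- A generating set with commutators in a subgroup it normalises. -/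
theorem comm_closure {N : Subgroup E} {X Y : Set E} (hX : X ⊆ (Subgroup.normalizer (N : Set E) : Set E))
    (h : ∀ x ∈ X, ∀ y ∈ Y, ⁅x, y⁆ ∈ N) {x : E} (hx : x ∈ Subgroup.closure X) {y : E} (hy : y ∈ Y) : ⁅x, y⁆ ∈ N := by
  suffices hS : ∀ g ∈ Subgroup.closure X, g ∈ Subgroup.normalizer (N : Set E) ∧ ⁅g, y⁆ ∈ N from (hS x hx).2
  intro g hg
  induction hg using Subgroup.closure_induction with
  | mem a ha => exact ⟨hX ha, h a ha y hy⟩
  | one => exact ⟨one_mem _, by simp⟩
  | mul a b _ _ iha ihb =>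
    refine ⟨mul_mem iha.1 ihb.1, ?_⟩
    rw [show ⁅a * b, y⁆ = a * ⁅b, y⁆ * a⁻¹ * ⁅a, y⁆ by simp only [commutatorElement_def]; group]
    exact mul_mem ((Subgroup.mem_normalizer_iff.1 iha.1 _).1 ihb.2) iha.2
  | inv a _ iha =>
    refine ⟨inv_mem iha.1, ?_⟩
    rw [show ⁅a⁻¹, y⁆ = a⁻¹ * ⁅a, y⁆⁻¹ * a⁻¹⁻¹ by simp only [commutatorElement_def]; group]
    exact (Subgroup.mem_normalizer_iff.1 (inv_mem iha.1) _).1 (inv_mem iha.2)

/-- Commutators of the subgroup generated by elements normalising a subgroup. -/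
theorem comm_closure₂ {N : Subgroup E} {X : Set E} (hX : X ⊆ (Subgroup.normalizer (N : Set E) : Set E))
    (h : ∀ x ∈ X, ∀ y ∈ X, ⁅x, y⁆ ∈ N) {x y : E} (hx : x ∈ Subgroup.closure X) (hy : y ∈ Subgroup.closure X) :
    ⁅x, y⁆ ∈ N := by
  refine comm_closure (Y := {y | y ∈ Subgroup.closure X}) hX (fun a ha b hb => ?_) hx hy
  rw [← commutatorElement_inv]
  exact inv_mem (comm_closure hX (fun c hc d hd => by rw [← commutatorElement_inv]; exact inv_mem (h d hd c hc)) hb ha)

section SelfPair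

variable {F : Type*} [Field F]

/-- Lifts of a field acted on by all non-zero scalars commute. -/
theorem self_commute (hc : σ.ker ≤ Subgroup.center E) (hs : Function.Surjective σ)
    (el : Multiplicative F →* G) (hw : ∀ w : F, w ≠ 0 → ∃ g : G, ∀ a : F,
      g * el (Multiplicative.ofAdd a) * g⁻¹ = el (Multiplicative.ofAdd (w * a)))
    {d : F} (hd0 : d ≠ 0) (hd1 : d + 1 ≠ 0) (hd : d ^ 2 + d + 1 ≠ 0) (a b : F) {x y : E}
    (hx : σ x = el (Multiplicative.ofAdd a)) (hy : σ y = el (Multiplicative.ofAdd b)) : Commute x y := by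
  let _ : CommGroup σ.ker :=
    { (inferInstance : Group σ.ker) with
      mul_comm := fun a b => Subtype.ext ((Subgroup.mem_center_iff.1 (hc b.2)) (a : E)) }
  choose s hsl using fun c => hs (el (Multiplicative.ofAdd c))
  have hcm : ∀ a b, σ ⁅s a, s b⁆ = 1 := fun a b => by
    rw [map_commutatorElement, hsl, hsl, commutatorElement_eq_one_iff_mul_comm]
    exact (Commute.all (Multiplicative.ofAdd a) (Multiplicative.ofAdd b)).map el
  let f : F → F → Additive σ.ker := fun a b => Additive.ofMul ⟨⁅s a, s b⁆, hcm a b⟩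
  have hl : ∀ a a' b, f (a + a') b = f a b + f a' b := by
    intro a a' b
    apply Additive.toMul.injective
    apply Subtype.ext
    show ⁅s (a + a'), s b⁆ = ⁅s a, s b⁆ * ⁅s a', s b⁆
    rw [← commutatorElement_mul_left_of_central (hc (hcm a' b))]
    exact comm_congr hc (by rw [map_mul, hsl, hsl, hsl, ← map_mul, ← ofAdd_add]) rfl
  have hswap : ∀ a b, f a b = -f b a := by
    intro a b
    apply Additive.toMul.injective
    apply Subtype.ext
    exact (commutatorElement_inv (s b) (s a)).symm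
  have hr : ∀ a b b', f a (b + b') = f a b + f a b' := by
    intro a b b'
    rw [hswap, hl, neg_add, ← hswap, ← hswap]
  have hinv : ∀ w : F, w ≠ 0 → ∀ a b, f (w * a) (w * b) = f a b := by
    intro w hw0 a b
    obtain ⟨g, hg⟩ := hw w hw0
    obtain ⟨t, rfl⟩ := hs g
    apply Additive.toMul.injective
    apply Subtype.ext
    show ⁅s (w * a), s (w * b)⁆ = ⁅s a, s b⁆
    rw [comm_congr hc (x' := t * s a * t⁻¹) (y' := t * s b * t⁻¹) (by rw [map_mul, map_mul, map_inv, hsl, hsl, hg])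
      (by rw [map_mul, map_mul, map_inv, hsl, hsl, hg]), ← conjugate_commutatorElement,
      Subgroup.mem_center_iff.1 (hc (hcm a b)) t, mul_inv_cancel_right]
  have h0 := pairing_eq_zero f hl hr hd0 (hinv d hd0) (hinv (d + 1) hd1) hd a b
  rw [commute_iff_eq, ← commutatorElement_eq_one_iff_mul_comm,
    comm_congr hc (x' := s a) (y' := s b) (hx.trans (hsl a).symm) (hy.trans (hsl b).symm)]
  exact congrArg (fun c : Additive σ.ker => ((Additive.toMul c : σ.ker) : E)) h0

end SelfPair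

/-- Commuting of lifts transported by a conjugation. -/
theorem commute_transport (hc : σ.ker ≤ Subgroup.center E) (hs : Function.Surjective σ) {g : G} {P Q : Set G}
    (hP : ∀ x y, σ x ∈ P → σ y ∈ P → Commute x y) (hQ : ∀ u ∈ Q, ∃ w ∈ P, g * w * g⁻¹ = u) {x y : E}
    (hx : σ x ∈ Q) (hy : σ y ∈ Q) : Commute x y := by
  obtain ⟨w, hw, ew⟩ := hQ _ hx
  obtain ⟨w', hw', ew'⟩ := hQ _ hy
  obtain ⟨t, rfl⟩ := hs g
  have h : Commute (t⁻¹ * x * t) (t⁻¹ * y * t) := by
    refine hP _ _ ?_ ?_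
    · rw [map_mul, map_mul, map_inv, ← ew]; convert hw using 1; group
    · rw [map_mul, map_mul, map_inv, ← ew']; convert hw' using 1; group
  have := h.conj t
  simpa [mul_assoc] using this

/-- The lift of a moved root group. -/
theorem exists_root_lift (hc : σ.ker ≤ Subgroup.center E) (hs : Function.Surjective σ) {A : Type*} [AddCommGroup A]
    (el : Multiplicative A →* G) {ι : Type*} (g : ι → G) (act : ι → A →+ A)
    (hg : ∀ i a, g i * el (Multiplicative.ofAdd a) * (g i)⁻¹ = el (Multiplicative.ofAdd (act i a)))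
    (hcomm : ∀ i j, Commute (g i) (g j)) (hact : ∀ i j a, act i (act j a) = act j (act i a))
    (habel : ∀ (a b : A) (x y : E), σ x = el (Multiplicative.ofAdd a) → σ y = el (Multiplicative.ofAdd b) → Commute x y)
    (i₀ : ι) (hmove : Function.Bijective fun a => act i₀ a - a) :
    ∃ L : A → E, (∀ a b, L (a + b) = L a * L b) ∧ (∀ a, σ (L a) = el (Multiplicative.ofAdd a)) ∧
      ∀ i (t : E), σ t = g i → ∀ a, t * L a * t⁻¹ = L (act i a) := by
  choose s hsl using fun c => hs (el (Multiplicative.ofAdd c))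
  obtain ⟨e, he⟩ := hmove.surjective.hasRightInverse
  obtain ⟨t₀, ht₀⟩ := hs (g i₀)
  replace he : ∀ a, act i₀ (e a) - e a = a := he
  have hσ : ∀ (y : E) (b : A), σ y = el (Multiplicative.ofAdd b) →
      σ ⁅t₀, y⁆ = el (Multiplicative.ofAdd (act i₀ b - b)) := by
    intro y b hy
    rw [map_commutatorElement, commutatorElement_def, hy, ht₀, hg, ofAdd_sub, map_div, div_eq_mul_inv]
  have eadd : ∀ a b, e (a + b) = e a + e b := fun a b => hmove.injective (by
    show act i₀ (e (a + b)) - e (a + b) = act i₀ (e a + e b) - (e a + e b)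
    rw [map_add, add_sub_add_comm, he (a + b), he a, he b])
  have eact : ∀ i a, e (act i a) = act i (e a) := fun i a => hmove.injective (by
    show act i₀ (e (act i a)) - e (act i a) = act i₀ (act i (e a)) - act i (e a)
    rw [he, hact, ← map_sub, he a])
  refine ⟨fun a => ⁅t₀, s (e a)⁆, fun a b => ?_, fun a => ?_, fun i t ht' a => ?_⟩
  · show ⁅t₀, s (e (a + b))⁆ = ⁅t₀, s (e a)⁆ * ⁅t₀, s (e b)⁆
    have k1 : Commute (s (e a)) ⁅t₀, s (e b)⁆ := habel _ _ _ _ (hsl _) (hσ _ _ (hsl _))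
    rw [comm_congr hc (x' := t₀) (y' := s (e a) * s (e b)) rfl
      (by rw [map_mul, hsl, hsl, hsl, eadd, ofAdd_add, map_mul])]
    calc ⁅t₀, s (e a) * s (e b)⁆ = ⁅t₀, s (e a)⁆ * (s (e a) * ⁅t₀, s (e b)⁆ * (s (e a))⁻¹) := by
          simp only [commutatorElement_def]; group
      _ = _ := by rw [k1.eq, mul_inv_cancel_right]
  · rw [hσ _ _ (hsl _)]
    exact congrArg (fun c => el (Multiplicative.ofAdd c)) (he a)
  · show t * ⁅t₀, s (e a)⁆ * t⁻¹ = ⁅t₀, s (e (act i a))⁆
    rw [conjugate_commutatorElement]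
    refine comm_congr hc ?_ ?_
    · rw [map_mul, map_mul, map_inv, ht', ht₀, (hcomm i i₀).eq, mul_inv_cancel_right]
    · rw [map_mul, map_mul, map_inv, ht', hsl, hsl, hg, eact]

/-- Lifts of commuting elements, one of order prime to the order of the kernel modulo the kernel. -/
theorem commute_of_coprime (hc : σ.ker ≤ Subgroup.center E) {p : ℕ} (hk : IsPGroup p σ.ker) {t x : E}
    (h : Commute (σ t) (σ x)) {m : ℕ} (hm : σ t ^ m = 1) (hco : Nat.Coprime p m) : Commute t x := by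
  have hz : ⁅t, x⁆ ∈ σ.ker := by
    rw [MonoidHom.mem_ker, map_commutatorElement, commutatorElement_eq_one_iff_mul_comm]; exact h.eq
  obtain ⟨k, hk1⟩ := hk ⟨_, hz⟩
  replace hk1 : ⁅t, x⁆ ^ p ^ k = 1 := congrArg Subtype.val hk1
  have hpow : ∀ i : ℕ, ⁅t ^ i, x⁆ = ⁅t, x⁆ ^ i := by
    intro i
    induction i with
    | zero => simp
    | succ i ih =>
      have hcc := Subgroup.mem_center_iff.1 (hc hz) (t ^ i)
      rw [pow_succ, show ⁅t ^ i * t, x⁆ = t ^ i * ⁅t, x⁆ * (t ^ i)⁻¹ * ⁅t ^ i, x⁆ by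
        simp only [commutatorElement_def]; group, hcc, mul_inv_cancel_right, ih, ← pow_succ']
  have hm1 : ⁅t, x⁆ ^ m = 1 := by
    rw [← hpow, commutatorElement_eq_one_iff_mul_comm]
    exact ((Subgroup.mem_center_iff.1 (hc (show t ^ m ∈ σ.ker by rw [MonoidHom.mem_ker, map_pow, hm]))) x).symm
  have h1 : ⁅t, x⁆ ^ Nat.gcd (p ^ k) m = 1 := pow_gcd_eq_one.2 ⟨hk1, hm1⟩
  rw [(hco.pow_left k).gcd_eq_one, pow_one, commutatorElement_eq_one_iff_mul_comm] at h1
  exact h1

/-- A family of root lifts compatible with a torus. -/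
structure Fam (σ : E →* G) {n : ℕ} (A : Fin n → Type*) [∀ i, AddCommGroup (A i)] (el : ∀ i, A i → G)
    {ι : Type*} (g : ι → G) (act : ι → ∀ i, A i → A i) (L : ∀ i, A i → E) : Prop where
  add : ∀ i a b, L i (a + b) = L i a * L i b
  lift : ∀ i a, σ (L i a) = el i a
  equiv : ∀ τ (t : E), σ t = g τ → ∀ i a, t * L i a * t⁻¹ = L i (act τ i a)
  comm : ∀ i j : Fin n, i < j → ∀ a b, ⁅el i a, el j b⁆ ∈ Subgroup.closure {x | ∃ k : Fin n, (j : ℕ) < (k : ℕ) ∧ ∃ c, x = el k c}
  indep : ∀ (i : Fin n) a, el i a ∈ Subgroup.closure {x | ∃ k : Fin n, (i : ℕ) < (k : ℕ) ∧ ∃ c, x = el k c} → a = 0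

variable {n : ℕ} {A : Fin n → Type*} [∀ i, AddCommGroup (A i)] {el : ∀ i, A i → G}
  {ι : Type*} {g : ι → G} {act : ι → ∀ i, A i → A i} {L : ∀ i, A i → E}

/-- The subgroup of the lifts from an index on. -/
def span (L : ∀ i, A i → E) (k : ℕ) : Subgroup E :=
  Subgroup.closure {x | ∃ i : Fin n, k ≤ (i : ℕ) ∧ ∃ c, x = L i c}

/-- The commutators from an index on are right. -/
def Closed (L : ∀ i, A i → E) (k : ℕ) : Prop :=
  ∀ i j : Fin n, i < j → k ≤ (j : ℕ) → ∀ a b, ⁅L i a, L j b⁆ ∈ span L ((j : ℕ) + 1)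

namespace Fam

variable (h : Fam σ A el g act L)
include h

theorem mem_span {k : ℕ} {i : Fin n} (hi : k ≤ (i : ℕ)) (c : A i) : L i c ∈ span L k :=
  Subgroup.subset_closure ⟨i, hi, c, rfl⟩

theorem L_zero (i : Fin n) : L i 0 = 1 := by
  have := h.add i 0 0
  rwa [add_zero, left_eq_mul] at this

theorem L_neg (i : Fin n) (a : A i) : (L i a)⁻¹ = L i (-a) :=
  inv_eq_of_mul_eq_one_right (by rw [← h.add, add_neg_cancel, h.L_zero])

theorem span_anti {k l : ℕ} (hkl : k ≤ l) : span L l ≤ span L k :=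
  Subgroup.closure_mono fun _ ⟨i, hi, hx⟩ => ⟨i, hkl.trans hi, hx⟩

theorem self_mem (i : Fin n) (a b : A i) : ⁅L i a, L i b⁆ = 1 := by
  rw [commutatorElement_eq_one_iff_mul_comm, ← h.add, ← h.add, add_comm]

theorem normalizes {k : ℕ} (hk : Closed L k) (i : Fin n) (a : A i) :
    L i a ∈ Subgroup.normalizer (span L k : Set E) := by
  have key : ∀ a : A i, ∀ x ∈ span L k, L i a * x * (L i a)⁻¹ ∈ span L k := by
    intro a x hx
    induction hx using Subgroup.closure_induction with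
    | mem y hy =>
      obtain ⟨j, hj, c, rfl⟩ := hy
      have : ⁅L i a, L j c⁆ ∈ span L k := by
        rcases lt_trichotomy i j with hij | rfl | hij
        · exact h.span_anti (by omega) (hk i j hij hj a c)
        · rw [h.self_mem]; exact one_mem _
        · rw [← commutatorElement_inv]
          refine inv_mem (h.span_anti ?_ (hk j i hij ?_ c a)) <;> [omega; omega]
      have e : L i a * L j c * (L i a)⁻¹ = ⁅L i a, L j c⁆ * L j c := by
        simp only [commutatorElement_def]; group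
      rw [e]
      exact mul_mem this (h.mem_span hj c)
    | one => simp
    | mul x y _ _ hx hy =>
      rw [show L i a * (x * y) * (L i a)⁻¹ = (L i a * x * (L i a)⁻¹) * (L i a * y * (L i a)⁻¹) by group]
      exact mul_mem hx hy
    | inv x _ hx =>
      rw [show L i a * x⁻¹ * (L i a)⁻¹ = (L i a * x * (L i a)⁻¹)⁻¹ by group]
      exact inv_mem hx
  rw [Subgroup.mem_normalizer_iff]
  refine fun x => ⟨key a x, fun hx => ?_⟩
  have := key (-a) _ hx
  rw [← h.L_neg] at this
  simpa [mul_assoc] using this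

theorem torus_normalizes {k : ℕ} (τ : ι) {t : E} (ht' : σ t = g τ) (x : E) (hx : x ∈ span L k) :
    t * x * t⁻¹ ∈ span L k := by
  induction hx using Subgroup.closure_induction with
  | mem y hy =>
    obtain ⟨j, hj, c, rfl⟩ := hy
    rw [h.equiv τ t ht']
    exact h.mem_span hj _
  | one => simp
  | mul x y _ _ hx hy =>
    rw [show t * (x * y) * t⁻¹ = (t * x * t⁻¹) * (t * y * t⁻¹) by group]
    exact mul_mem hx hy
  | inv x _ hx =>
    rw [show t * x⁻¹ * t⁻¹ = (t * x * t⁻¹)⁻¹ by group]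
    exact inv_mem hx

theorem map_span (k : ℕ) : (span L k).map σ = Subgroup.closure {x | ∃ i : Fin n, k ≤ (i : ℕ) ∧ ∃ c, x = el i c} := by
  rw [span, MonoidHom.map_closure]
  congr 1
  ext x
  constructor
  · rintro ⟨_, ⟨i, hi, c, rfl⟩, rfl⟩; exact ⟨i, hi, c, h.lift i c⟩
  · rintro ⟨i, hi, c, rfl⟩; exact ⟨_, ⟨i, hi, c, rfl⟩, h.lift i c⟩

theorem span_inf_ker (k : ℕ) (hk : Closed L (k + 1)) : ∀ x ∈ span L k, σ x = 1 → x = 1 := by
  induction hm : n - k generalizing k with
  | zero =>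
    intro x hx _
    have : span L k = ⊥ := by
      rw [span, Subgroup.closure_eq_bot_iff]
      rintro _ ⟨i, hi, -⟩
      omega
    rwa [this, Subgroup.mem_bot] at hx
  | succ m ih =>
    intro x hx h1
    have hk' : k < n := by omega
    set i : Fin n := ⟨k, hk'⟩
    obtain ⟨a, y, hy, rfl⟩ : ∃ a, ∃ y ∈ span L (k + 1), x = L i a * y := by
      let S : Subgroup E :=
        { carrier := {x | ∃ a, ∃ y ∈ span L (k + 1), x = L i a * y}
          one_mem' := ⟨0, 1, one_mem _, by rw [h.L_zero, one_mul]⟩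
          mul_mem' := by
            rintro _ _ ⟨a, y, hy, rfl⟩ ⟨b, z, hz, rfl⟩
            refine ⟨a + b, (L i b)⁻¹ * y * L i b * z, mul_mem ?_ hz, by rw [h.add]; group⟩
            simpa using (Subgroup.mem_normalizer_iff.1 (inv_mem (h.normalizes hk i b)) y).1 hy
          inv_mem' := by
            rintro _ ⟨a, y, hy, rfl⟩
            refine ⟨-a, L i a * y⁻¹ * (L i a)⁻¹, (Subgroup.mem_normalizer_iff.1 (h.normalizes hk i a) _).1
              (inv_mem hy), ?_⟩
            rw [← h.L_neg]; group }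
      refine (Subgroup.closure_le S).2 ?_ hx
      rintro _ ⟨j, hj, c, rfl⟩
      rcases Nat.eq_or_lt_of_le hj with e | e
      · obtain rfl : j = i := Fin.ext e.symm
        exact ⟨c, 1, one_mem _, (mul_one _).symm⟩
      · exact ⟨0, _, h.mem_span e c, by rw [h.L_zero, one_mul]⟩
    have ha : a = 0 := by
      refine h.indep i a ?_
      rw [map_mul, h.lift] at h1
      rw [eq_inv_of_mul_eq_one_left h1]
      refine inv_mem ?_
      have := Subgroup.mem_map_of_mem σ hy
      rw [h.map_span] at this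
      exact this
    subst ha
    rw [h.L_zero, one_mul] at h1 ⊢
    exact ih (k + 1) (fun p q hpq hq => hk p q hpq (by omega)) (by omega) y hy h1

/-- A commutator of lifts up to the kernel. -/
theorem comm_mod (hc : σ.ker ≤ Subgroup.center E) {i j : Fin n} (hij : i < j) (a : A i) (b : A j) :
    ∃ z ∈ Subgroup.center E, σ z = 1 ∧ ∃ y ∈ span L ((j : ℕ) + 1), ⁅L i a, L j b⁆ = y * z := by
  have h1 := h.comm i j hij a b
  rw [show {x | ∃ k : Fin n, (j : ℕ) < (k : ℕ) ∧ ∃ c, x = el k c} =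
    {x | ∃ k : Fin n, (j : ℕ) + 1 ≤ (k : ℕ) ∧ ∃ c, x = el k c} from rfl, ← h.map_span] at h1
  obtain ⟨y, hy, e⟩ := h1
  obtain ⟨z, hz, hz1, hz2⟩ := eq_central_mul hc (x := ⁅L i a, L j b⁆) (y := y)
    (by rw [map_commutatorElement, h.lift, h.lift, e])
  exact ⟨z, hz, hz1, y, hy, hz2⟩

/-- A pair separated by a torus element. -/
theorem step_of_pair (hc : σ.ker ≤ Subgroup.center E) (hs : Function.Surjective σ) {i j : Fin n} (hij : i < j)
    (hk : Closed L ((j : ℕ) + 1))
    (hp : ∃ τ, ((∀ a, act τ i a = a) ∧ ∀ b, ∃ c, act τ j c = b + c) ∨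
      ((∀ b, act τ j b = b) ∧ ∀ a, ∃ c, act τ i c = a + c)) (a : A i) (b : A j) :
    ⁅L i a, L j b⁆ ∈ span L ((j : ℕ) + 1) := by
  obtain ⟨τ, hτ⟩ := hp
  obtain ⟨t, ht'⟩ := hs (g τ)
  set N := span L ((j : ℕ) + 1)
  have hn := fun k c => Subgroup.mem_normalizer_iff.1 (h.normalizes hk k c)
  have hz' : ∀ {z y : E}, z ∈ Subgroup.center E → y ∈ N → ∀ w, (w = y * z) →
      t * w * t⁻¹ = (t * y * t⁻¹) * z := by
    intro z y hz _ w hw
    rw [hw, show t * (y * z) * t⁻¹ = t * y * (z * t⁻¹) by group, ← Subgroup.mem_center_iff.1 hz t⁻¹]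
    group
  rcases hτ with ⟨hfix, hmv⟩ | ⟨hfix, hmv⟩
  · obtain ⟨c, hc'⟩ := hmv b
    obtain ⟨z, hz, -, y, hy, e⟩ := h.comm_mod hc hij a c
    have e1 : ⁅L i a, L j b * L j c⁆ = t * y * t⁻¹ * z := by
      rw [← h.add, ← hc', ← hz' hz hy _ e, conjugate_commutatorElement, h.equiv τ t ht', h.equiv τ t ht', hfix]
    have e2 : ⁅L i a, L j b * L j c⁆ = ⁅L i a, L j b⁆ * (L j b * ⁅L i a, L j c⁆ * (L j b)⁻¹) := by
      simp only [commutatorElement_def]; group
    rw [e, show L j b * (y * z) * (L j b)⁻¹ = L j b * y * (z * (L j b)⁻¹) by group,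
      ← Subgroup.mem_center_iff.1 hz, e1] at e2
    have e3 : ⁅L i a, L j b⁆ = t * y * t⁻¹ * (L j b * y * (L j b)⁻¹)⁻¹ := by
      rw [← mul_left_inj (L j b * y * ((L j b)⁻¹ * z)), ← e2]; group
    rw [e3]
    exact mul_mem (h.torus_normalizes τ ht' y hy) (inv_mem ((hn j b y).1 hy))
  · obtain ⟨c, hc'⟩ := hmv a
    obtain ⟨z, hz, -, y, hy, e⟩ := h.comm_mod hc hij c b
    have e1 : ⁅L i c * L i a, L j b⁆ = t * y * t⁻¹ * z := by
      rw [← h.add, add_comm, ← hc', ← hz' hz hy _ e, conjugate_commutatorElement, h.equiv τ t ht', h.equiv τ t ht',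
        hfix]
    have e2 : ⁅L i c * L i a, L j b⁆ = L i c * ⁅L i a, L j b⁆ * (L i c)⁻¹ * ⁅L i c, L j b⁆ := by
      simp only [commutatorElement_def]; group
    rw [e, e1] at e2
    have e3 : L i c * ⁅L i a, L j b⁆ * (L i c)⁻¹ = t * y * t⁻¹ * y⁻¹ := by
      rw [← mul_left_inj (y * z), ← e2]; group
    refine (hn i c _).2 ?_
    rw [e3]
    exact mul_mem (h.torus_normalizes τ ht' y hy) (inv_mem hy)

theorem comm_mod_unique {k : ℕ} (hk : Closed L k) {y y' z z' : E} (hy : y ∈ span L k) (hy' : y' ∈ span L k)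
    (hz : σ z = 1) (hz' : σ z' = 1) (e : y * z = y' * z') : z = z' := by
  have h1 : y'⁻¹ * y = z' * z⁻¹ := by rw [eq_mul_inv_iff_mul_eq, mul_assoc, e, inv_mul_cancel_left]
  have h2 := h.span_inf_ker k (fun p q hpq hq => hk p q hpq (by omega)) _ (mul_mem (inv_mem hy') hy)
    (by rw [h1, map_mul, map_inv, hz, hz', inv_one, mul_one])
  rw [h2, eq_comm, mul_inv_eq_one] at h1
  exact h1.symm

/-- A pair scaled by all non-zero scalars of a field. -/
theorem step_of_field (hc : σ.ker ≤ Subgroup.center E) (hs : Function.Surjective σ) {i j : Fin n} (hij : i < j)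
    (hk : Closed L ((j : ℕ) + 1)) {F : Type*} [Field F] (ei : F ≃+ A i) (ej : F ≃+ A j)
    (hw : ∀ w : F, w ≠ 0 → ∃ τ, ∀ x, act τ i (ei x) = ei (w * x) ∧ act τ j (ej x) = ej (w * x))
    {d : F} (hd0 : d ≠ 0) (hd1 : d + 1 ≠ 0) (hd : d ^ 2 + d + 1 ≠ 0) (a : A i) (b : A j) :
    ⁅L i a, L j b⁆ ∈ span L ((j : ℕ) + 1) := by
  let _ : CommGroup σ.ker :=
    { (inferInstance : Group σ.ker) with
      mul_comm := fun a b => Subtype.ext ((Subgroup.mem_center_iff.1 (hc b.2)) (a : E)) }
  set N := span L ((j : ℕ) + 1)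
  choose z hz hz1 y hy hyz using fun (x x' : F) => h.comm_mod hc hij (ei x) (ej x')
  have hn := fun k c x (hx : x ∈ N) => (Subgroup.mem_normalizer_iff.1 (h.normalizes hk k c) x).1 hx
  let f : F → F → Additive σ.ker := fun x x' => Additive.ofMul ⟨z x x', hz1 x x'⟩
  have key : ∀ x x' w yy, yy ∈ N → σ w = 1 → ⁅L i (ei x), L j (ej x')⁆ = yy * w → z x x' = w :=
    fun x x' w yy hyy hw1 e => h.comm_mod_unique hk (hy x x') hyy (hz1 x x') hw1 ((hyz x x').symm.trans e)
  have hl : ∀ x x' u, f (x + x') u = f x u + f x' u := by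
    intro x x' u
    apply Additive.toMul.injective
    apply Subtype.ext
    show z (x + x') u = z x u * z x' u
    refine key _ _ _ (L i (ei x) * y x' u * (L i (ei x))⁻¹ * y x u)
      (mul_mem (hn _ _ _ (hy _ _)) (hy _ _)) (by rw [map_mul, hz1, hz1, mul_one]) ?_
    rw [map_add, h.add, show ⁅L i (ei x) * L i (ei x'), L j (ej u)⁆ =
      L i (ei x) * ⁅L i (ei x'), L j (ej u)⁆ * (L i (ei x))⁻¹ * ⁅L i (ei x), L j (ej u)⁆ by
        simp only [commutatorElement_def]; group, hyz, hyz]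
    have c1 := Subgroup.mem_center_iff.1 (hz x u)
    have c2 := Subgroup.mem_center_iff.1 (hz x' u)
    calc L i (ei x) * (y x' u * z x' u) * (L i (ei x))⁻¹ * (y x u * z x u)
        = L i (ei x) * y x' u * (z x' u * ((L i (ei x))⁻¹ * y x u)) * z x u := by group
      _ = L i (ei x) * y x' u * ((L i (ei x))⁻¹ * y x u) * (z x' u * z x u) := by
        rw [← c2 ((L i (ei x))⁻¹ * y x u)]; group
      _ = _ := by rw [c1 (z x' u)]; group
  have hr : ∀ x u u', f x (u + u') = f x u + f x u' := by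
    intro x u u'
    apply Additive.toMul.injective
    apply Subtype.ext
    show z x (u + u') = z x u * z x u'
    refine key _ _ _ (y x u * (L j (ej u) * y x u' * (L j (ej u))⁻¹))
      (mul_mem (hy _ _) (hn _ _ _ (hy _ _))) (by rw [map_mul, hz1, hz1, mul_one]) ?_
    rw [map_add, h.add, show ⁅L i (ei x), L j (ej u) * L j (ej u')⁆ =
      ⁅L i (ei x), L j (ej u)⁆ * (L j (ej u) * ⁅L i (ei x), L j (ej u')⁆ * (L j (ej u))⁻¹) by
        simp only [commutatorElement_def]; group, hyz, hyz]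
    have c1 := Subgroup.mem_center_iff.1 (hz x u)
    have c2 := Subgroup.mem_center_iff.1 (hz x u')
    calc y x u * z x u * (L j (ej u) * (y x u' * z x u') * (L j (ej u))⁻¹)
        = y x u * (z x u * (L j (ej u) * y x u')) * (z x u' * (L j (ej u))⁻¹) := by group
      _ = y x u * ((L j (ej u) * y x u') * z x u) * ((L j (ej u))⁻¹ * z x u') := by
        rw [c1 (L j (ej u) * y x u'), c2 (L j (ej u))⁻¹]
      _ = y x u * (L j (ej u) * y x u') * (z x u * (L j (ej u))⁻¹) * z x u' := by group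
      _ = _ := by rw [← c1 (L j (ej u))⁻¹]; group
  have hinv : ∀ w : F, w ≠ 0 → ∀ x u, f (w * x) (w * u) = f x u := by
    intro w hw0 x u
    obtain ⟨τ, hτ⟩ := hw w hw0
    obtain ⟨t, ht'⟩ := hs (g τ)
    apply Additive.toMul.injective
    apply Subtype.ext
    show z (w * x) (w * u) = z x u
    refine key _ _ _ (t * y x u * t⁻¹) (h.torus_normalizes τ ht' _ (hy _ _)) (hz1 _ _) ?_
    rw [← (hτ x).1, ← (hτ u).2, ← h.equiv τ t ht', ← h.equiv τ t ht', ← conjugate_commutatorElement, hyz,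
      show t * (y x u * z x u) * t⁻¹ = t * y x u * (z x u * t⁻¹) by group, ← Subgroup.mem_center_iff.1 (hz x u) t⁻¹]
    group
  have h0 := pairing_eq_zero f hl hr hd0 (hinv d hd0) (hinv (d + 1) hd1) hd (ei.symm a) (ej.symm b)
  have e := hyz (ei.symm a) (ej.symm b)
  have hz0 : z (ei.symm a) (ej.symm b) = 1 :=
    congrArg (fun c : Additive σ.ker => ((Additive.toMul c : σ.ker) : E)) h0
  rw [ei.apply_symm_apply, ej.apply_symm_apply, hz0] at e
  rw [e]
  simpa using hy (ei.symm a) (ej.symm b)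

theorem closed_of_step (hstep : ∀ i j : Fin n, i < j → Closed L ((j : ℕ) + 1) →
    (∀ i' : Fin n, (i' : ℕ) < (i : ℕ) → ∀ a b, ⁅L i' a, L j b⁆ ∈ span L ((j : ℕ) + 1)) →
    ∀ a b, ⁅L i a, L j b⁆ ∈ span L ((j : ℕ) + 1)) (k : ℕ) : Closed L k := by
  induction hm : n - k generalizing k with
  | zero => intro i j _ hj; omega
  | succ m ih =>
    have hk := ih (k + 1) (by omega)
    intro i j hij hj
    rcases Nat.eq_or_lt_of_le hj with e | e
    · subst e
      suffices H : ∀ (l : ℕ) (i : Fin n), (i : ℕ) = l → i < j → ∀ a b, ⁅L i a, L j b⁆ ∈ span L ((j : ℕ) + 1) from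
        H _ i rfl hij
      intro l
      induction l using Nat.strong_induction_on with
      | _ l ihl =>
        intro i hl hi
        exact hstep i j hi hk fun i' hi' => ihl i' (hl ▸ hi') i' rfl (lt_trans hi' hi)
    · exact hk i j hij e

/-- The commutator group of the preimage of the generated group meets the kernel trivially. -/
theorem inf_ker_eq_one [Finite E] (hc : σ.ker ≤ Subgroup.center E) (hs : Function.Surjective σ) (hclosed : Closed L 0)
    (htt : ∀ τ τ' (t t' : E), σ t = g τ → σ t' = g τ' → Commute t t')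
    (C : Subgroup E) (hC : C = (Subgroup.closure ({x | ∃ i c, x = el i c} ∪ Set.range g)).comap σ)
    {z : E} (hz : σ z = 1) (hzC : z ∈ (commutator C).map C.subtype) : z = 1 := by
  set N := span L 0
  refine h.span_inf_ker 0 (fun i j hij hj => hclosed i j hij (Nat.zero_le _)) z ?_ hz
  set X : Set E := {x | ∃ i c, σ x = el i c} ∪ {x | ∃ τ, σ x = g τ} ∪ {x | σ x = 1}
  have hXC : C ≤ Subgroup.closure X := by
    intro x hx
    rw [hC, Subgroup.mem_comap] at hx
    have : σ x ∈ (Subgroup.closure X).map σ := by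
      rw [MonoidHom.map_closure]
      refine Subgroup.closure_mono ?_ hx
      rintro w (⟨i, c, rfl⟩ | ⟨τ, rfl⟩)
      · exact ⟨L i c, Or.inl (Or.inl ⟨i, c, h.lift i c⟩), h.lift i c⟩
      · obtain ⟨t, ht'⟩ := hs (g τ)
        exact ⟨t, Or.inl (Or.inr ⟨τ, ht'⟩), ht'⟩
    obtain ⟨y, hy, e⟩ := this
    have : y⁻¹ * x ∈ Subgroup.closure X := Subgroup.subset_closure (Or.inr (by
      show σ (y⁻¹ * x) = 1
      rw [map_mul, map_inv, e, inv_mul_cancel]))
    simpa using mul_mem hy this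
  have hnorm : X ⊆ (Subgroup.normalizer (N : Set E) : Set E) := by
    intro x hx
    show x ∈ Subgroup.normalizer (N : Set E)
    rcases hx with (⟨i, c, e⟩ | ⟨τ, e⟩) | e
    · rw [Subgroup.mem_normalizer_iff]
      intro w
      rw [conj_congr hc (e.trans (h.lift i c).symm) w]
      exact Subgroup.mem_normalizer_iff.1 (h.normalizes hclosed i c) w
    · rw [Subgroup.mem_normalizer_iff]
      refine fun w => ⟨h.torus_normalizes τ e w, fun hw => ?_⟩
      let f : N → N := fun u => ⟨x * u * x⁻¹, h.torus_normalizes τ e u u.2⟩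
      have hf : Function.Injective f := fun u v huv => Subtype.ext (mul_left_cancel (mul_right_cancel (congrArg Subtype.val huv)))
      obtain ⟨u, hu⟩ := (Finite.injective_iff_surjective.1 hf) ⟨_, hw⟩
      have : (u : E) = w := mul_left_cancel (mul_right_cancel (congrArg Subtype.val hu))
      exact this ▸ u.2
    · rw [Subgroup.mem_normalizer_iff]
      intro w
      rw [← Subgroup.mem_center_iff.1 (hc e) w, mul_inv_cancel_right]
  obtain ⟨⟨w, hw⟩, hwc, rfl⟩ := hzC
  have hle : commutator C ≤ N.comap C.subtype := by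
    rw [_root_.commutator_def, Subgroup.commutator_le]
    rintro ⟨x, hx⟩ - ⟨y, hy⟩ -
    refine comm_closure₂ hnorm ?_ (hXC hx) (hXC hy)
    have hzero : ∀ x y : E, σ x = 1 → ⁅x, y⁆ ∈ N := fun x y e => by
      rw [commutatorElement_eq_one_iff_mul_comm.2 (Subgroup.mem_center_iff.1 (hc e) y).symm]
      exact one_mem _
    have hLT : ∀ (i : Fin n) (c : A i) (τ : ι) (t : E), σ t = g τ → ⁅L i c, t⁆ ∈ N := fun i c τ t e => by
      rw [← commutatorElement_inv, commutatorElement_def, h.equiv τ t e]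
      exact inv_mem (mul_mem (h.mem_span (Nat.zero_le _) _) (inv_mem (h.mem_span (Nat.zero_le _) _)))
    rintro a ((⟨i, c, e⟩ | ⟨τ, e⟩) | e) b ((⟨j, d, e'⟩ | ⟨τ', e'⟩) | e')
    · rw [comm_congr hc (e.trans (h.lift i c).symm) (e'.trans (h.lift j d).symm)]
      rcases lt_trichotomy i j with hij | rfl | hij
      · exact h.span_anti (Nat.zero_le _) (hclosed i j hij (Nat.zero_le _) c d)
      · rw [h.self_mem]; exact one_mem _
      · rw [← commutatorElement_inv]
        exact inv_mem (h.span_anti (Nat.zero_le _) (hclosed j i hij (Nat.zero_le _) d c))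
    · rw [comm_congr hc (e.trans (h.lift i c).symm) rfl]
      exact hLT i c τ' b e'
    · rw [← commutatorElement_inv]; exact inv_mem (hzero b a e')
    · rw [← commutatorElement_inv, comm_congr hc (e'.trans (h.lift j d).symm) rfl]
      exact inv_mem (hLT j d τ a e)
    · rw [commutatorElement_eq_one_iff_mul_comm.2 (htt τ τ' a b e e').eq]; exact one_mem _
    · rw [← commutatorElement_inv]; exact inv_mem (hzero b a e')
    · exact hzero a b e
    · exact hzero a b e
    · exact hzero a b e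
  exact hle hwc

end Fam

end Cfsg.Agent.CentralExt.RootLift
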