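import Cfsg.Agent.CentralExt.D4RPart
import Cfsg.Agent.CentralExt.RootLift
import Cfsg.Agent.D4Deg.Main

/-!
# The six root groups of the unipotent subgroup of ³D₄(q) in an order where commutators go up
-/

set_option autoImplicit false
set_option linter.unusedSectionVars false

namespace Cfsg.Agent.CentralExt.D4M

open Cfsg.Lie Cfsg.Agent.ChevGrp Cfsg.Agent.ChevTw Cfsg.Agent.CTits Cfsg.Agent.D4Deg
open Cfsg.Agent.CentralExt.BNLift
open scoped MatrixGroups commutatorElement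

/-- The roots of the six root groups. -/
def rts : Fin 6 → List ℕ := ![[18, 13, 12], [14], [19, 16, 15], [20, 21, 17], [22], [23]]

/-- The leading roots. -/
def hd : Fin 6 → ℕ := ![18, 14, 19, 20, 22, 23]

/-- The long root groups. -/
def isLong : Fin 6 → Bool := ![false, true, false, false, true, true]

/-- All positive roots in this order. -/
def LL : List ℕ := [18, 13, 12, 14, 19, 16, 15, 20, 21, 17, 22, 23]

/-- The roots from an index on. -/
def suf (k : ℕ) : List ℕ := ((List.finRange 6).filter fun i : Fin 6 => decide (k ≤ i.val)).flatMap rts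

theorem dataLL : LL.Nodup ∧ (∀ r < chevD4.nroots, r ∈ LL ↔ chevD4.IsPosRoot r) ∧
    (∀ i, ∀ r ∈ rts i, r ∈ LL) ∧ (∀ i, hd i ∈ rts i) ∧ (∀ i k : Fin 6, hd i ∈ suf k → (k : ℕ) ≤ i) ∧
    (∀ i : Fin 6, ∀ r ∈ rts i, r ∈ suf i) ∧ (∀ i j : Fin 6, hd i ∈ rts j → i = j) := by decide +kernel

theorem dataClosed : (∀ k < 7, ∀ r ∈ LL, ∀ s ∈ suf k, s ≠ r → ∀ c ∈ chevD4.commTerms r s, c.1 ∈ suf k) ∧
    (∀ i : Fin 6, ∀ r ∈ rts i, ∀ s ∈ rts i, s ≠ r → ∀ c ∈ chevD4.commTerms r s, c.1 ∈ rts i) ∧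
    (∀ k < 7, ∀ r ∈ suf k, r ∈ LL) := by decide +kernel

theorem dataComm : ∀ i j : Fin 6, i < j → ∀ r ∈ rts i, ∀ s ∈ rts j, s ≠ r ∧ s ≠ chevD4.neg r ∧
    ∀ c ∈ chevD4.commTerms r s, c.1 ∈ suf ((j : ℕ) + 1) := by decide +kernel

theorem dataCartan : ∀ (i : Fin 6) (j : Fin 4), chevD4.cartan j.val (hd i) =
    ((![[2, -1, 0, 0], [-1, 2, -1, -1], [1, 1, -1, -1], [1, 0, -1, 1], [1, -1, 1, 1], [0, 1, 0, 0]] : Fin 6 → List ℤ) i).getD j.val 0 := by
  decide +kernel

variable {K : Type*} [Field K] [Fintype K] {q : ℕ} (hq : IsPrimePow q) (hK : Fintype.card K = q ^ 3)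

local notation "σ" => frobD4 hq hK
local notation "GK" => GL chevD4.Idx K
set_option quotPrecheck false
local notation "GT" => ↥(twistedD4 K q)
local notation "SS" => glSys (rulesD4 K)

/-- The parameters. -/
noncomputable def Af (i : Fin 6) : Subfield K := bif isLong i then Fx σ else ⊤

theorem Af_long {i : Fin 6} (h : isLong i = true) : Af hq hK i = Fx σ := by rw [Af, h]; rfl

theorem Af_short {i : Fin 6} (h : isLong i = false) : Af hq hK i = ⊤ := by rw [Af, h]; rfl

/-- A root element of an orbit. -/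
noncomputable def elK : Fin 6 → K → GK :=
  ![fun t => shortEl hq hK false t, fun t => X K 14 t, fun t => tri hq hK 19 16 15 (-1) (-1) t,
    fun t => tri hq hK 20 21 17 1 (-1) t, fun t => X K 22 t, fun t => X K 23 t]

/-- The coefficients of a product of root elements. -/
noncomputable def coefF (a : Fin 6 → K) : ℕ → K := fun r =>
  if r = 18 then a 0 else if r = 13 then σ (a 0) else if r = 12 then σ (σ (a 0)) else if r = 14 then a 1
  else if r = 19 then a 2 else if r = 16 then -σ (a 2) else if r = 15 then -σ (σ (a 2))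
  else if r = 20 then a 3 else if r = 21 then σ (a 3) else if r = 17 then -σ (σ (a 3))
  else if r = 22 then a 4 else a 5

theorem coefF_hd (a : Fin 6 → K) (i : Fin 6) : coefF hq hK a (hd i) = a i := by
  fin_cases i <;> simp [coefF, hd]

theorem prod_eq (a : Fin 6 → K) :
    elK hq hK 0 (a 0) * elK hq hK 1 (a 1) * elK hq hK 2 (a 2) * elK hq hK 3 (a 3) * elK hq hK 4 (a 4) *
      elK hq hK 5 (a 5) = Sys.P SS LL (coefF hq hK a) := by
  simp [elK, LL, Sys.P, coefF, shortEl, tri, mul_assoc]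

theorem elK_zero (i : Fin 6) : elK hq hK i 0 = 1 := by
  have h : ∀ r < chevD4.nroots, X K r (0 : K) = 1 := fun r hr => (SS).x_zero hr
  fin_cases i <;> simp [elK, shortEl, tri, h _ (show 18 < chevD4.nroots by decide),
    h _ (show 13 < chevD4.nroots by decide), h _ (show 12 < chevD4.nroots by decide),
    h _ (show 14 < chevD4.nroots by decide), h _ (show 19 < chevD4.nroots by decide),
    h _ (show 16 < chevD4.nroots by decide), h _ (show 15 < chevD4.nroots by decide),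
    h _ (show 20 < chevD4.nroots by decide), h _ (show 21 < chevD4.nroots by decide),
    h _ (show 17 < chevD4.nroots by decide), h _ (show 22 < chevD4.nroots by decide),
    h _ (show 23 < chevD4.nroots by decide)]

theorem elK_single (i : Fin 6) (t : K) : elK hq hK i t = Sys.P SS LL (coefF hq hK (Pi.single i t)) := by
  rw [← prod_eq]
  fin_cases i <;> simp [elK_zero]

theorem elK_US (i : Fin 6) (t : K) : elK hq hK i t ∈ Sys.US SS {r | r ∈ rts i} := by
  have h : ∀ r ∈ rts i, ∀ s : K, X K r s ∈ Sys.US SS {r | r ∈ rts i} := fun r hr s => (SS).x_mem_US hr s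
  fin_cases i <;>
    first
      | exact mul_mem (mul_mem (h _ (by simp [rts]) _) (h _ (by simp [rts]) _)) (h _ (by simp [rts]) _)
      | exact h _ (by simp [rts]) _

theorem elK_mem (i : Fin 6) {t : K} (ht' : t ∈ Af hq hK i) :
    elK hq hK i t ∈ Sys.Ubar SS ⊓ twistedD4 K q := by
  refine Subgroup.mem_inf.2 ⟨?_, ?_⟩
  · refine (SS).US_mono (fun r (hr : r ∈ rts i) => ?_) (elK_US hq hK i t)
    have : ∀ i, ∀ r ∈ rts i, chevD4.IsPosRoot r := by decide +kernel
    exact this i r hr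
  · fin_cases i
    · exact (Subgroup.mem_inf.1 (shortEl_mem hq hK false t)).1
    · exact single_mem' hq hK (by simp) ⟨t, by simpa [Af, isLong] using ht'⟩
    · exact tri_mem hq hK (by simp) t
    · exact tri_mem hq hK (by simp) t
    · exact single_mem' hq hK (by simp) ⟨t, by simpa [Af, isLong] using ht'⟩
    · exact single_mem' hq hK (by simp) ⟨t, by simpa [Af, isLong] using ht'⟩

theorem enumLL : Enum (posSet chevD4) LL := ⟨dataLL.1, fun r => by
  constructor
  · exact fun hr => (dataLL.2.1 r ((show ∀ s ∈ LL, s < chevD4.nroots by decide) r hr)).1 hr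
  · exact fun hr => (dataLL.2.1 r hr.1).2 hr⟩

theorem coefF_inj {a b : Fin 6 → K} (h : Sys.P SS LL (coefF hq hK a) = Sys.P SS LL (coefF hq hK b)) : a = b := by
  have hR := (rulesD4 K).root.choose_spec
  funext i
  have hmem : hd i ∈ posSet chevD4 := (enumLL.2 _).1 (dataLL.2.2.1 i _ (dataLL.2.2.2.1 i))
  have := (SS).coef_unique hR hR.posSet_closed enumLL (congrArg _ h) (hd i) hmem
  rwa [coefF_hd, coefF_hd] at this

include hq hK in
theorem exists_coefF {u : GK} (hu : u ∈ Sys.Ubar SS ⊓ twistedD4 K q) :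
    ∃ a : Fin 6 → K, (∀ i, a i ∈ Af hq hK i) ∧ u = Sys.P SS LL (coefF hq hK a) := by
  classical
  let f : (∀ i, ↥(Af hq hK i)) → ↥(Sys.Ubar SS ⊓ twistedD4 K q) := fun a =>
    ⟨Sys.P SS LL (coefF hq hK fun i => (a i : K)), by
      rw [← prod_eq]
      exact mul_mem (mul_mem (mul_mem (mul_mem (mul_mem (elK_mem hq hK 0 (a 0).2) (elK_mem hq hK 1 (a 1).2))
        (elK_mem hq hK 2 (a 2).2)) (elK_mem hq hK 3 (a 3).2)) (elK_mem hq hK 4 (a 4).2)) (elK_mem hq hK 5 (a 5).2)⟩
  have hf : Function.Injective f := fun a b e =>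
    funext fun i => Subtype.ext (congrFun (coefF_inj hq hK (congrArg Subtype.val e)) i)
  have hFx : Nat.card ↥(Fx σ) = q := D4Deg.card_Fx hq.one_lt hK (frobD4_apply hq hK)
  have hcard : Nat.card (∀ i, ↥(Af hq hK i)) = Nat.card ↥(Sys.Ubar SS ⊓ twistedD4 K q) := by
    have e2 : Nat.card ↥(⊤ : Subfield K) = q ^ 3 := by
      rw [Nat.card_congr Subfield.topEquiv.toEquiv, Nat.card_eq_fintype_card, hK]
    rw [← posUnipotent_eq (rulesD4 K), thm_S1088 hq hK, Nat.card_pi, Fin.prod_univ_six,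
      Af_short hq hK (i := 0) rfl, Af_long hq hK (i := 1) rfl, Af_short hq hK (i := 2) rfl,
      Af_short hq hK (i := 3) rfl, Af_long hq hK (i := 4) rfl, Af_long hq hK (i := 5) rfl, hFx, e2]
    ring
  obtain ⟨a, ha⟩ := ((Nat.bijective_iff_injective_and_card f).2 ⟨hf, hcard⟩).2 ⟨u, hu⟩
  exact ⟨fun i => a i, fun i => (a i).2, (congrArg Subtype.val ha).symm⟩

theorem closedSuf (k : ℕ) (hk : k < 7) :
    UClosed chevD4 ((rulesD4 K).root.choose) (htHom chevD4) {r | r ∈ suf k} := by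
  have hR := (rulesD4 K).root.choose_spec
  exact hR.posSet_closed.subset_closed (fun r hr => (enumLL.2 r).1 (dataClosed.2.2 k hk r hr))
    fun r hr s hs hne c hc => dataClosed.1 k hk r (dataClosed.2.2 k hk r hr) s hs hne c hc

theorem closedRts (i : Fin 6) : UClosed chevD4 ((rulesD4 K).root.choose) (htHom chevD4) {r | r ∈ rts i} := by
  have hR := (rulesD4 K).root.choose_spec
  exact hR.posSet_closed.subset_closed (fun r hr => (enumLL.2 r).1 (dataLL.2.2.1 i r hr))
    fun r hr s hs hne c hc => dataClosed.2.1 i r hr s hs hne c hc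

include hq hK in
theorem coefF_supp {a : Fin 6 → K} {B : Set ℕ} (hB : UClosed chevD4 ((rulesD4 K).root.choose) (htHom chevD4) B)
    (hBL : ∀ r ∈ B, r ∈ LL) (h : Sys.P SS LL (coefF hq hK a) ∈ Sys.US SS B) (i : Fin 6) (hi : hd i ∉ B) :
    a i = 0 := by
  have hR := (rulesD4 K).root.choose_spec
  by_contra hne
  exact hi ((SS).coef_supp hR hR.posSet_closed enumLL hB (fun r hr => (enumLL.2 r).1 (hBL r hr)) h (hd i)
    ((enumLL.2 _).1 (dataLL.2.2.1 i _ (dataLL.2.2.2.1 i))) (by rwa [coefF_hd]))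

/-- The root elements in the group. -/
noncomputable def elT (i : Fin 6) (t : ↥(Af hq hK i)) : GT :=
  ⟨elK hq hK i t, (Subgroup.mem_inf.1 (elK_mem hq hK i t.2)).2⟩

theorem elK_add (i : Fin 6) (t u : ↥(Af hq hK i)) : elK hq hK i (t + u : ↥(Af hq hK i)) = elK hq hK i t * elK hq hK i u := by
  have hx : ∀ r < chevD4.nroots, ∀ x y : K, X K r (x + y) = X K r x * X K r y := fun r hr x y =>
    ((SS).x_add r hr x y).symm
  fin_cases i
  · show shortEl hq hK false ((t : K) + u) = _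
    rw [← psiS_up, ← up_add, map_mul, psiS_up, psiS_up]
    rfl
  · exact hx 14 (by decide) _ _
  · show tri hq hK 19 16 15 (-1) (-1) ((t : K) + u) = _
    rw [tri, hx 19 (by decide), map_add, mul_add, hx 16 (by decide), map_add, mul_add, hx 15 (by decide)]
    have hc : ∀ r ∈ [19, 16, 15], ∀ s ∈ [19, 16, 15], s ≠ r → s ≠ chevD4.neg r ∧ chevD4.commTerms r s = [] ∧
        r < chevD4.nroots ∧ s < chevD4.nroots := by decide +kernel
    have cm : ∀ r ∈ [19, 16, 15], ∀ s ∈ [19, 16, 15], s ≠ r → ∀ x y : K, Commute (X K r x) (X K s y) :=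
      fun r hr s hs h x y => x_commute SS (hc r hr s hs h).2.2.1 (hc r hr s hs h).2.2.2 h (hc r hr s hs h).1
        (hc r hr s hs h).2.1 x y
    generalize eA : X K 19 (t : K) = A
    generalize eA' : X K 19 (u : K) = A'
    generalize eB : X K 16 (((-1 : ℤ) : K) * σ (t : K)) = B
    generalize eB' : X K 16 (((-1 : ℤ) : K) * σ (u : K)) = B'
    generalize eC : X K 15 (((-1 : ℤ) : K) * σ (σ (t : K))) = C
    generalize eC' : X K 15 (((-1 : ℤ) : K) * σ (σ (u : K))) = C'
    have h1 : Commute A' B := eA' ▸ eB ▸ cm 19 (by simp) 16 (by simp) (by decide) _ _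
    have h2 : Commute A' C := eA' ▸ eC ▸ cm 19 (by simp) 15 (by simp) (by decide) _ _
    have h3 : Commute B' C := eB' ▸ eC ▸ cm 16 (by simp) 15 (by simp) (by decide) _ _
    show _ = tri hq hK 19 16 15 (-1) (-1) (t : K) * tri hq hK 19 16 15 (-1) (-1) (u : K)
    rw [tri, tri, eA, eA', eB, eB', eC, eC']
    calc A * A' * (B * B') * (C * C') = A * (A' * B) * (B' * C) * C' := by simp only [mul_assoc]
      _ = A * (B * A') * (C * B') * C' := by rw [h1.eq, h3.eq]
      _ = A * B * (A' * C) * B' * C' := by simp only [mul_assoc]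
      _ = A * B * (C * A') * B' * C' := by rw [h2.eq]
      _ = _ := by simp only [mul_assoc]
  · exact D4Deg.tri_add hq hK _ _
  · exact hx 22 (by decide) _ _
  · exact hx 23 (by decide) _ _

theorem elT_add (i : Fin 6) (t u : ↥(Af hq hK i)) : elT hq hK i (t + u) = elT hq hK i t * elT hq hK i u :=
  Subtype.ext (elK_add hq hK i t u)

/-- The root homomorphisms. -/
noncomputable def elHom (i : Fin 6) : Multiplicative ↥(Af hq hK i) →* GT :=
  MonoidHom.mk' (fun a => elT hq hK i a.toAdd) fun _ _ => elT_add hq hK i _ _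

theorem elT_inj (i : Fin 6) {t u : ↥(Af hq hK i)} (h : elT hq hK i t = elT hq hK i u) : t = u := by
  have e := congrArg Subtype.val h
  simp only [elT, elK_single] at e
  exact Subtype.ext (by simpa using congrFun (coefF_inj hq hK e) i)

/-- An element supported on the roots of one orbit. -/
theorem eq_elT_of_US (i : Fin 6) {u : GT} (hu : (u : GK) ∈ Sys.US SS {r | r ∈ rts i}) :
    ∃ t, u = elT hq hK i t := by
  have hR := (rulesD4 K).root.choose_spec
  have hU : (u : GK) ∈ Sys.Ubar SS ⊓ twistedD4 K q := by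
    refine Subgroup.mem_inf.2 ⟨(SS).US_mono (fun r (hr : r ∈ rts i) => ?_) hu, u.2⟩
    exact (enumLL.2 r).1 (dataLL.2.2.1 i r hr)
  obtain ⟨a, ha, e⟩ := exists_coefF hq hK hU
  refine ⟨⟨a i, ha i⟩, Subtype.ext ?_⟩
  have hz : a = Pi.single i (a i) := by
    funext j
    by_cases h : j = i
    · subst h; simp
    · rw [Pi.single_eq_of_ne h]
      exact coefF_supp hq hK (closedRts (K := K) i) (fun r hr => dataLL.2.2.1 i r hr) (e ▸ hu) j
        fun hj => h (dataLL.2.2.2.2.2.2 j i hj)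
  show (u : GK) = elK hq hK i (a i)
  rw [elK_single, ← hz, e]

/-- The subgroup from an index on. -/
noncomputable def MT (k : ℕ) : Subgroup GT :=
  Subgroup.closure {x | ∃ i : Fin 6, k ≤ (i : ℕ) ∧ ∃ c, x = elT hq hK i c}

theorem mem_MT_iff {k : ℕ} (hk : k < 7) (u : GT) : u ∈ MT hq hK k ↔ (u : GK) ∈ Sys.US SS {r | r ∈ suf k} := by
  constructor
  · intro hu
    suffices h : MT hq hK k ≤ (Sys.US SS {r | r ∈ suf k}).comap (twistedD4 K q).subtype from h hu
    rw [MT, Subgroup.closure_le]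
    rintro _ ⟨i, hi, c, rfl⟩
    refine (SS).US_mono ?_ (elK_US hq hK i c)
    intro r hr
    have : ∀ k < 7, ∀ i : Fin 6, k ≤ (i : ℕ) → ∀ r ∈ rts i, r ∈ suf k := by decide +kernel
    exact this k hk i hi r hr
  · intro hu
    have hU : (u : GK) ∈ Sys.Ubar SS ⊓ twistedD4 K q :=
      Subgroup.mem_inf.2 ⟨(SS).US_mono (fun r (hr : r ∈ suf k) => (enumLL.2 r).1 (dataClosed.2.2 k hk r hr)) hu, u.2⟩
    obtain ⟨a, ha, e⟩ := exists_coefF hq hK hU
    have hmem : ∀ i, elT hq hK i ⟨a i, ha i⟩ ∈ MT hq hK k := fun i => by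
      by_cases hi : k ≤ (i : ℕ)
      · exact Subgroup.subset_closure ⟨i, hi, _, rfl⟩
      · have hz : a i = 0 := coefF_supp hq hK (closedSuf (K := K) k hk) (dataClosed.2.2 k hk) (e ▸ hu) i fun h =>
          hi (by
            have : ∀ k < 7, ∀ i : Fin 6, hd i ∈ suf k → k ≤ (i : ℕ) := by decide +kernel
            exact this k hk i h)
        have : elT hq hK i ⟨a i, ha i⟩ = 1 := Subtype.ext (by show elK hq hK i (a i) = 1; rw [hz, elK_zero])
        rw [this]; exact one_mem _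
    have : u = elT hq hK 0 ⟨a 0, ha 0⟩ * elT hq hK 1 ⟨a 1, ha 1⟩ * elT hq hK 2 ⟨a 2, ha 2⟩ *
        elT hq hK 3 ⟨a 3, ha 3⟩ * elT hq hK 4 ⟨a 4, ha 4⟩ * elT hq hK 5 ⟨a 5, ha 5⟩ :=
      Subtype.ext (e.trans (prod_eq hq hK a).symm)
    rw [this]
    exact mul_mem (mul_mem (mul_mem (mul_mem (mul_mem (hmem 0) (hmem 1)) (hmem 2)) (hmem 3)) (hmem 4)) (hmem 5)

theorem MT_eq (j : Fin 6) : MT hq hK ((j : ℕ) + 1) =
    Subgroup.closure {x | ∃ k : Fin 6, (j : ℕ) < (k : ℕ) ∧ ∃ c, x = elT hq hK k c} := rfl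

theorem elT_indep (i : Fin 6) (a : ↥(Af hq hK i)) (h : elT hq hK i a ∈ MT hq hK ((i : ℕ) + 1)) : a = 0 := by
  have h1 := (mem_MT_iff hq hK (by omega) _).1 h
  rw [show ((elT hq hK i a : GT) : GK) = elK hq hK i a from rfl, elK_single] at h1
  have := coefF_supp hq hK (closedSuf (K := K) _ (by omega)) (dataClosed.2.2 _ (by omega)) h1 i
    fun hi => by
      have : ∀ i : Fin 6, hd i ∉ suf ((i : ℕ) + 1) := by decide +kernel
      exact this i hi
  exact Subtype.ext (by simpa using this)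

theorem elT_comm (i j : Fin 6) (hij : i < j) (a : ↥(Af hq hK i)) (b : ↥(Af hq hK j)) :
    ⁅elT hq hK i a, elT hq hK j b⁆ ∈ MT hq hK ((j : ℕ) + 1) := by
  have hR := (rulesD4 K).root.choose_spec
  rw [mem_MT_iff hq hK (by omega)]
  show ⁅elK hq hK i a, elK hq hK j b⁆ ∈ _
  set N := Sys.US SS {r | r ∈ suf ((j : ℕ) + 1)}
  have hnorm : Sys.Ubar SS ≤ Subgroup.normalizer (N : Set GK) :=
    (SS).mem_normalizer_of_ideal hR hR.posSet_closed
      (fun r hr => (enumLL.2 r).1 (dataClosed.2.2 _ (by omega) r hr))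
      fun r hr s hs hne c hc => dataClosed.1 _ (by omega) r ((enumLL.2 r).2 hr) s hs hne c hc
  have hxU : ∀ l, ∀ r ∈ rts l, ∀ t : K, X K r t ∈ Sys.Ubar SS := fun l r hr t =>
    (SS).x_mem_US ((enumLL.2 r).1 (dataLL.2.2.1 l r hr)) t
  have base : ∀ r ∈ rts i, ∀ s ∈ rts j, ∀ t u : K, ⁅X K r t, X K s u⁆ ∈ N := by
    intro r hr s hs t u
    obtain ⟨h1, h2, h3⟩ := dataComm i j hij r hr s hs
    have hlt : ∀ l, ∀ r ∈ rts l, r < chevD4.nroots := by decide +kernel
    have e := (SS).comm r (hlt i r hr) s (hlt j s hs) h1 h2 t u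
    set w := ((chevD4.commWord K r s t u).map fun p => X K p.1 p.2).prod
    have hw : w ∈ N := (SS).word_mem fun p hp => by
      simp only [ChevalleyDatum.commWord, List.mem_map] at hp
      obtain ⟨c, hc, rfl⟩ := hp
      exact h3 c hc
    rw [← commutatorElement_inv]
    refine inv_mem ?_
    rw [commutatorElement_def, e]
    have := (Subgroup.mem_normalizer_iff.1 (mul_mem (hnorm (hxU i r hr t)) (hnorm (hxU j s hs u))) _).1 hw
    convert this using 1
    group
  have hX : ∀ l, ∀ c : K, elK hq hK l c ∈ Subgroup.closure {g | ∃ r ∈ rts l, ∃ t : K, g = X K r t} := fun l c =>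
    (elK_US hq hK l c)
  refine RootLift.comm_closure (Y := {g | g ∈ Subgroup.closure {g | ∃ r ∈ rts j, ∃ t : K, g = X K r t}})
    ?_ ?_ (hX i a) (hX j b)
  · rintro _ ⟨r, hr, t, rfl⟩; exact hnorm (hxU i r hr t)
  · rintro _ ⟨r, hr, t, rfl⟩ y hy
    rw [← commutatorElement_inv]
    refine inv_mem (RootLift.comm_closure (Y := {X K r t}) ?_ ?_ hy rfl)
    · rintro _ ⟨s, hs, u, rfl⟩; exact hnorm (hxU j s hs u)
    · rintro _ ⟨s, hs, u, rfl⟩ _ rfl
      rw [← commutatorElement_inv]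
      exact inv_mem (base r hr s hs t u)

/-- The torus parameters. -/
abbrev Tor := (↥(Fx σ))ˣ × Kˣ

/-- The parameters of a torus element in the simple coroots. -/
noncomputable def torC (τ : Tor hq hK) : Fin chevD4.rank → Kˣ :=
  mkD4 τ.2 (Units.map (Fx σ).subtype.toMonoidHom τ.1) (τ.2 ^ q) ((τ.2 ^ q) ^ q)

/-- The torus element. -/
noncomputable def torT (τ : Tor hq hK) : GT := phiT hq hK (dg τ.1) * psiT hq hK (dg τ.2)

theorem torT_val (τ : Tor hq hK) : (torT hq hK τ : GK) = tauD (torC hq hK τ) := dg_prod hq hK τ.1 τ.2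

theorem torT_comm (τ τ' : Tor hq hK) : Commute (torT hq hK τ) (torT hq hK τ') := by
  refine Subtype.ext ?_
  show (torT hq hK τ : GK) * torT hq hK τ' = (torT hq hK τ' : GK) * torT hq hK τ
  rw [torT_val, torT_val, ← map_mul, ← map_mul, mul_comm]

/-- The weights. -/
noncomputable def wt (τ : Tor hq hK) (i : Fin 6) : K :=
  ((∏ j : Fin chevD4.rank, torC hq hK τ j ^ chevD4.cartan j (hd i) : Kˣ) : K)

theorem wt_ne_zero (τ : Tor hq hK) (i : Fin 6) : wt hq hK τ i ≠ 0 := Units.ne_zero _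

theorem conj_P (τ : Tor hq hK) (L : List ℕ) (hL : ∀ r ∈ L, r < chevD4.nroots) (t : ℕ → K) :
    tauD (torC hq hK τ) * Sys.P SS L t * (tauD (torC hq hK τ))⁻¹ =
      Sys.P SS L (fun r => ((∏ j : Fin chevD4.rank, torC hq hK τ j ^ chevD4.cartan j r : Kˣ) : K) * t r) := by
  induction L with
  | nil => simp [Sys.P]
  | cons r L ih =>
    rw [Sys.P_cons, Sys.P_cons, ← ih fun a h => hL a (List.mem_cons_of_mem _ h),
      ← tau_conj (rulesD4 K) (rulesD4 K).root.choose_spec (glSys_HMul (rulesD4 K) (rulesD4 K).root.choose_spec)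
        _ (hL r List.mem_cons_self)]
    simp only [tauD, mul_assoc, inv_mul_cancel_left]

theorem tor_conj (τ : Tor hq hK) (i : Fin 6) (a : ↥(Af hq hK i)) :
    ∃ h : wt hq hK τ i * a ∈ Af hq hK i,
      torT hq hK τ * elT hq hK i a * (torT hq hK τ)⁻¹ = elT hq hK i ⟨_, h⟩ := by
  have hR := (rulesD4 K).root.choose_spec
  set u := torT hq hK τ * elT hq hK i a * (torT hq hK τ)⁻¹
  have hu : (u : GK) ∈ Sys.US SS {r | r ∈ rts i} := by
    show (torT hq hK τ : GK) * elK hq hK i a * (torT hq hK τ : GK)⁻¹ ∈ _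
    rw [torT_val]
    exact (Subgroup.mem_normalizer_iff.1 ((SS).Hbar_le_normalizer_US (rulesD4 K) hR
      (fun r hr => (enumLL.2 r).1 (dataLL.2.2.1 i r hr) |>.1) (tauD_mem _)) _).1 (elK_US hq hK i a)
  obtain ⟨b, hb⟩ := eq_elT_of_US hq hK i hu
  have e := congrArg (Subtype.val : GT → GK) hb
  change (torT hq hK τ : GK) * elK hq hK i a * (torT hq hK τ : GK)⁻¹ = elK hq hK i b at e
  rw [torT_val, elK_single, elK_single, conj_P _ _ _ _ (fun r hr => ((enumLL.2 r).1 hr).1)] at e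
  have hc := (SS).coef_unique hR hR.posSet_closed enumLL (congrArg _ e) (hd i)
    ((enumLL.2 _).1 (dataLL.2.2.1 i _ (dataLL.2.2.2.1 i)))
  rw [coefF_hd, coefF_hd, Pi.single_eq_same, Pi.single_eq_same] at hc
  have hc' : wt hq hK τ i * a = b := hc
  exact ⟨hc' ▸ b.2, hb.trans (congrArg _ (Subtype.ext hc'.symm))⟩

theorem wt_mem (τ : Tor hq hK) (i : Fin 6) : wt hq hK τ i ∈ Af hq hK i := by
  obtain ⟨h, -⟩ := tor_conj hq hK τ i 1
  simpa using h

/-- The action of the torus on the parameters. -/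
noncomputable def act (τ : Tor hq hK) (i : Fin 6) : ↥(Af hq hK i) →+ ↥(Af hq hK i) :=
  AddMonoidHom.mulLeft ⟨wt hq hK τ i, wt_mem hq hK τ i⟩

theorem tor_conj' (τ : Tor hq hK) (i : Fin 6) (a : ↥(Af hq hK i)) :
    torT hq hK τ * elT hq hK i a * (torT hq hK τ)⁻¹ = elT hq hK i (act hq hK τ i a) := by
  obtain ⟨h, e⟩ := tor_conj hq hK τ i a
  exact e

theorem wt_values (τ : Tor hq hK) (v u : K) (hv : v = (τ.2 : K)) (hu : u = ((τ.1 : ↥(Fx σ)) : K)) :
    wt hq hK τ 0 = v ^ 2 * u⁻¹ ∧ wt hq hK τ 1 = v⁻¹ * u ^ 2 * (σ v)⁻¹ * (σ (σ v))⁻¹ ∧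
    wt hq hK τ 2 = v * u * (σ v)⁻¹ * (σ (σ v))⁻¹ ∧ wt hq hK τ 3 = v * (σ v)⁻¹ * σ (σ v) ∧
    wt hq hK τ 4 = v * u⁻¹ * σ v * σ (σ v) ∧ wt hq hK τ 5 = u := by
  subst hv hu
  have e : ∀ i : Fin 6, wt hq hK τ i = ((∏ j : Fin 4, torC hq hK τ j ^ chevD4.cartan j.val (hd i) : Kˣ) : K) :=
    fun i => rfl
  simp only [e, dataCartan, Fin.prod_univ_four, Fin.val_zero, Fin.val_one, Fin.val_two,
    show ((3 : Fin 4) : ℕ) = 3 from rfl, List.getD_cons_zero, List.getD_cons_succ, Matrix.cons_val_zero,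
    Matrix.cons_val_one, Matrix.cons_val, zpow_zero, zpow_one, zpow_neg_one, mul_one, one_mul, zpow_ofNat,
    torC, mkD4, Units.val_mul, Units.val_inv_eq_inv_val, Units.val_pow_eq_pow_val, Units.coe_map,
    MonoidHom.coe_coe, RingHom.toMonoidHom_eq_coe, Subfield.coe_subtype, frobD4_apply, and_self]
  simp only [pow_zero, pow_one, mul_one, one_mul, and_self]

end Cfsg.Agent.CentralExt.D4M
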