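import Cfsg.Agent.CentralExt.D4Layers

/-!
# Lifts of the root groups of ³D₄(q) to central extensions: the long and short groups
-/

set_option autoImplicit false
set_option linter.unusedSectionVars false

namespace Cfsg.Agent.CentralExt.D4M

open Cfsg.Lie Cfsg.Agent.ChevGrp Cfsg.Agent.ChevTw Cfsg.Agent.CTits Cfsg.Agent.D4Deg
open Cfsg.Agent.CentralExt.BNLift
open scoped MatrixGroups commutatorElement

variable {K : Type*} [Field K] [Fintype K] {q : ℕ} (hq : IsPrimePow q) (hK : Fintype.card K = q ^ 3)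

local notation "σ" => frobD4 hq hK
local notation "GK" => GL chevD4.Idx K
set_option quotPrecheck false
local notation "GT" => ↥(twistedD4 K q)
local notation "SS" => glSys (rulesD4 K)

include hq hK in
theorem sig_pow3 (x : K) : σ (σ (σ x)) = x := sig3 hq hK x

include hq hK in
theorem units_sq {v : Kˣ} {m : ℕ} (hm : Odd m) (h : v ^ m = 1) (h2 : v ^ 2 = 1) : v = 1 := by
  have h3 : v ^ Nat.gcd 2 m = 1 := pow_gcd_eq_one.2 ⟨h2, h⟩
  rwa [(Nat.coprime_two_left.2 hm).gcd_eq_one, pow_one] at h3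

theorem nrm_units (v : Kˣ) : nrm σ (v : K) = (v : K) * σ (v : K) * σ (σ (v : K)) := rfl

/-- An element of norm one separating long and short roots. -/
theorem exists_norm_one_tor :
    ∃ τ : Tor hq hK, ∀ i, (isLong i = true → wt hq hK τ i = 1) ∧ (isLong i = false → wt hq hK τ i ≠ 1) := by
  have hcard := card_norm_one hq.one_lt hK (frobD4_apply hq hK)
  obtain ⟨⟨v, hv⟩, hne⟩ : ∃ v : {v : Kˣ // v ^ (q ^ 2 + q + 1) = 1}, v ≠ ⟨1, one_pow _⟩ := by
    have : Nontrivial {v : Kˣ // v ^ (q ^ 2 + q + 1) = 1} :=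
      Finite.one_lt_card_iff_nontrivial.1 (by rw [hcard]; nlinarith [hq.one_lt])
    exact exists_ne _
  replace hne : v ≠ 1 := fun e => hne (Subtype.ext e)
  have hodd : Odd (q ^ 2 + q + 1) := by
    have : q ^ 2 + q + 1 = q * (q + 1) + 1 := by ring
    rw [this]
    exact (Nat.even_mul_succ_self q).add_one
  have hN : (v : K) * σ (v : K) * σ (σ (v : K)) = 1 := by
    rw [← nrm_units, nrm_eq_pow hq.one_lt hK (frobD4_apply hq hK), ← Units.val_pow_eq_pow_val, hv, Units.val_one]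
  obtain ⟨e0, e1, e2, e3, e4, e5⟩ := wt_values hq hK (1, v) v 1 rfl (by simp)
  have hv2 : (v : K) ^ 2 ≠ 1 := fun h => hne (units_sq hq hK hodd hv (Units.ext (by simpa using h)))
  have hv0 : (v : K) ≠ 0 := v.ne_zero
  have hs0 : σ (v : K) ≠ 0 := (map_ne_zero _).2 hv0
  have hs20 : σ (σ (v : K)) ≠ 0 := (map_ne_zero _).2 hs0
  have a0 : wt hq hK (1, v) 0 = (v : K) ^ 2 := by rw [e0]; simp
  have a1 : wt hq hK (1, v) 1 = 1 := by
    rw [e1]; field_simp; linear_combination -hN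
  have a2 : wt hq hK (1, v) 2 = (v : K) ^ 2 := by
    rw [e2]; field_simp; linear_combination -hN
  have a3 : wt hq hK (1, v) 3 = (σ (v : K) ^ 2)⁻¹ := by
    rw [e3]; field_simp; linear_combination hN
  have a4 : wt hq hK (1, v) 4 = 1 := by
    rw [e4, inv_one, mul_one]; exact hN
  have a5 : wt hq hK (1, v) 5 = 1 := e5
  refine ⟨(1, v), fun i => ⟨fun hi => ?_, fun hi => ?_⟩⟩
  · fin_cases i
    all_goals first | exact absurd hi (by decide) | exact a1 | exact a4 | exact a5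
  · fin_cases i
    · exact a0.trans_ne hv2
    · exact absurd hi (by decide)
    · exact a2.trans_ne hv2
    · refine a3.trans_ne fun h => ?_
      rw [inv_eq_one] at h
      exact hv2 ((σ).injective (by rw [map_pow, h, map_one]))
    · exact absurd hi (by decide)
    · exact absurd hi (by decide)

include hq hK in
theorem exists_fx_ne (h3 : 3 ≤ q) : ∃ n : (↥(Fx σ))ˣ, n ≠ 1 := by
  have hFx : Nat.card ↥(Fx σ) = q := D4Deg.card_Fx hq.one_lt hK (frobD4_apply hq hK)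
  have : Nontrivial (↥(Fx σ))ˣ := Finite.one_lt_card_iff_nontrivial.1 (by rw [Nat.card_units, hFx]; omega)
  exact exists_ne _

/-- Torus elements separating two long roots or two short roots, `q > 2`. -/
theorem exists_sep_tor (h3 : 3 ≤ q) :
    (∃ τ : Tor hq hK, wt hq hK τ 4 = 1 ∧ wt hq hK τ 1 ≠ 1 ∧ wt hq hK τ 5 ≠ 1) ∧
    (∃ τ : Tor hq hK, wt hq hK τ 5 = 1 ∧ wt hq hK τ 1 ≠ 1 ∧ wt hq hK τ 4 ≠ 1) ∧
    (∃ τ : Tor hq hK, wt hq hK τ 0 = 1 ∧ wt hq hK τ 2 ≠ 1) ∧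
    (∃ τ : Tor hq hK, wt hq hK τ 3 = 1 ∧ wt hq hK τ 0 ≠ 1 ∧ wt hq hK τ 2 ≠ 1) := by
  obtain ⟨n, hn⟩ := exists_fx_ne hq hK h3
  have hn' : ((n : ↥(Fx σ)) : K) ≠ 1 := fun h => hn (Units.ext (Subtype.ext h))
  have hn0 : ((n : ↥(Fx σ)) : K) ≠ 0 := fun h => n.ne_zero (Subtype.ext h)
  have hσn : σ ((n : ↥(Fx σ)) : K) = ((n : ↥(Fx σ)) : K) := fx_apply _
  obtain ⟨v, hv0, hv⟩ := exists_nrm hq.one_lt hK (frobD4_apply hq hK) hσn hn0
  have hs0 : σ v ≠ 0 := (map_ne_zero _).2 hv0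
  have hs20 : σ (σ v) ≠ 0 := (map_ne_zero _).2 hs0
  simp only [nrm] at hv
  have hinv : ((n : ↥(Fx σ)) : K)⁻¹ ≠ 1 := fun h => hn' (inv_eq_one.1 h)
  refine ⟨⟨(n, Units.mk0 v hv0), ?_⟩, ⟨(1, Units.mk0 v hv0), ?_⟩,
    ⟨(n ^ 2, Units.mk0 _ hn0), ?_⟩, ⟨(n, 1), ?_⟩⟩
  · obtain ⟨-, e1, -, -, e4, e5⟩ := wt_values hq hK (n, Units.mk0 v hv0) v _ rfl rfl
    refine ⟨?_, ?_, e5.trans_ne hn'⟩
    · rw [e4, ← hv]; field_simp
    · rw [e1]
      refine ne_of_eq_of_ne (?_ : _ = ((n : ↥(Fx σ)) : K)) hn'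
      rw [← hv]; field_simp
  · obtain ⟨-, e1, -, -, e4, e5⟩ := wt_values hq hK (1, Units.mk0 v hv0) v 1 rfl (by simp)
    refine ⟨e5, ?_, ?_⟩
    · rw [e1]
      refine ne_of_eq_of_ne (?_ : _ = ((n : ↥(Fx σ)) : K)⁻¹) hinv
      rw [← hv]; field_simp
    · rw [e4]
      refine ne_of_eq_of_ne (?_ : _ = ((n : ↥(Fx σ)) : K)) hn'
      rw [← hv]; simp
  · obtain ⟨e0, -, e2, -, -, -⟩ := wt_values hq hK (n ^ 2, Units.mk0 _ hn0) ((n : ↥(Fx σ)) : K)
      (((n : ↥(Fx σ)) : K) ^ 2) rfl (by simp)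
    refine ⟨?_, ?_⟩
    · rw [e0]; field_simp
    · rw [e2, hσn, hσn]
      refine ne_of_eq_of_ne (?_ : _ = ((n : ↥(Fx σ)) : K)) hn'
      field_simp
  · obtain ⟨e0, -, e2, e3, -, -⟩ := wt_values hq hK (n, (1 : Kˣ)) 1 _ (by simp) rfl
    refine ⟨?_, ?_, ?_⟩
    · rw [e3]; simp
    · rw [e0]; simpa using hinv
    · rw [e2]; simpa using hn'

theorem short_scalar (w : K) (hw : w ≠ 0) : ∃ τ : Tor hq hK, wt hq hK τ 3 = w := by
  let F : Kˣ →* Kˣ := MonoidHom.mk' (fun v => v * (v ^ q)⁻¹ * (v ^ q) ^ q) fun a b => by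
    simp only [mul_pow, mul_inv]; ac_rfl
  have hinj : Function.Injective F := (injective_iff_map_eq_one F).2 fun v hv => by
    have h1 : v * (v ^ q) ^ q = v ^ q := by
      have := congrArg (· * v ^ q) (show v * (v ^ q)⁻¹ * (v ^ q) ^ q = 1 from hv)
      simpa [mul_comm, mul_left_comm, mul_assoc] using this
    have h2 : v ^ q * v = (v ^ q) ^ q := by
      have := congrArg (· ^ q) h1
      simpa [mul_pow, units_pow_cube hK] using this
    have h3 : v ^ 2 = 1 := by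
      rw [← h2] at h1
      have : v ^ 2 * v ^ q = 1 * v ^ q := by rw [one_mul, pow_two]; convert h1 using 1; ac_rfl
      exact mul_right_cancel this
    have h4 : v ^ q = v := sign_pow hq hK h3
    rw [h4, h4] at h1
    exact (mul_eq_left.1 h1)
  obtain ⟨v, hv⟩ := (Finite.injective_iff_surjective.1 hinj) (Units.mk0 w hw)
  refine ⟨(1, v), ?_⟩
  obtain ⟨-, -, -, e3, -, -⟩ := wt_values hq hK (1, v) v 1 rfl (by simp)
  rw [e3, frobD4_apply, frobD4_apply]
  simpa [F] using congrArg Units.val hv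

include hq hK in
theorem exists_d : ∃ d : K, d ≠ 0 ∧ d + 1 ≠ 0 ∧ d ^ 2 + d + 1 ≠ 0 := by
  classical
  let P : Polynomial K := (Polynomial.X + 1) * Polynomial.X * (Polynomial.X ^ 2 + Polynomial.X + 1)
  by_contra hall
  push Not at hall
  have hne : P ≠ 0 := by
    refine mul_ne_zero (mul_ne_zero ?_ Polynomial.X_ne_zero) ?_
    · exact fun h => by simpa [Polynomial.coeff_one] using congrArg (Polynomial.coeff · 1) h
    · exact fun h => by simpa [Polynomial.coeff_X, Polynomial.coeff_one] using congrArg (Polynomial.coeff · 2) h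
  have hroots : ∀ d : K, d ∈ P.roots := fun d => by
    rw [Polynomial.mem_roots hne]
    simp only [P, Polynomial.IsRoot, Polynomial.eval_mul, Polynomial.eval_add, Polynomial.eval_pow, Polynomial.eval_X,
      Polynomial.eval_one, mul_eq_zero]
    by_cases h0 : d = 0
    · exact Or.inl (Or.inr h0)
    by_cases h1 : d + 1 = 0
    · exact Or.inl (Or.inl h1)
    exact Or.inr (hall d h0 h1)
  have h1 : Fintype.card K ≤ P.roots.toFinset.card := by
    rw [← Finset.card_univ]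
    exact Finset.card_le_card fun d _ => Multiset.mem_toFinset.2 (hroots d)
  have h2 := (Multiset.toFinset_card_le P.roots).trans (Polynomial.card_roots' P)
  have h3 : P.natDegree ≤ 4 := by
    simp only [P]
    compute_degree
  have : 8 ≤ Fintype.card K := by rw [hK]; exact Nat.pow_le_pow_left hq.one_lt 3
  omega

/-- Conjugation carrying one root group onto another. -/
theorem conj_range {g : GT} {w : List (Fin chevD4.rank)} (hc : Sys.ConjP SS (g : GK) w) {i j : Fin 6}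
    (h : ∀ r ∈ rts j, ChevGrp.act chevD4 w.reverse r ∈ rts i) :
    ∀ u ∈ Set.range (elT hq hK j), ∃ x ∈ Set.range (elT hq hK i), g * x * g⁻¹ = u := by
  rintro _ ⟨t, rfl⟩
  have hR := (rulesD4 K).root.choose_spec
  have hlt : ∀ r ∈ rts j, r < chevD4.nroots := fun r hr => ((enumLL.2 r).1 (dataLL.2.2.1 j r hr)).1
  have hu : ((g⁻¹ * elT hq hK j t * g : GT) : GK) ∈ Sys.US SS {r | r ∈ rts i} := by
    have := conjP_mem_US (hc.inv hR) hlt (elK_US hq hK j t)
    rw [inv_inv] at this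
    exact (SS).US_mono (by rintro _ ⟨r, hr, rfl⟩; exact h r hr) this
  obtain ⟨b, hb⟩ := eq_elT_of_US hq hK i hu
  exact ⟨_, ⟨b, rfl⟩, by rw [← hb]; group⟩

theorem dataWeyl : (∀ r ∈ rts 4, ChevGrp.act chevD4 (twD4.wJ chevD4 J0).reverse r ∈ rts 5) ∧
    (∀ r ∈ rts 1, ChevGrp.act chevD4 (twD4.wJ chevD4 J1).reverse r ∈ rts 4) ∧
    (∀ r ∈ rts 2, ChevGrp.act chevD4 (twD4.wJ chevD4 J1).reverse r ∈ rts 3) ∧
    (∀ r ∈ rts 0, ChevGrp.act chevD4 (twD4.wJ chevD4 J0).reverse r ∈ rts 2) ∧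
    (∀ r ∈ rts 5, ChevGrp.act chevD4 (twD4.wJ chevD4 J1).reverse r ∈ rts 5) := by decide +kernel

theorem conjP_phiT : Sys.ConjP SS ((phiT hq hK (wm 1) : GT) : GK) (twD4.wJ chevD4 J0) :=
  (orbHom_phi hq hK).wm_conjP.1

theorem conjP_psiT : Sys.ConjP SS ((psiT hq hK (wm 1) : GT) : GK) (twD4.wJ chevD4 J1) :=
  (orbHom_psi hq hK).wm_conjP.1

theorem dataB : chevD4.commTerms 14 22 = [(23, 1, 1, 1)] ∧
    (22 ≠ 14 ∧ 22 ≠ chevD4.neg 14) ∧ (14 < chevD4.nroots ∧ 22 < chevD4.nroots) ∧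
    (∀ r ∈ [14, 22], 23 ≠ r ∧ 23 ≠ chevD4.neg r ∧ chevD4.commTerms r 23 = [] ∧ r < chevD4.nroots ∧
      23 < chevD4.nroots) := by decide +kernel

/-- The commutator of the two long root groups. -/
theorem comm_long (a : ↥(Af hq hK 1)) (b : ↥(Af hq hK 4)) (c : ↥(Af hq hK 5)) (h : (c : K) = a * b) :
    ⁅elT hq hK 1 a, elT hq hK 4 b⁆ = elT hq hK 5 c := by
  refine Subtype.ext ?_
  show ⁅X K 14 (a : K), X K 22 (b : K)⁆ = X K 23 (c : K)
  obtain ⟨e0, ⟨h1, h2⟩, ⟨h3, h4⟩, hc⟩ := dataB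
  have e := (SS).comm 14 h3 22 h4 h1 h2 (a : K) (b : K)
  simp only [ChevalleyDatum.commWord, e0, List.map_cons, List.map_nil, List.prod_cons, List.prod_nil, mul_one,
    pow_one, Int.cast_one, one_mul] at e
  have hcm : ∀ r ∈ [14, 22], ∀ x y : K, Commute (X K r x) (X K 23 y) := fun r hr x y =>
    x_commute SS (hc r hr).2.2.2.1 (hc r hr).2.2.2.2 (hc r hr).1 (hc r hr).2.1 (hc r hr).2.2.1 x y
  have hneg : (SS).x 23 (-(a : K) * b) = (X K 23 ((a : K) * b))⁻¹ := by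
    rw [(SS).x_inv (hc 14 (by simp)).2.2.2.2, neg_mul]
  rw [hneg] at e
  rw [h, commutatorElement_def]
  have e2 : X K 14 (a : K) * X K 22 (b : K) = X K 22 (b : K) * X K 14 (a : K) * X K 23 ((a : K) * b) := by
    rw [e, inv_mul_cancel_right]
  rw [e2, show X K 22 (b : K) * X K 14 (a : K) * X K 23 ((a : K) * b) * (X K 14 (a : K))⁻¹ * (X K 22 (b : K))⁻¹ =
    X K 22 (b : K) * (X K 14 (a : K) * X K 23 ((a : K) * b)) * (X K 14 (a : K))⁻¹ * (X K 22 (b : K))⁻¹ by group,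
    ((hcm 14 (by simp)) _ _).eq]
  calc _ = X K 22 (b : K) * X K 23 ((a : K) * b) * (X K 22 (b : K))⁻¹ := by group
    _ = _ := by rw [((hcm 22 (by simp)) _ _).eq, mul_inv_cancel_right]

theorem MT_six : MT hq hK 6 = ⊥ := by
  rw [MT, Subgroup.closure_eq_bot_iff]
  rintro _ ⟨i, hi, -⟩
  omega

theorem commute_five (i : Fin 6) (a : ↥(Af hq hK i)) (c : ↥(Af hq hK 5)) :
    Commute (elT hq hK i a) (elT hq hK 5 c) := by
  rcases eq_or_ne i 5 with rfl | hi
  · show elT hq hK 5 a * elT hq hK 5 c = elT hq hK 5 c * elT hq hK 5 a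
    rw [← elT_add, ← elT_add, add_comm]
  · have h := elT_comm hq hK i 5 (by omega) a c
    rw [show ((5 : Fin 6) : ℕ) + 1 = 6 from rfl, MT_six, Subgroup.mem_bot,
      commutatorElement_eq_one_iff_mul_comm] at h
    exact h

end Cfsg.Agent.CentralExt.D4M
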