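import Cfsg.Agent.CentralExt.D4PLifts
import Cfsg.Agent.ChevTwOrd.D4

/-!
# ³D₄(q): a central extension by a group of characteristic order inside the commutator group is trivial
-/

set_option autoImplicit false
set_option linter.unusedSectionVars false

namespace Cfsg.Agent.CentralExt.D4M

open Cfsg.Lie Cfsg.Agent.ChevGrp Cfsg.Agent.ChevTw Cfsg.Agent.CTits Cfsg.Agent.D4Deg
open Cfsg.Agent.CentralExt.BNLift
open scoped MatrixGroups commutatorElement

variable {K : Type*} [Field K] [Fintype K] {q : ℕ} (hq : IsPrimePow q) (hK : Fintype.card K = q ^ 3)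

local notation "σ" => frobD4 hq hK
local notation "GK" => GL chevD4.Idx K
set_option quotPrecheck false
local notation "GT" => ↥(twistedD4 K q)
local notation "SS" => glSys (rulesD4 K)

variable {E : Type*} [Group E] [Finite E] {s : E →* ↥(twistedD4 K q)}

set_option synthInstance.maxSize 2000 in
theorem dataShort : ∀ i j : Fin 6, i < j → isLong i = false → isLong j = false →
    (i = 0 ∧ j = 2) ∨ (i = 0 ∧ j = 3) ∨ (i = 2 ∧ j = 3) := by decide +kernel

set_option synthInstance.maxSize 2000 in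
theorem dataLong : ∀ i j : Fin 6, i < j → isLong i = true → isLong j = true →
    (i = 1 ∧ j = 4) ∨ (i = 1 ∧ j = 5) ∨ (i = 4 ∧ j = 5) := by decide +kernel

/-- Lifts of an orbit group. -/
def LiftOf (s : E →* GT) (i : Fin 6) (x : E) : Prop := ∃ a, s x = elT hq hK i a

theorem exists_move {τ : Tor hq hK} {i : Fin 6} (h : wt hq hK τ i ≠ 1) :
    Function.Bijective fun a => D4M.act hq hK τ i a - a := by
  refine Finite.injective_iff_bijective.1 fun a b e => ?_
  have e' : wt hq hK τ i * (a : K) - a = wt hq hK τ i * (b : K) - b := congrArg Subtype.val e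
  refine Subtype.ext (mul_left_cancel₀ (sub_ne_zero.2 h) ?_)
  linear_combination e'

theorem act_one {τ : Tor hq hK} {i : Fin 6} (h : wt hq hK τ i = 1) (a : ↥(Af hq hK i)) :
    D4M.act hq hK τ i a = a := Subtype.ext (by show wt hq hK τ i * (a : K) = a; rw [h, one_mul])

variable (hc : s.ker ≤ Subgroup.center E) (hs : Function.Surjective s)

include hq hK hc hs in
theorem commute_fix_move {i j : Fin 6} (τ : Tor hq hK) (hi : wt hq hK τ i = 1) (hj : wt hq hK τ j ≠ 1)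
    (hcomm : ∀ a b, Commute (elT hq hK i a) (elT hq hK j b)) {z x : E} (hz : LiftOf hq hK s i z)
    (hx : LiftOf hq hK s j x) : Commute z x := by
  obtain ⟨a, ha⟩ := hz
  obtain ⟨b, hb⟩ := hx
  obtain ⟨t, ht'⟩ := hs (torT hq hK τ)
  obtain ⟨c, hc'⟩ := (exists_move hq hK hj).2 b
  obtain ⟨y, hy⟩ := hs (elT hq hK j c)
  refine RootLift.commute_of_fix_move hc (t := t) (y := y) ?_ ?_ (by rw [ha, hy]; exact hcomm a c)
  · rw [ht', ha, commute_iff_eq, ← mul_inv_eq_iff_eq_mul, tor_conj', act_one hq hK hi]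
  · rw [map_mul, map_mul, map_mul, map_inv, map_inv, ht', hy, tor_conj', hb, eq_mul_inv_iff_mul_eq, ← elT_add]
    exact congrArg _ (by rw [← hc']; first | exact sub_add_cancel _ _ | exact (sub_add_cancel _ _).symm)

include hq hK hc hs in
theorem abel_transport {i j : Fin 6} {g : GT} {w : List (Fin chevD4.rank)} (hg : Sys.ConjP SS (g : GK) w)
    (h : ∀ r ∈ rts j, ChevGrp.act chevD4 w.reverse r ∈ rts i)
    (hP : ∀ x y, LiftOf hq hK s i x → LiftOf hq hK s i y → Commute x y) {x y : E}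
    (hx : LiftOf hq hK s j x) (hy : LiftOf hq hK s j y) : Commute x y :=
  RootLift.commute_transport hc hs (g := g) (P := Set.range (elT hq hK i)) (Q := Set.range (elT hq hK j))
    (fun x y hx hy => hP x y (hx.imp fun _ h => h.symm) (hy.imp fun _ h => h.symm))
    (conj_range hq hK hg h) (hx.imp fun _ h => h.symm) (hy.imp fun _ h => h.symm)

include hq hK hc hs in
theorem abel_short {i : Fin 6} (hi : isLong i = false) {x y : E} (hx : LiftOf hq hK s i x)
    (hy : LiftOf hq hK s i y) : Commute x y := by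
  have h3 : ∀ x y, LiftOf hq hK s 3 x → LiftOf hq hK s 3 y → Commute x y := by
    intro x y hx hy
    have hmem : ∀ a : K, a ∈ Af hq hK 3 := fun a => by rw [Af_short hq hK (i := 3) rfl]; exact Subfield.mem_top a
    let el : Multiplicative K →* GT := MonoidHom.mk' (fun a => elT hq hK 3 ⟨a.toAdd, hmem _⟩)
      fun a b => (elT_add hq hK 3 ⟨a.toAdd, hmem _⟩ ⟨b.toAdd, hmem _⟩)
    obtain ⟨d, hd0, hd1, hd⟩ := exists_d hq hK
    obtain ⟨a, ha⟩ := hx
    obtain ⟨b, hb⟩ := hy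
    refine RootLift.self_commute hc hs el (fun w hw => ?_) hd0 hd1 hd (a : K) (b : K) ha hb
    obtain ⟨τ, hτ⟩ := short_scalar hq hK w hw
    refine ⟨torT hq hK τ, fun c => ?_⟩
    refine (tor_conj' hq hK τ 3 ⟨c, hmem _⟩).trans (congrArg _ (Subtype.ext ?_))
    show wt hq hK τ 3 * c = w * c
    rw [hτ]
  have h2 : ∀ x y, LiftOf hq hK s 2 x → LiftOf hq hK s 2 y → Commute x y := fun x y =>
    abel_transport hq hK hc hs (conjP_psiT hq hK) dataWeyl.2.2.1 h3
  fin_cases i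
  · exact abel_transport hq hK hc hs (conjP_phiT hq hK) dataWeyl.2.2.2.1 h2 hx hy
  · exact absurd hi (by decide)
  · exact h2 x y hx hy
  · exact h3 x y hx hy
  · exact absurd hi (by decide)
  · exact absurd hi (by decide)

include hq hK hc hs in
theorem abel_long_ge (h3 : 3 ≤ q) {i : Fin 6} (hi : isLong i = true) {x y : E} (hx : LiftOf hq hK s i x)
    (hy : LiftOf hq hK s i y) : Commute x y := by
  obtain ⟨-, ⟨τ, h5, h1, h4⟩, -, -⟩ := exists_sep_tor hq hK h3
  have hone : (1 : K) ∈ Af hq hK 4 := one_mem _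
  have hz : ∀ z z', LiftOf hq hK s 5 z → LiftOf hq hK s 5 z' → Commute z z' := by
    intro z z' hz ⟨c, hc'⟩
    have hcm : (c : K) ∈ Af hq hK 1 := by rw [Af_long hq hK (i := 1) rfl, ← Af_long hq hK (i := 5) rfl]; exact c.2
    obtain ⟨x, hx⟩ := hs (elT hq hK 1 ⟨c, hcm⟩)
    obtain ⟨y, hy⟩ := hs (elT hq hK 4 ⟨1, hone⟩)
    have e : s z' = s ⁅x, y⁆ := by
      rw [map_commutatorElement, hx, hy, comm_long hq hK _ _ c (by simp), hc']
    have cx : Commute z x := commute_fix_move hq hK hc hs τ h5 h1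
      (fun a b => (commute_five hq hK 1 b a).symm) hz ⟨_, hx⟩
    have cy : Commute z y := commute_fix_move hq hK hc hs τ h5 h4
      (fun a b => (commute_five hq hK 4 b a).symm) hz ⟨_, hy⟩
    obtain ⟨k, hk, -, rfl⟩ := RootLift.eq_central_mul hc e
    rw [commutatorElement_def]
    exact (((cx.mul_right cy).mul_right cx.inv_right).mul_right cy.inv_right).mul_right
      (Subgroup.mem_center_iff.1 hk z)
  have h4' : ∀ x y, LiftOf hq hK s 4 x → LiftOf hq hK s 4 y → Commute x y := fun x y =>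
    abel_transport hq hK hc hs (conjP_phiT hq hK) dataWeyl.1 hz
  fin_cases i
  · exact absurd hi (by decide)
  · exact abel_transport hq hK hc hs (conjP_psiT hq hK) dataWeyl.2.1 h4' hx hy
  · exact absurd hi (by decide)
  · exact absurd hi (by decide)
  · exact h4' x y hx hy
  · exact hz x y hx hy

/-- A lift of a root group compatible with the torus. -/
def RootL (s : E →* GT) (i : Fin 6) (L : ↥(Af hq hK i) → E) : Prop :=
  (∀ a b, L (a + b) = L a * L b) ∧ (∀ a, s (L a) = elT hq hK i a) ∧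
    ∀ τ (t : E), s t = torT hq hK τ → ∀ a, t * L a * t⁻¹ = L (D4M.act hq hK τ i a)

include hq hK hc hs in
theorem exists_L {i : Fin 6} (habel : ∀ x y, LiftOf hq hK s i x → LiftOf hq hK s i y → Commute x y)
    (τ : Tor hq hK) (hτ : wt hq hK τ i ≠ 1) : ∃ L, RootL hq hK s i L :=
  RootLift.exists_root_lift hc hs (elHom hq hK i) (torT hq hK) (fun τ => D4M.act hq hK τ i)
    (fun τ a => tor_conj' hq hK τ i a) (torT_comm hq hK)
    (fun τ τ' a => Subtype.ext (mul_left_comm (wt hq hK τ i) (wt hq hK τ' i) (a : K)))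
    (fun a b x y hx hy => habel x y ⟨a, hx⟩ ⟨b, hy⟩) τ (exists_move hq hK hτ)

/-- The family of lifts. -/
abbrev FamL (s : E →* GT) (L : ∀ i, ↥(Af hq hK i) → E) : Prop :=
  RootLift.Fam s (fun i => ↥(Af hq hK i)) (elT hq hK) (torT hq hK) (fun τ i a => D4M.act hq hK τ i a) L

theorem famL {L : ∀ i, ↥(Af hq hK i) → E} (h : ∀ i, RootL hq hK s i (L i)) : FamL hq hK s L where
  add i := (h i).1
  lift i := (h i).2.1
  equiv τ t ht' i := (h i).2.2 τ t ht'
  comm i j hij a b := elT_comm hq hK i j hij a b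
  indep i a ha := elT_indep hq hK i a ha

include hq hK hc hs in
theorem step_sep {L : ∀ i, ↥(Af hq hK i) → E} (hF : FamL hq hK s L) {i j : Fin 6} (hij : i < j)
    (hk : RootLift.Closed L ((j : ℕ) + 1))
    (hp : ∃ τ, (wt hq hK τ i = 1 ∧ wt hq hK τ j ≠ 1) ∨ (wt hq hK τ j = 1 ∧ wt hq hK τ i ≠ 1)) (a b) :
    ⁅L i a, L j b⁆ ∈ RootLift.span L ((j : ℕ) + 1) := by
  refine hF.step_of_pair hc hs hij hk ?_ a b
  obtain ⟨τ, ⟨h1, h2⟩ | ⟨h1, h2⟩⟩ := hp
  · refine ⟨τ, Or.inl ⟨act_one hq hK h1, fun b => ?_⟩⟩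
    obtain ⟨c, hc'⟩ := (exists_move hq hK h2).2 b
    exact ⟨c, sub_eq_iff_eq_add.1 hc'⟩
  · refine ⟨τ, Or.inr ⟨act_one hq hK h1, fun b => ?_⟩⟩
    obtain ⟨c, hc'⟩ := (exists_move hq hK h2).2 b
    exact ⟨c, sub_eq_iff_eq_add.1 hc'⟩

include hq hK in
theorem coprime_tor {p : ℕ} (hp : p.Prime) (hqp : ∃ f, q = p ^ f) : Nat.Coprime p ((q - 1) * (q ^ 3 - 1)) := by
  have hpq : p ∣ q := by
    obtain ⟨f, rfl⟩ := hqp
    exact dvd_pow_self p fun h => by have := hq.one_lt; simp [h] at this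
  have hq1 := hq.one_lt
  have h3 : 1 ≤ q ^ 3 := Nat.one_le_pow _ _ (by omega)
  refine Nat.Coprime.mul_right ?_ ?_ <;> refine (Nat.Prime.coprime_iff_not_dvd hp).2 fun h => hp.not_dvd_one ?_
  · have := Nat.dvd_sub hpq h
    rwa [show q - (q - 1) = 1 by omega] at this
  · have := Nat.dvd_sub (dvd_pow hpq three_ne_zero) h
    rwa [show q ^ 3 - (q ^ 3 - 1) = 1 by omega] at this

include hq hK in
theorem torT_pow (τ : Tor hq hK) : torT hq hK τ ^ ((q - 1) * (q ^ 3 - 1)) = 1 := by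
  have hR := (rulesD4 K).root.choose_spec
  have hc : Commute (phiT hq hK (dg τ.1)) (psiT hq hK (dg τ.2)) :=
    Subtype.ext (Sys.Hbar_comm SS (rulesD4 K) hR (glSys_HMul (rulesD4 K) hR) _ ((orbHom_phi hq hK).dg_mem _) _
      ((orbHom_psi hq hK).dg_mem _))
  have h1 : τ.1 ^ ((q - 1) * (q ^ 3 - 1)) = 1 := by
    have hFx : Nat.card ↥(Fx σ) = q := D4Deg.card_Fx hq.one_lt hK (frobD4_apply hq hK)
    have h : τ.1 ^ (q - 1) = 1 := by
      have := pow_card_eq_one' (x := τ.1)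
      rwa [Nat.card_units, hFx] at this
    rw [pow_mul, h, one_pow]
  have h2 : τ.2 ^ ((q - 1) * (q ^ 3 - 1)) = 1 := by
    have h : τ.2 ^ (q ^ 3 - 1) = 1 := by
      have := pow_card_eq_one' (x := τ.2)
      rwa [Nat.card_units, Nat.card_eq_fintype_card, hK] at this
    rw [mul_comm, pow_mul, h, one_pow]
  rw [torT, hc.mul_pow, ← map_pow, ← map_pow, ← dg_pow, ← dg_pow, h1, h2, BNLift.dg_one, BNLift.dg_one, map_one,
    map_one, one_mul]

include hq hK hc hs in
/-- The kernel is trivial once the lifted root groups close up. -/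
theorem ker_eq_bot_of_closed {p : ℕ} [Fact p.Prime] (hqp : ∃ f, q = p ^ f) (hsc : s.ker ≤ commutator E)
    (hk : IsPGroup p s.ker) {L : ∀ i, ↥(Af hq hK i) → E} (hF : FamL hq hK s L)
    (hcl : RootLift.Closed L 0) : s.ker = ⊥ := by
  have hp : p.Prime := Fact.out
  set B : Subgroup GT := Subgroup.closure ({x | ∃ i c, x = elT hq hK i c} ∪ Set.range (torT hq hK)) with hB
  have hU : (UT (K := K) (q := q)) ≤ B := by
    intro u hu
    refine Subgroup.closure_mono (show {x | ∃ i : Fin 6, 0 ≤ (i : ℕ) ∧ ∃ c, x = elT hq hK i c} ⊆ _ from ?_)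
      ((mem_MT_iff hq hK (k := 0) (by norm_num) u).2 ?_)
    · rintro _ ⟨i, -, c, rfl⟩; exact Or.inl ⟨i, c, rfl⟩
    · refine (SS).US_mono (fun r hr => ?_) (Subgroup.mem_inf.1 (mem_UT.1 hu)).1
      have : ∀ r ∈ LL, r ∈ suf 0 := by decide +kernel
      exact this r ((enumLL.2 r).2 hr)
  have hindex : Nat.Coprime B.index p := by
    have hord := ChevTwOrd.order_D4 hq hK (thm_S1106 hq hK)
    have hcU : Nat.card ↥(UT (K := K) (q := q)) = q ^ 12 := by
      rw [UT, Nat.card_congr (Subgroup.subgroupOfEquivOfLe inf_le_right).toEquiv, ← thm_S1088 hq hK,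
        posUnipotent_eq (rulesD4 K)]
    have hidx : (UT (K := K) (q := q)).index = (q ^ 2 - 1) * (q ^ 6 - 1) * (q ^ 8 + q ^ 4 + 1) := by
      have h := (UT (K := K) (q := q)).card_mul_index
      rw [hcU, hord, mul_assoc, mul_assoc] at h
      rw [mul_assoc]
      exact Nat.eq_of_mul_eq_mul_left (pow_pos (by have := hq.one_lt; omega) _) h
    refine Nat.Coprime.coprime_dvd_left (Subgroup.index_dvd_of_le hU) ?_
    rw [hidx, Nat.coprime_comm, Nat.Prime.coprime_iff_not_dvd hp]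
    have hpq : p ∣ q := by
      obtain ⟨f, rfl⟩ := hqp
      exact dvd_pow_self p fun h => by have := hq.one_lt; simp [h] at this
    have hq1 := hq.one_lt
    have hm : ∀ k, k ≠ 0 → ¬ p ∣ q ^ k - 1 := fun k hk h => by
      have := Nat.dvd_sub (dvd_pow hpq hk) h
      have h1 : 1 ≤ q ^ k := Nat.one_le_pow _ _ (by omega)
      rw [show q ^ k - (q ^ k - 1) = 1 by omega] at this
      exact hp.not_dvd_one this
    intro h
    rcases (Nat.Prime.dvd_mul hp).1 h with h | h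
    · rcases (Nat.Prime.dvd_mul hp).1 h with h | h
      · exact hm 2 (by norm_num) h
      · exact hm 6 (by norm_num) h
    · have hd : p ∣ q ^ 8 + q ^ 4 := dvd_add (dvd_pow hpq (by norm_num)) (dvd_pow hpq (by norm_num))
      exact hp.not_dvd_one ((Nat.dvd_add_right hd).1 h)
  rw [eq_bot_iff]
  intro z hz
  have hz1 : s z = 1 := hz
  obtain ⟨m, hm⟩ := hk ⟨z, hz⟩
  have hzC : z ∈ B.comap s := by rw [Subgroup.mem_comap, hz1]; exact one_mem _
  have hmem := mem_commutator_of_coprime (B.comap s) (hc hz) (hsc hz) hzC (n := p ^ m)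
    (congrArg Subtype.val hm) (by rw [Subgroup.index_comap_of_surjective _ hs]; exact hindex.pow_right m)
  refine Subgroup.mem_bot.2 (hF.inf_ker_eq_one hc hs hcl (fun τ τ' t t' ht1 ht2 => ?_) _ rfl hz1 hmem)
  exact RootLift.commute_of_coprime hc hk (by rw [ht1, ht2]; exact torT_comm hq hK τ τ')
    (m := (q - 1) * (q ^ 3 - 1)) (by rw [ht1]; exact torT_pow hq hK τ) (coprime_tor hq hK hp hqp)

include hq hK hc hs in
theorem ker_eq_bot_ge {p : ℕ} [Fact p.Prime] (hqp : ∃ f, q = p ^ f) (hsc : s.ker ≤ commutator E)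
    (hk : IsPGroup p s.ker) (h3 : 3 ≤ q) : s.ker = ⊥ := by
  obtain ⟨τ1, hτ1⟩ := exists_norm_one_tor hq hK
  obtain ⟨⟨τ4, a41, a42, a45⟩, ⟨τ5, a51, a52, a54⟩, ⟨τ0, a01, a02⟩, ⟨τ3, a31, a30, a32⟩⟩ := exists_sep_tor hq hK h3
  have hex : ∀ i, ∃ L, RootL hq hK s i L := fun i => by
    cases hi : isLong i
    · exact exists_L hq hK hc hs (fun x y => abel_short hq hK hc hs hi) τ1 ((hτ1 i).2 hi)
    · obtain ⟨τ, hτ⟩ : ∃ τ, wt hq hK τ i ≠ 1 := by
        revert hi
        fin_cases i <;> intro hi <;>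
          first | exact absurd hi (by decide) | exact ⟨τ5, a52⟩ | exact ⟨τ5, a54⟩ | exact ⟨τ4, a45⟩
      exact exists_L hq hK hc hs (fun x y => abel_long_ge hq hK hc hs h3 hi) τ hτ
  choose L hL using hex
  have hF := famL hq hK hL
  refine ker_eq_bot_of_closed hq hK hc hs hqp hsc hk hF (hF.closed_of_step (fun i j hij hk _ a b => ?_) 0)
  refine step_sep hq hK hc hs hF hij hk ?_ a b
  cases hi : isLong i <;> cases hj : isLong j
  · have : (i = 0 ∧ j = 2) ∨ (i = 0 ∧ j = 3) ∨ (i = 2 ∧ j = 3) := by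
      exact dataShort i j hij hi hj
    rcases this with ⟨rfl, rfl⟩ | ⟨rfl, rfl⟩ | ⟨rfl, rfl⟩
    · exact ⟨τ0, Or.inl ⟨a01, a02⟩⟩
    · exact ⟨τ3, Or.inr ⟨a31, a30⟩⟩
    · exact ⟨τ3, Or.inr ⟨a31, a32⟩⟩
  · exact ⟨τ1, Or.inr ⟨(hτ1 j).1 hj, (hτ1 i).2 hi⟩⟩
  · exact ⟨τ1, Or.inl ⟨(hτ1 i).1 hi, (hτ1 j).2 hj⟩⟩
  · have : (i = 1 ∧ j = 4) ∨ (i = 1 ∧ j = 5) ∨ (i = 4 ∧ j = 5) := by
      exact dataLong i j hij hi hj
    rcases this with ⟨rfl, rfl⟩ | ⟨rfl, rfl⟩ | ⟨rfl, rfl⟩
    · exact ⟨τ4, Or.inr ⟨a41, a42⟩⟩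
    · exact ⟨τ5, Or.inr ⟨a51, a52⟩⟩
    · exact ⟨τ5, Or.inr ⟨a51, a54⟩⟩

end Cfsg.Agent.CentralExt.D4M
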