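import Cfsg.Agent.CentralExt.D4PPart

/-!
# ³D₄(2): a central extension by a 2-group inside the commutator group is trivial
-/

set_option autoImplicit false
set_option linter.unusedSectionVars false

namespace Cfsg.Agent.CentralExt.D4M

open Cfsg.Lie Cfsg.Agent.ChevGrp Cfsg.Agent.ChevTw Cfsg.Agent.CTits Cfsg.Agent.D4Deg
open Cfsg.Agent.CentralExt.BNLift
open scoped MatrixGroups commutatorElement

variable {K : Type*} [Field K] [Fintype K] {q : ℕ} (hq : IsPrimePow q) (hK : Fintype.card K = q ^ 3)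

local notation "σ" => frobD4 hq hK
local notation "GK" => GL chevD4.Idx K
set_option quotPrecheck false
local notation "GT" => ↥(twistedD4 K q)
local notation "SS" => glSys (rulesD4 K)

theorem x_one (r : ℕ) (hr : r < chevD4.nroots) : X K r (0 : K) = 1 := (SS).x_zero hr

theorem lift8_parts (A : ↥(Fx σ)) (B C : K) (D : ↥(Fx σ)) :
    lift8 hq hK (A, B, C, D) = X K 14 A * tri hq hK 19 16 15 (-1) (-1) B * tri hq hK 20 21 17 1 (-1) C * X K 22 D :=
  rfl

theorem conj8 (t : K) (m : Md σ) : ∃ w : ↥(Fx σ),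
    shortEl hq hK false t * lift8 hq hK m * (shortEl hq hK false t)⁻¹ =
      lift8 hq hK (fn (sig3 hq hK) t m) * X K 23 w := by
  have hl := lift8_mem hq hK m
  have hs := shortEl_mem hq hK false t
  refine eq_mul_x23 hq hK (lift8_mem hq hK _) (mul_mem (mul_mem hs hl) (inv_mem hs)) ?_
  have e := conj_lift8 hq hK false t m
  rw [cond_false, ← mk_lift8, ← mk_lift8] at e
  exact e.symm

theorem tri_one (a b c : ℕ) (s1 s2 : ℤ) (ha : a < chevD4.nroots) (hb : b < chevD4.nroots) (hc : c < chevD4.nroots) :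
    tri hq hK a b c s1 s2 0 = 1 := by simp [tri, x_one _ ha, x_one _ hb, x_one _ hc]

theorem lift8_single3 (u : K) : lift8 hq hK (0, 0, u, 0) = tri hq hK 20 21 17 1 (-1) u := by
  rw [lift8_parts, tri_one hq hK 19 16 15 _ _ (by decide) (by decide) (by decide)]
  simp [x_one 14 (show 14 < chevD4.nroots by decide), x_one 22 (show 22 < chevD4.nroots by decide)]

theorem lift8_single2 (u : K) : lift8 hq hK (0, u, 0, 0) = tri hq hK 19 16 15 (-1) (-1) u := by
  rw [lift8_parts, tri_one hq hK 20 21 17 _ _ (by decide) (by decide) (by decide)]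
  simp [x_one 14 (show 14 < chevD4.nroots by decide), x_one 22 (show 22 < chevD4.nroots by decide)]

theorem lift8_single1 (u : ↥(Fx σ)) : lift8 hq hK (u, 0, 0, 0) = X K 14 u := by
  rw [lift8_parts, tri_one hq hK 20 21 17 _ _ (by decide) (by decide) (by decide),
    tri_one hq hK 19 16 15 _ _ (by decide) (by decide) (by decide)]
  simp [x_one 22 (show 22 < chevD4.nroots by decide)]

/-- `[A, B]` starts with the AB-part. -/
theorem comm_AB (t : ↥(Af hq hK 0)) : ∃ (a : ↥(Af hq hK 2)) (b : ↥(Af hq hK 3)) (c : ↥(Af hq hK 4)) (d : ↥(Af hq hK 5)),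
    (a : K) = -t ∧ ⁅(elT hq hK 1 1)⁻¹, elT hq hK 0 t⁆ = elT hq hK 2 a * (elT hq hK 3 b * elT hq hK 4 c * elT hq hK 5 d) := by
  obtain ⟨w, hw⟩ := conj8 hq hK (t : K) (1, 0, 0, 0)
  set m := fn (sig3 hq hK) (t : K) ((1, 0, 0, 0) : Md σ) with hm
  have hF : ∀ i, isLong i = true → ∀ x : ↥(Fx σ), (x : K) ∈ Af hq hK i := fun i hi x => by
    rw [Af_long hq hK hi]; exact x.2
  have hT : ∀ i, isLong i = false → ∀ x : K, x ∈ Af hq hK i := fun i hi x => by
    rw [Af_short hq hK hi]; exact Subfield.mem_top x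
  refine ⟨⟨m.2.1, hT 2 rfl _⟩, ⟨m.2.2.1, hT 3 rfl _⟩, ⟨m.2.2.2, hF 4 rfl _⟩, ⟨w, hF 5 rfl _⟩, ?_, ?_⟩
  · show m.2.1 = -(t : K)
    simp [hm, fn]
  · refine Subtype.ext ?_
    show ⁅(X K 14 ((1 : ↥(Af hq hK 1)) : K))⁻¹, shortEl hq hK false (t : K)⁆ = tri hq hK 19 16 15 (-1) (-1) m.2.1 *
      (tri hq hK 20 21 17 1 (-1) m.2.2.1 * X K 22 m.2.2.2 * X K 23 w)
    rw [lift8_single1] at hw
    have e1 : (m.1 : K) = 1 := by simp [hm, fn]
    have hl : lift8 hq hK m = X K 14 (1 : K) * tri hq hK 19 16 15 (-1) (-1) m.2.1 *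
        tri hq hK 20 21 17 1 (-1) m.2.2.1 * X K 22 m.2.2.2 := by rw [← e1]; rfl
    rw [hl] at hw
    have h1 : ((1 : ↥(Af hq hK 1)) : K) = 1 := rfl
    have h1' : ((1 : ↥(Fx σ)) : K) = 1 := rfl
    rw [h1'] at hw
    rw [h1, commutatorElement_def, inv_inv,
      show ∀ x g : GK, x⁻¹ * g * x * g⁻¹ = x⁻¹ * (g * x * g⁻¹) from fun x g => by group, hw]
    group

/-- `[A, 2AB]` contains a non-trivial 3AB-part. -/
theorem comm_A2AB : ∃ (a : ↥(Af hq hK 0)) (b : ↥(Af hq hK 3)) (c : ↥(Af hq hK 4)) (d : ↥(Af hq hK 5)),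
    c ≠ 0 ∧ ⁅elT hq hK 0 a, elT hq hK 3 b⁆ = elT hq hK 4 c * elT hq hK 5 d := by
  obtain ⟨u, hu⟩ := exists_trc_ne hq.one_lt hK (frobD4_apply hq hK)
  obtain ⟨w, hw⟩ := conj8 hq hK (1 : K) (0, 0, u, 0)
  set m := fn (sig3 hq hK) (1 : K) ((0, 0, u, 0) : Md σ) with hm
  have hT : ∀ i, isLong i = false → ∀ x : K, x ∈ Af hq hK i := fun i hi x => by
    rw [Af_short hq hK hi]; exact Subfield.mem_top x
  refine ⟨⟨1, hT 0 rfl _⟩, ⟨u, hT 3 rfl _⟩, ⟨m.2.2.2, by rw [Af_long hq hK (i := 4) rfl]; exact m.2.2.2.2⟩,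
    ⟨w, by rw [Af_long hq hK (i := 5) rfl]; exact w.2⟩, ?_, ?_⟩
  · intro h
    apply hu
    have := congrArg Subtype.val h
    simpa [hm, fn, trF, trc] using this
  · refine Subtype.ext ?_
    show ⁅shortEl hq hK false (1 : K), tri hq hK 20 21 17 1 (-1) u⁆ = X K 22 m.2.2.2 * X K 23 w
    rw [lift8_single3] at hw
    have hl : lift8 hq hK m = tri hq hK 20 21 17 1 (-1) u * X K 22 m.2.2.2 := by
      have e1 : m.1 = 0 := by simp [hm, fn]
      have e2 : m.2.1 = 0 := by simp [hm, fn]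
      have e3 : m.2.2.1 = u := by simp [hm, fn]
      rw [show m = (m.1, m.2.1, m.2.2.1, m.2.2.2) from rfl, lift8_parts]
      simp only [e1, e2, e3, tri_one hq hK 19 16 15 (-1) (-1) (show 19 < chevD4.nroots by decide)
        (show 16 < chevD4.nroots by decide) (show 15 < chevD4.nroots by decide), ZeroMemClass.coe_zero,
        x_one 14 (show 14 < chevD4.nroots by decide), one_mul]
    rw [hl] at hw
    rw [commutatorElement_def, hw]
    have c22 := commute_tri hq hK (r := 22) (by simp) u (m.2.2.2 : K)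
    have c23 := commute_tri hq hK (r := 23) (by simp) u (w : K)
    have h := c22.symm.mul_right c23.symm
    calc tri hq hK 20 21 17 1 (-1) u * X K 22 m.2.2.2 * X K 23 w * (tri hq hK 20 21 17 1 (-1) u)⁻¹
        = tri hq hK 20 21 17 1 (-1) u * (X K 22 m.2.2.2 * X K 23 w) * (tri hq hK 20 21 17 1 (-1) u)⁻¹ := by group
      _ = _ := by rw [h.eq, mul_inv_cancel_right]

/-- `[AB, 2AB]` lies in the centre. -/
theorem comm_AB2AB (a : ↥(Af hq hK 2)) (b : ↥(Af hq hK 3)) :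
    ∃ c, ⁅elT hq hK 2 a, elT hq hK 3 b⁆ = elT hq hK 5 c := by
  have h2 := lift8_mem hq hK (0, (a : K), 0, 0)
  have h3 := lift8_mem hq hK (0, 0, (b : K), 0)
  obtain ⟨w, hw⟩ := eq_mul_x23 hq hK (one_mem _)
    (mul_mem (mul_mem (mul_mem h2 h3) (inv_mem h2)) (inv_mem h3)) (by
      have hc : Commute (phi (emb σ ((0, (a : K), 0, 0) : Md σ))) (phi (emb σ ((0, 0, (b : K), 0) : Md σ))) := by
        rw [commute_iff_eq, ← phi_add, ← phi_add, add_comm]
      rw [← mk_lift8, ← mk_lift8] at hc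
      refine Eq.trans (Eq.trans ?_ (commutatorElement_eq_one_iff_mul_comm.2 hc.eq).symm) ?_
      · rfl
      · rfl)
  refine ⟨⟨w, by rw [Af_long hq hK (i := 5) rfl]; exact w.2⟩, Subtype.ext ?_⟩
  show ⁅tri hq hK 19 16 15 (-1) (-1) (a : K), tri hq hK 20 21 17 1 (-1) (b : K)⁆ = X K 23 w
  rw [← lift8_single2, ← lift8_single3, commutatorElement_def, hw, one_mul]

theorem dataWeylTwo : (∀ r ∈ rts 0, ChevGrp.act chevD4 (twD4.wJ chevD4 J0).reverse.reverse r ∈ rts 2) ∧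
    (∀ r ∈ rts 3, ChevGrp.act chevD4 (twD4.wJ chevD4 J0).reverse.reverse r ∈ rts 3) ∧
    (∀ r ∈ rts 4, ChevGrp.act chevD4 (twD4.wJ chevD4 J0).reverse.reverse r ∈ rts 5) := by decide +kernel

theorem comm_one_three (a : ↥(Af hq hK 1)) (b : ↥(Af hq hK 3)) : Commute (elT hq hK 1 a) (elT hq hK 3 b) := by
  refine Subtype.ext ?_
  show X K 14 (a : K) * tri hq hK 20 21 17 1 (-1) (b : K) = tri hq hK 20 21 17 1 (-1) (b : K) * X K 14 (a : K)
  have hd : ∀ s ∈ [20, 21, 17], s ≠ 14 ∧ s ≠ chevD4.neg 14 ∧ chevD4.commTerms 14 s = [] ∧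
      14 < chevD4.nroots ∧ s < chevD4.nroots := by decide +kernel
  have hc : ∀ s ∈ [20, 21, 17], ∀ u : K, Commute (X K 14 (a : K)) (X K s u) := fun s hs u =>
    x_commute SS (hd s hs).2.2.2.1 (hd s hs).2.2.2.2 (hd s hs).1 (hd s hs).2.1 (hd s hs).2.2.1 _ _
  exact (((hc 20 (by simp) _).mul_right (hc 21 (by simp) _)).mul_right (hc 17 (by simp) _)).eq

theorem conjP_phiT_inv : Sys.ConjP SS (((phiT hq hK (wm 1))⁻¹ : GT) : GK) (twD4.wJ chevD4 J0).reverse :=
  (conjP_phiT hq hK).inv (rulesD4 K).root.choose_spec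

variable {E : Type*} [Group E] [Finite E] {s : E →* ↥(twistedD4 K q)}
variable (hc : s.ker ≤ Subgroup.center E) (hs : Function.Surjective s) (h2 : q = 2)

include hq hK h2 in
theorem long_two {i : Fin 6} (hi : isLong i = true) (a : ↥(Af hq hK i)) : a = 0 ∨ a = 1 := by
  have hcard : Nat.card ↥(Af hq hK i) = 2 := by
    rw [Af_long hq hK hi, D4Deg.card_Fx hq.one_lt hK (frobD4_apply hq hK), h2]
  by_contra hne
  push Not at hne
  have : Fintype ↥(Af hq hK i) := Fintype.ofFinite _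
  classical
  have h3 : ({0, 1, a} : Finset ↥(Af hq hK i)).card = 3 := by
    rw [Finset.card_insert_of_notMem (by simp [hne.1.symm]), Finset.card_pair hne.2.symm]
  have := Finset.card_le_univ ({0, 1, a} : Finset ↥(Af hq hK i))
  rw [h3, ← Nat.card_eq_fintype_card, hcard] at this
  omega

include hq hK h2 in
theorem one_add_one_long {i : Fin 6} (hi : isLong i = true) : (1 + 1 : ↥(Af hq hK i)) = 0 :=
  (long_two hq hK h2 hi _).resolve_right fun h => one_ne_zero (add_eq_left.1 h)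

include hq hK h2 in
theorem wt_long_two (τ : Tor hq hK) {i : Fin 6} (hi : isLong i = true) : wt hq hK τ i = 1 :=
  congrArg Subtype.val ((long_two hq hK h2 hi ⟨_, wt_mem hq hK τ i⟩).resolve_left
    fun h => wt_ne_zero hq hK τ i (congrArg Subtype.val h))

theorem elT_zero (i : Fin 6) : elT hq hK i 0 = 1 := Subtype.ext (elK_zero hq hK i)

theorem elT_one_ne (i : Fin 6) : elT hq hK i 1 ≠ 1 := fun h =>
  one_ne_zero (elT_inj hq hK i (h.trans (elT_zero hq hK i).symm))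

include hq hK hc h2 in
theorem abel_long_two {i : Fin 6} (hi : isLong i = true) {x y : E} (hx : LiftOf hq hK s i x)
    (hy : LiftOf hq hK s i y) : Commute x y := by
  obtain ⟨a, ha⟩ := hx
  obtain ⟨b, hb⟩ := hy
  rcases long_two hq hK h2 hi a with rfl | rfl
  · exact (Subgroup.mem_center_iff.1 (hc (ha.trans (elT_zero hq hK i))) y).symm
  · rcases long_two hq hK h2 hi b with rfl | rfl
    · exact Subgroup.mem_center_iff.1 (hc (hb.trans (elT_zero hq hK i))) x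
    · obtain ⟨z, hz, -, rfl⟩ := RootLift.eq_central_mul hc (hb.trans ha.symm)
      exact (Commute.refl x).mul_right (Subgroup.mem_center_iff.1 hz x)

include hq hK hc hs h2 in
theorem centre_four {z x : E} (hz : LiftOf hq hK s 5 z) (hx : LiftOf hq hK s 4 x) : Commute z x := by
  obtain ⟨τ, hτ⟩ := exists_norm_one_tor hq hK
  obtain ⟨a, ha⟩ := hx
  rcases long_two hq hK h2 rfl a with rfl | rfl
  · exact Subgroup.mem_center_iff.1 (hc (ha.trans (elT_zero hq hK 4))) z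
  obtain ⟨u, v, c, d, hc0, e⟩ := comm_A2AB hq hK
  obtain rfl : c = 1 := (long_two hq hK h2 rfl c).resolve_left hc0
  obtain ⟨x0, hx0⟩ := hs (elT hq hK 0 u)
  obtain ⟨x3, hx3⟩ := hs (elT hq hK 3 v)
  obtain ⟨x5, hx5⟩ := hs (elT hq hK 5 d)
  have c0 : Commute z x0 := commute_fix_move hq hK hc hs τ ((hτ 5).1 rfl) ((hτ 0).2 rfl)
    (fun a b => (commute_five hq hK 0 b a).symm) hz ⟨_, hx0⟩
  have c3 : Commute z x3 := commute_fix_move hq hK hc hs τ ((hτ 5).1 rfl) ((hτ 3).2 rfl)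
    (fun a b => (commute_five hq hK 3 b a).symm) hz ⟨_, hx3⟩
  obtain ⟨k, hk, -, rfl⟩ := RootLift.eq_central_mul hc (x := x) (y := ⁅x0, x3⁆ * x5⁻¹)
    (by rw [map_mul, map_inv, map_commutatorElement, hx0, hx3, hx5, e, mul_inv_cancel_right, ha])
  rw [commutatorElement_def]
  exact ((((c0.mul_right c3).mul_right c0.inv_right).mul_right c3.inv_right).mul_right
    (abel_long_two hq hK hc h2 rfl hz ⟨_, hx5⟩).inv_right).mul_right (Subgroup.mem_center_iff.1 hk z)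

include hq hK hc hs h2 in
theorem centre_one {z x : E} (hz : LiftOf hq hK s 5 z) (hx : LiftOf hq hK s 1 x) : Commute z x := by
  obtain ⟨c, hc'⟩ := hz
  obtain ⟨a, ha⟩ := hx
  obtain ⟨t, ht'⟩ := hs (psiT hq hK (wm 1))
  have hconv : ∀ i j, (∀ r ∈ rts j, ChevGrp.act chevD4 (twD4.wJ chevD4 J1).reverse r ∈ rts i) →
      ∀ (y : E) (b : ↥(Af hq hK j)), s y = elT hq hK j b → LiftOf hq hK s i (t⁻¹ * y * t) := by
    intro i j h y b hy
    obtain ⟨w, ⟨b', rfl⟩, e⟩ := conj_range hq hK (conjP_psiT hq hK) h _ ⟨b, rfl⟩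
    exact ⟨b', by rw [map_mul, map_mul, map_inv, ht', hy, ← e]; group⟩
  have := (centre_four hq hK hc hs h2 (hconv 5 5 dataWeyl.2.2.2.2 z c hc') (hconv 4 1 dataWeyl.2.1 x a ha)).conj t
  simpa [mul_assoc] using this

include hq hK hc h2 in
theorem rootL_two {p : ℕ} (hp : p = 2) (hk : IsPGroup p s.ker) {i : Fin 6} (hi : isLong i = true) {x : E}
    (hx : s x = elT hq hK i 1) (hxx : x * x = 1) :
    ∃ L, RootL hq hK s i L ∧ L 1 = x := by
  classical
  subst hp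
  refine ⟨fun a => if a = 0 then 1 else x, ⟨fun a b => ?_, fun a => ?_, fun τ t ht' a => ?_⟩, if_neg one_ne_zero⟩
  · rcases long_two hq hK h2 hi a with rfl | rfl
    · simp
    rcases long_two hq hK h2 hi b with rfl | rfl
    · simp
    simp [one_add_one_long hq hK h2 hi, hxx]
  · rcases long_two hq hK h2 hi a with rfl | rfl
    · simp [elT_zero]
    · simp [hx]
  · rw [act_one hq hK (wt_long_two hq hK h2 τ hi)]
    rcases long_two hq hK h2 hi a with rfl | rfl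
    · simp
    · simp only [one_ne_zero, if_false]
      have h := RootLift.commute_of_coprime hc hk (t := t) (x := x)
        (by rw [ht', hx, commute_iff_eq, ← mul_inv_eq_iff_eq_mul, tor_conj',
          act_one hq hK (wt_long_two hq hK h2 τ hi)])
        (m := (q - 1) * (q ^ 3 - 1)) (by rw [ht']; exact torT_pow hq hK τ)
        (coprime_tor hq hK Nat.prime_two ⟨1, by rw [h2, pow_one]⟩)
      rw [h.eq, mul_inv_cancel_right]

include hq hK hc hs h2 in
theorem exists_long_two (hk : IsPGroup 2 s.ker) :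
    ∃ (L1 : ↥(Af hq hK 1) → E) (L4 : ↥(Af hq hK 4) → E) (L5 : ↥(Af hq hK 5) → E),
      RootL hq hK s 1 L1 ∧ RootL hq hK s 4 L4 ∧ RootL hq hK s 5 L5 ∧ ⁅L1 1, L4 1⁆ = L5 1 ∧
      ∀ g : E, s g = phiT hq hK (wm 1) → g⁻¹ * L5 1 * g = L4 1 := by
  obtain ⟨b, hb⟩ := hs (elT hq hK 1 1)
  obtain ⟨c, hc'⟩ := hs (elT hq hK 4 1)
  obtain ⟨g, hg⟩ := hs (phiT hq hK (wm 1))
  obtain ⟨g', hg'⟩ := hs (psiT hq hK (wm 1))
  set ζ := ⁅b, c⁆ with hζ
  have hζ5 : s ζ = elT hq hK 5 1 := by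
    rw [hζ, map_commutatorElement, hb, hc']
    exact comm_long hq hK 1 1 1 (by simp)
  have hbc : Commute ζ b := centre_one hq hK hc hs h2 ⟨1, hζ5⟩ ⟨1, hb⟩
  have hsq : ζ * ζ = 1 := by
    have e : ⁅b * b, c⁆ = b * ζ * b⁻¹ * ζ := by rw [hζ]; simp only [commutatorElement_def]; group
    have hb2 : b * b ∈ s.ker := by
      rw [MonoidHom.mem_ker, map_mul, hb, ← elT_add, one_add_one_long hq hK h2 rfl, elT_zero]
    rw [commutatorElement_eq_one_iff_mul_comm.2 (Subgroup.mem_center_iff.1 (hc hb2) c).symm, ← hbc.eq,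
      mul_inv_cancel_right] at e
    exact e.symm
  set ξ := g⁻¹ * ζ * g with hξ
  have hξ4 : s ξ = elT hq hK 4 1 := by
    obtain ⟨x, ⟨d, rfl⟩, e⟩ := conj_range hq hK (conjP_phiT_inv hq hK) dataWeylTwo.2.2 _ ⟨1, rfl⟩
    rw [hξ, map_mul, map_mul, map_inv, hg, hζ5]
    rcases long_two hq hK h2 rfl d with rfl | rfl
    · exact absurd (by rw [← e, elT_zero]; group) (elT_one_ne hq hK 4)
    · rw [← e]; group
  have hξs : ξ * ξ = 1 := by rw [hξ, show g⁻¹ * ζ * g * (g⁻¹ * ζ * g) = g⁻¹ * (ζ * ζ) * g by group, hsq]; group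
  set η := g' * ξ * g'⁻¹ with hη
  have hη1 : s η = elT hq hK 1 1 := by
    obtain ⟨x, ⟨d, rfl⟩, e⟩ := conj_range hq hK (conjP_psiT hq hK) dataWeyl.2.1 _ ⟨1, rfl⟩
    rw [hη, map_mul, map_mul, map_inv, hg', hξ4]
    rcases long_two hq hK h2 rfl d with rfl | rfl
    · exact absurd (by rw [← e, elT_zero]; group) (elT_one_ne hq hK 1)
    · exact e
  have hηs : η * η = 1 := by rw [hη, show g' * ξ * g'⁻¹ * (g' * ξ * g'⁻¹) = g' * (ξ * ξ) * g'⁻¹ by group, hξs]; group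
  obtain ⟨L1, h1, e1⟩ := rootL_two hq hK hc h2 rfl hk (i := 1) rfl hη1 hηs
  obtain ⟨L4, h4, e4⟩ := rootL_two hq hK hc h2 rfl hk (i := 4) rfl hξ4 hξs
  obtain ⟨L5, h5, e5⟩ := rootL_two hq hK hc h2 rfl hk (i := 5) rfl hζ5 hsq
  refine ⟨L1, L4, L5, h1, h4, h5, ?_, fun g₂ hg₂ => ?_⟩
  · rw [e1, e4, e5]
    exact RootLift.comm_congr hc (hη1.trans hb.symm) (hξ4.trans hc'.symm)
  · rw [e4, e5, hξ]
    have := RootLift.conj_congr hc (t := g₂⁻¹) (t' := g⁻¹) (by rw [map_inv, map_inv, hg₂, hg]) ζ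
    simpa using this

include hq hK hc hs h2 in
/-- The step for AB and 2AB. -/
theorem step_AB_2AB {L : ∀ i, ↥(Af hq hK i) → E} (hF : FamL hq hK s L) (hk : RootLift.Closed L 4)
    (h13 : ∀ a b, ⁅L 1 a, L 3 b⁆ ∈ RootLift.span L 4) (a : ↥(Af hq hK 2)) (b : ↥(Af hq hK 3)) :
    ⁅L 2 a, L 3 b⁆ ∈ RootLift.span L 4 := by
  have htop : ∀ x : K, x ∈ Af hq hK 0 := fun x => by rw [Af_short hq hK (i := 0) rfl]; exact Subfield.mem_top x
  obtain ⟨a2, b3, c4, d5, ha2, e⟩ := comm_AB hq hK ⟨-(a : K), htop _⟩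
  have ea : a2 = a := Subtype.ext (by rw [ha2]; simp)
  rw [ea] at e
  set N := RootLift.span L 4
  have hnorm : ∀ (i : Fin 6) x, L i x ∈ Subgroup.normalizer (N : Set E) := fun i x => hF.normalizes hk i x
  set l := L 0 ⟨-(a : K), htop _⟩
  set x := L 1 1
  set y := L 3 b
  set r := L 3 b3 * L 4 c4 * L 5 d5
  have hxy : ⁅x, y⁆ = 1 := by
    refine hF.span_inf_ker 4 (fun p p' h h' => hk p p' h (by omega)) _ (h13 _ _) ?_
    rw [map_commutatorElement, hF.lift, hF.lift, commutatorElement_eq_one_iff_mul_comm]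
    have h := comm_one_three hq hK 1 b
    exact h.eq
  obtain ⟨k, hk0, hk1, hlx⟩ := RootLift.eq_central_mul hc (x := ⁅x⁻¹, l⁆) (y := L 2 a * r)
    (by rw [map_commutatorElement, map_inv, hF.lift, hF.lift, e, map_mul, map_mul, map_mul, hF.lift, hF.lift,
      hF.lift, hF.lift])
  obtain ⟨k', hk0', hk1', n, hn, hly⟩ := hF.comm_mod hc (show (0 : Fin 6) < 3 by decide) ⟨-(a : K), htop _⟩ b
  have eX : l * x * l⁻¹ = x * (L 2 a * r) * k := by
    rw [mul_assoc x, ← hlx, commutatorElement_def]; group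
  have eY : l * y * l⁻¹ = n * y * k' := by
    rw [show l * y * l⁻¹ = ⁅l, y⁆ * y by simp only [commutatorElement_def]; group, hly, mul_assoc,
      ← Subgroup.mem_center_iff.1 hk0' y, mul_assoc]
  have hcomm : ⁅x * (L 2 a * r), n * y⁆ = 1 := by
    rw [RootLift.comm_congr hc (x' := l * x * l⁻¹) (y' := l * y * l⁻¹)
      (by rw [eX, map_mul _ _ k, hk1, mul_one])
      (by rw [eY, map_mul _ _ k', hk1', mul_one]), ← conjugate_commutatorElement,
      hxy]
    group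
  have hrN : r ∈ Subgroup.closure {g | ∃ i : Fin 6, 3 ≤ (i : ℕ) ∧ ∃ c, g = L i c} :=
    mul_mem (mul_mem (hF.mem_span (k := 3) (le_refl 3) b3) (hF.mem_span (k := 3) (i := 4) (by decide) c4))
      (hF.mem_span (k := 3) (i := 5) (by decide) d5)
  have hry : ⁅r, y⁆ ∈ N := by
    refine RootLift.comm_closure (Y := {y}) ?_ ?_ hrN rfl
    · rintro _ ⟨i, -, c, rfl⟩; exact hnorm i c
    · rintro _ ⟨i, hi, c, rfl⟩ _ rfl
      rcases eq_or_ne i 3 with rfl | hne
      · rw [hF.self_mem]; exact one_mem _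
      · rw [← commutatorElement_inv]
        exact inv_mem (hF.span_anti (by omega) (hk 3 i (by omega) (by omega) b c))
  have hm : x * (L 2 a * r) ∈ Subgroup.normalizer (N : Set E) :=
    mul_mem (hnorm _ _) (mul_mem (hnorm _ _) (mul_mem (mul_mem (hnorm _ _) (hnorm _ _)) (hnorm _ _)))
  have h1 : ⁅x * (L 2 a * r), y⁆ ∈ N := by
    have hmn : ⁅x * (L 2 a * r), n⁆ ∈ N := mul_mem ((Subgroup.mem_normalizer_iff.1 hm n).1 hn) (inv_mem hn)
    have e' : ⁅x * (L 2 a * r), y⁆ =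
        n⁻¹ * (⁅x * (L 2 a * r), n⁆⁻¹ * ⁅x * (L 2 a * r), n * y⁆) * n := by
      simp only [commutatorElement_def]; group
    rw [e', hcomm, mul_one]
    exact mul_mem (mul_mem (inv_mem hn) (inv_mem hmn)) hn
  have h2' : ⁅L 2 a * r, y⁆ ∈ N := by
    have e' : ⁅x * (L 2 a * r), y⁆ = x * ⁅L 2 a * r, y⁆ * x⁻¹ * ⁅x, y⁆ := by
      simp only [commutatorElement_def]; group
    rw [e', hxy, mul_one] at h1
    exact (Subgroup.mem_normalizer_iff.1 (hnorm _ _) _).2 h1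
  have e' : ⁅L 2 a, y⁆ = (L 2 a * ⁅r, y⁆ * (L 2 a)⁻¹)⁻¹ * ⁅L 2 a * r, y⁆ := by
    simp only [commutatorElement_def]; group
  rw [e']
  exact mul_mem (inv_mem ((Subgroup.mem_normalizer_iff.1 (hnorm _ _) _).1 hry)) h2'

include hq hK h2 in
theorem pow_seven {v : K} (hv : v ≠ 0) : v ^ 7 = 1 := by
  have h := FiniteField.pow_card_sub_one_eq_one v hv
  rwa [hK, h2] at h

include hq hK hc hs h2 in
/-- The step for A and AB. -/
theorem step_A_AB {L : ∀ i, ↥(Af hq hK i) → E} (hF : FamL hq hK s L) (hk : RootLift.Closed L 3)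
    (a : ↥(Af hq hK 0)) (b : ↥(Af hq hK 2)) : ⁅L 0 a, L 2 b⁆ ∈ RootLift.span L 3 := by
  have ht : ∀ i, isLong i = false → ∀ x : K, x ∈ Af hq hK i := fun i hi x => by
    rw [Af_short hq hK hi]; exact Subfield.mem_top x
  let eq' : ∀ i, isLong i = false → K ≃+ ↥(Af hq hK i) := fun i hi =>
    { toFun := fun x => ⟨x, ht i hi x⟩, invFun := fun x => x, left_inv := fun _ => rfl,
      right_inv := fun _ => rfl, map_add' := fun _ _ => rfl }
  obtain ⟨d, hd0, hd1, hd⟩ := exists_d hq hK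
  refine hF.step_of_field hc hs (i := 0) (j := 2) (by decide) hk (eq' 0 rfl) (eq' 2 rfl) (fun w hw => ?_) hd0 hd1 hd a b
  have h7 := pow_seven hq hK h2 hw
  have hv : w ^ 4 ≠ 0 := pow_ne_zero _ hw
  obtain ⟨e0, -, e2, -, -, -⟩ := wt_values hq hK (1, Units.mk0 (w ^ 4) hv) (w ^ 4) 1 rfl (by simp)
  have hw8 : w ^ 8 = w := by rw [pow_succ, h7, one_mul]
  have q0 : wt hq hK (1, Units.mk0 (w ^ 4) hv) 0 = w := by
    rw [e0, inv_one, mul_one, ← pow_mul]; exact hw8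
  have q2 : wt hq hK (1, Units.mk0 (w ^ 4) hv) 2 = w := by
    rw [e2, frobD4_apply, frobD4_apply, h2, mul_one, mul_assoc, ← mul_inv, mul_inv_eq_iff_eq_mul₀ (by simp [hw])]
    have h21 : w ^ 21 = 1 := by rw [show 21 = 7 * 3 from rfl, pow_mul, h7, one_pow]
    linear_combination (-(w ^ 4)) * h21
  exact ⟨(1, Units.mk0 (w ^ 4) hv), fun x => ⟨Subtype.ext (by show wt hq hK _ 0 * x = w * x; rw [q0]),
    Subtype.ext (by show wt hq hK _ 2 * x = w * x; rw [q2])⟩⟩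

include hq hK hc hs h2 in
theorem ker_eq_bot_two (hsc : s.ker ≤ commutator E) (hk : IsPGroup 2 s.ker) : s.ker = ⊥ := by
  have : Fact (Nat.Prime 2) := ⟨Nat.prime_two⟩
  obtain ⟨τ, hτ⟩ := exists_norm_one_tor hq hK
  have hsh : ∀ i, isLong i = false → ∃ L, RootL hq hK s i L := fun i hi =>
    exists_L hq hK hc hs (fun x y => abel_short hq hK hc hs hi) τ ((hτ i).2 hi)
  obtain ⟨L0, r0⟩ := hsh 0 rfl
  obtain ⟨L2, r2⟩ := hsh 2 rfl
  obtain ⟨L3, r3⟩ := hsh 3 rfl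
  obtain ⟨L1, L4, L5, r1, r4, r5, h14, hg⟩ := exists_long_two hq hK hc hs h2 hk
  obtain ⟨L, e0, e1, e2, e3, e4, e5⟩ : ∃ L : ∀ i, ↥(Af hq hK i) → E,
      L 0 = L0 ∧ L 1 = L1 ∧ L 2 = L2 ∧ L 3 = L3 ∧ L 4 = L4 ∧ L 5 = L5 :=
    ⟨Fin.cons L0 (Fin.cons L1 (Fin.cons L2 (Fin.cons L3 (Fin.cons L4 (Fin.cons L5 finZeroElim))))),
      rfl, rfl, rfl, rfl, rfl, rfl⟩
  subst e0 e1 e2 e3 e4 e5
  have hR : ∀ i, RootL hq hK s i (L i) := fun i => by
    fin_cases i
    · exact r0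
    · exact r1
    · exact r2
    · exact r3
    · exact r4
    · exact r5
  have hF := famL hq hK hR
  refine ker_eq_bot_of_closed hq hK hc hs ⟨1, by rw [h2, pow_one]⟩ hsc hk hF
    (hF.closed_of_step (fun i j hij hcl _ a b => ?_) 0)
  have hsep : ∀ i j : Fin 6, i < j → RootLift.Closed L ((j : ℕ) + 1) → isLong i ≠ isLong j → ∀ a b,
      ⁅L i a, L j b⁆ ∈ RootLift.span L ((j : ℕ) + 1) := fun i j hij hcl hne a b => by
    refine step_sep hq hK hc hs hF hij hcl ⟨τ, ?_⟩ a b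
    cases hi : isLong i <;> cases hj : isLong j
    · exact absurd (hi.trans hj.symm) hne
    · exact Or.inr ⟨(hτ j).1 hj, (hτ i).2 hi⟩
    · exact Or.inl ⟨(hτ i).1 hi, (hτ j).2 hj⟩
    · exact absurd (hi.trans hj.symm) hne
  have hcomm1 : ∀ {x y : E} {k : ℕ}, Commute x y → ⁅x, y⁆ ∈ RootLift.span L k := fun h => by
    rw [commutatorElement_eq_one_iff_mul_comm.2 h.eq]; exact one_mem _
  cases hi : isLong i <;> cases hj : isLong j
  · have h23 : RootLift.Closed L 4 → ∀ a b, ⁅L 2 a, L 3 b⁆ ∈ RootLift.span L 4 := fun hcl a b =>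
      step_AB_2AB hq hK hc hs h2 hF hcl (fun a b => hsep 1 3 (by decide) hcl (by decide) a b) a b
    rcases dataShort i j hij hi hj with ⟨rfl, rfl⟩ | ⟨rfl, rfl⟩ | ⟨rfl, rfl⟩
    · exact step_A_AB hq hK hc hs h2 hF hcl a b
    · obtain ⟨g, hgs⟩ := hs (phiT hq hK (wm 1))
      obtain ⟨u, ⟨a', rfl⟩, ea⟩ := conj_range hq hK (conjP_phiT_inv hq hK) dataWeylTwo.1 _ ⟨a, rfl⟩
      obtain ⟨v, ⟨b', rfl⟩, eb⟩ := conj_range hq hK (conjP_phiT_inv hq hK) dataWeylTwo.2.1 _ ⟨b, rfl⟩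
      have e : ⁅L 0 a, L 3 b⁆ = g⁻¹ * ⁅L 2 a', L 3 b'⁆ * g := by
        rw [RootLift.comm_congr hc (x' := g⁻¹ * L 2 a' * g⁻¹⁻¹) (y' := g⁻¹ * L 3 b' * g⁻¹⁻¹)
          (by simp only [map_mul, map_inv, hgs, hF.lift]; exact ea.symm)
          (by simp only [map_mul, map_inv, hgs, hF.lift]; exact eb.symm),
          ← conjugate_commutatorElement, inv_inv]
      obtain ⟨f, hf⟩ := comm_AB2AB hq hK a' b'
      have hval : ⁅L 2 a', L 3 b'⁆ = L 5 f := by
        have h := hF.span_inf_ker 4 (fun p p' hp hp' => hcl p p' hp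
            (by show (3 : ℕ) + 1 ≤ (p' : ℕ); omega))
          (⁅L 2 a', L 3 b'⁆ * (L 5 f)⁻¹)
          (mul_mem (h23 hcl a' b') (inv_mem (hF.mem_span (k := 4) (i := 5) (by decide) f)))
          (by rw [map_mul, map_inv, map_commutatorElement, hF.lift, hF.lift, hF.lift, hf, mul_inv_cancel])
        exact mul_inv_eq_one.1 h
      rw [e, hval]
      rcases long_two hq hK h2 rfl f with rfl | rfl
      · rw [hF.L_zero, mul_one, inv_mul_cancel]; exact one_mem _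
      · rw [hg g hgs]; exact hF.mem_span (k := 4) (i := 4) (by decide) 1
    · exact h23 hcl a b
  · exact hsep i j hij hcl (by rw [hi, hj]; decide) a b
  · exact hsep i j hij hcl (by rw [hi, hj]; decide) a b
  · rcases dataLong i j hij hi hj with ⟨rfl, rfl⟩ | ⟨rfl, rfl⟩ | ⟨rfl, rfl⟩
    · rcases long_two hq hK h2 rfl a with rfl | rfl
      · rw [hF.L_zero]; exact hcomm1 (Commute.one_left _)
      rcases long_two hq hK h2 rfl b with rfl | rfl
      · rw [hF.L_zero]; exact hcomm1 (Commute.one_right _)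
      rw [h14]
      exact hF.mem_span (k := 5) (i := 5) (by decide) 1
    · exact hcomm1 (centre_one hq hK hc hs h2 ⟨b, hF.lift 5 b⟩ ⟨a, hF.lift 1 a⟩).symm
    · exact hcomm1 (centre_four hq hK hc hs h2 ⟨b, hF.lift 5 b⟩ ⟨a, hF.lift 4 a⟩).symm

end Cfsg.Agent.CentralExt.D4M
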