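import Cfsg.Agent.CentralExt.D4Hom
import Cfsg.Agent.ChevTw.TwD4Thms

/-!
# ³D₄(q): the multiplier has order prime to every r different from the characteristic
-/

set_option autoImplicit false
set_option linter.unusedSectionVars false

namespace Cfsg.Agent.CentralExt.D4M

open Cfsg.Lie Cfsg.Agent.ChevGrp Cfsg.Agent.ChevTw Cfsg.Agent.CTits Cfsg.Agent.D4Deg
open Cfsg.Agent.CentralExt.BNLift
open scoped MatrixGroups

variable {K : Type*} [Field K] [Fintype K] {q : ℕ} (hq : IsPrimePow q) (hK : Fintype.card K = q ^ 3)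

local notation "σ" => frobD4 hq hK
local notation "GK" => GL chevD4.Idx K
set_option quotPrecheck false
local notation "GT" => ↥(twistedD4 K q)
local notation "SS" => glSys (rulesD4 K)

/-- The long homomorphism into the group. -/
noncomputable def phiT : SL(2, ↥(Fx σ)) →* GT := (phiL hq hK).codRestrict _ (orbHom_phi hq hK).mem_Tw

/-- The short homomorphism into the group. -/
noncomputable def psiT : SL(2, K) →* GT := (psiS hq hK).codRestrict _ (orbHom_psi hq hK).mem_Tw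

theorem gen_phi_psi : (phiT hq hK).range ⊔ (psiT hq hK).range = ⊤ := by
  refine Subgroup.map_injective (f := (twistedD4 K q).subtype) Subtype.val_injective ?_
  rw [Subgroup.map_sup, MonoidHom.map_range, MonoidHom.map_range, ← MonoidHom.range_eq_map, Subgroup.range_subtype]
  refine le_antisymm (sup_le ?_ ?_) ?_
  · rintro _ ⟨y, rfl⟩; exact (orbHom_phi hq hK).mem_Tw y
  · rintro _ ⟨y, rfl⟩; exact (orbHom_psi hq hK).mem_Tw y
  · conv_lhs => rw [genD4 hq hK]
    rw [Subgroup.closure_le]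
    rintro g ⟨J, hg⟩
    fin_cases J
    · rcases hg with hg | hg
      · obtain ⟨t, rfl⟩ := ((orbHom_phi hq hK).pos g).1 hg
        exact Subgroup.mem_sup_left ⟨_, rfl⟩
      · obtain ⟨t, rfl⟩ := ((orbHom_phi hq hK).neg g).1 hg
        exact Subgroup.mem_sup_left ⟨_, rfl⟩
    · rcases hg with hg | hg
      · obtain ⟨t, rfl⟩ := ((orbHom_psi hq hK).pos g).1 hg
        exact Subgroup.mem_sup_right ⟨_, rfl⟩
      · obtain ⟨t, rfl⟩ := ((orbHom_psi hq hK).neg g).1 hg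
        exact Subgroup.mem_sup_right ⟨_, rfl⟩

/-- The positive unipotent subgroup. -/
noncomputable def UT : Subgroup GT := (Sys.Ubar SS ⊓ twistedD4 K q).subgroupOf (twistedD4 K q)

theorem mem_UT {g : GT} : g ∈ (UT (K := K) (q := q)) ↔ (g : GK) ∈ Sys.Ubar SS ⊓ twistedD4 K q :=
  Subgroup.mem_subgroupOf

include hq hK in
theorem isPGroup_UT {p : ℕ} (hp : p.Prime) (hqp : ∃ f, q = p ^ f) : IsPGroup p (UT (K := K) (q := q)) := by
  obtain ⟨f, rfl⟩ := hqp
  refine IsPGroup.of_card (n := f * 12) ?_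
  rw [UT, Nat.card_congr (Subgroup.subgroupOfEquivOfLe inf_le_right).toEquiv, pow_mul, ← thm_S1088 hq hK,
    posUnipotent_eq (rulesD4 K)]

theorem monoT_le (n : GT) (hn : n ∈ mono (phiT hq hK) (psiT hq hK)) :
    (n : GK) ∈ Sys.Nbar SS ⊓ twistedD4 K q := by
  refine Subgroup.mem_inf.2 ⟨?_, n.2⟩
  suffices h : mono (phiT hq hK) (psiT hq hK) ≤ (Sys.Nbar SS).comap (twistedD4 K q).subtype from h hn
  refine sup_le ?_ (sup_le ?_ ?_)
  · rw [Subgroup.closure_le]
    rintro x (rfl | rfl)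
    · exact (orbHom_phi hq hK).wm_conjP.2
    · exact (orbHom_psi hq hK).wm_conjP.2
  · rintro _ ⟨a, rfl⟩
    exact Sys.Hbar_le_Nbar SS ((orbHom_phi hq hK).dg_mem a)
  · rintro _ ⟨a, rfl⟩
    exact Sys.Hbar_le_Nbar SS ((orbHom_psi hq hK).dg_mem a)

theorem torus_of_Hbar (n : GT) (hn : (n : GK) ∈ Sys.Hbar SS) : n ∈ torus (phiT hq hK) (psiT hq hK) := by
  have hR := (rulesD4 K).root.choose_spec
  rw [← (SS).tau_range (rulesD4 K) hR (glSys_HMul (rulesD4 K) hR)] at hn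
  obtain ⟨c, hc⟩ := hn
  have hfix := (grpD4 hq hK).fixed n.2
  rw [← hc, sig_tau (twistD4 hq hK) (rulesD4 K) hR (glSys_HMul (rulesD4 K) hR) pD4 pD4_iff q
    (by have := hq.one_lt; omega) (by rw [← frobD4_apply hq hK, map_neg, map_one])
    (fun i t => twistD4_f hq hK (twistD4_f_simple i) t)] at hfix
  have hker : ∀ d, tauD d = (1 : GK) ↔ d ∈ rootKer chevD4 K := fun d =>
    (SS).θ_tau_eq_one_iff (rulesD4 K) hR (glSys_HMul (rulesD4 K) hR) d
  have hz : c⁻¹ * torusMap K pD4 q c ∈ rootKer chevD4 K := by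
    rw [← hker, tauD, map_mul, map_inv, inv_mul_eq_one]
    exact hfix.symm
  obtain ⟨y, hy, hcy⟩ := exists_fixed_adjustD4 hq hK c _ hz (by simp)
  obtain ⟨-, h1, h2, h3⟩ := (mem_mkD4_iff _).1 hcy
  set d := c * y
  have hu : σ ((d ⟨1, by decide⟩ : Kˣ) : K) = (d ⟨1, by decide⟩ : Kˣ) := by
    rw [frobD4_apply, ← Units.val_pow_eq_pow_val, h1]
  let u : (↥(Fx σ))ˣ := Units.mk0 ⟨_, hu⟩ (fun e => Units.ne_zero (d ⟨1, by decide⟩) (congrArg Subtype.val e))
  have e : n = phiT hq hK (dg u) * psiT hq hK (dg (d ⟨0, by decide⟩)) := by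
    refine Subtype.ext ?_
    show (n : GK) = phiL hq hK (dg u) * psiS hq hK (dg _)
    rw [dg_prod, ← hc]
    have : tauD (K := K) d = tauD c := by rw [map_mul, (hker y).2 hy, mul_one]
    refine this.symm.trans (congrArg _ ?_)
    funext j; revert j; rw [forallD4]
    simp [mkD4, u, h2, h3, Units.ext_iff]
  rw [e]
  exact mul_mem (dg_mem_torus _ _ _) (dg_mem_torus' _ _ _)

/-- The words in the two representatives. -/
def wk (k e : ℕ) : List (Fin chevD4.rank) :=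
  (List.replicate k (twD4.wJ chevD4 J0 ++ twD4.wJ chevD4 J1)).flatten ++ (List.replicate e (twD4.wJ chevD4 J0)).flatten

theorem dataWords : (∀ k < 6, ∀ e < 2, (k = 0 ∧ e = 0) ∨ ∃ r < chevD4.nroots, act chevD4 (wk k e) r ≠ r) ∧
    (∀ r ∈ [14, 9], act chevD4 (twD4.wJ chevD4 J1 ++ twD4.wJ chevD4 J0 ++ twD4.wJ chevD4 J1 ++ twD4.wJ chevD4 J0 ++
      twD4.wJ chevD4 J1) r = r) := by
  decide +kernel

theorem conjP_pow {g : GK} {w : List (Fin chevD4.rank)} (h : Sys.ConjP SS g w) :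
    ∀ n : ℕ, Sys.ConjP SS (g ^ n) (List.replicate n w).flatten
  | 0 => by simpa using Sys.conjP_one SS
  | n + 1 => by
    rw [pow_succ', List.replicate_succ, List.flatten_cons]
    exact h.mul (rulesD4 K).root.choose_spec (conjP_pow h n)

theorem act_eq_of_Hbar {g : GK} {w : List (Fin chevD4.rank)} (h : Sys.ConjP SS g w) (hg : g ∈ Sys.Hbar SS)
    {r : ℕ} (hr : r < chevD4.nroots) : act chevD4 w r = r := by
  have hR := (rulesD4 K).root.choose_spec
  obtain ⟨a, ha, hga⟩ := h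
  obtain ⟨b, -, hgb⟩ := Sys.conjP_Hbar SS (rulesD4 K) hR hg
  have e := (hgb r hr 1).symm.trans (hga r hr 1)
  rw [act_nil, mul_one, mul_one] at e
  exact (SS).x_root_inj hR (hR.act_lt w hr) hr (right_ne_zero_of_mul_eq_one (ha r hr)) e.symm

set_option maxHeartbeats 1600000 in
theorem frameT {p : ℕ} (hp : p.Prime) (hqp : ∃ f, q = p ^ f) :
    Frame (p := p) (phiT hq hK) (psiT hq hK) (UT (K := K) (q := q)) := by
  have hR := (rulesD4 K).root.choose_spec
  have hf := orbHom_phi hq hK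
  have hg := orbHom_psi hq hK
  have hnorm : ∀ h ∈ Sys.Hbar SS, ∀ u : GT, u ∈ (UT (K := K) (q := q)) → ∀ k : GT, (k : GK) = h →
      k * u * k⁻¹ ∈ (UT (K := K) (q := q)) := by
    intro h hh u hu k hk
    refine mem_UT.2 (Subgroup.mem_inf.2 ⟨?_, (k * u * k⁻¹).2⟩)
    show (k : GK) * u * (k : GK)⁻¹ ∈ _
    rw [hk]
    exact (Subgroup.mem_normalizer_iff.1 (Sys.Hbar_le_normalizer_Ubar SS (rulesD4 K) hR hh) _).1
      (Subgroup.mem_inf.1 (mem_UT.1 hu)).1
  obtain ⟨a1, a2, a3, a4⟩ := side_core hq hK hf hg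
  obtain ⟨b1, b2, b3, b4⟩ := side_core hq hK hg hf
  set g5 : GK := psiS hq hK (wm 1) * phiL hq hK (wm 1) * psiS hq hK (wm 1) * phiL hq hK (wm 1) * psiS hq hK (wm 1)
    with hg5
  have hg5c : Sys.ConjP SS g5 (twD4.wJ chevD4 J1 ++ twD4.wJ chevD4 J0 ++ twD4.wJ chevD4 J1 ++ twD4.wJ chevD4 J0 ++
      twD4.wJ chevD4 J1) := ((((hg.wm_conjP.1).mul hR hf.wm_conjP.1).mul hR hg.wm_conjP.1).mul hR
    hf.wm_conjP.1).mul hR hg.wm_conjP.1
  have hg5T : g5 ∈ twistedD4 K q :=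
    mul_mem (mul_mem (mul_mem (mul_mem (hg.mem_Tw _) (hf.mem_Tw _)) (hg.mem_Tw _)) (hf.mem_Tw _)) (hg.mem_Tw _)
  have ep := twD4_ok.enum_posJ (T := twistD4 hq hK) (fun _ => rfl) rfl J0
  have en := twD4_ok.enum_negJ (T := twistD4 hq hK) (fun _ => rfl) rfl hR J0
  refine
    { left := ⟨?_, ?_, ?_, ?_, ?_, ?_, ?_⟩
      right := ⟨?_, ?_, ?_, ?_, ?_, ?_, ?_⟩
      pgroup := isPGroup_UT hq hK hp hqp
      gen := gen_phi_psi hq hK
      tcomm := ?_, tinj := ?_, borel := ?_, braid_up := ?_, braid_lo := ?_, words := ?_ }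
  · exact fun a b e => hf.injective (congrArg Subtype.val e)
  · exact fun t => mem_UT.2 (Subgroup.mem_inf.2 ⟨hf.up_Ubar t, hf.up_Tw t⟩)
  · exact fun b t => (a1 b t).imp fun _ h => Subtype.ext h
  · exact fun b t => (a2 b t).imp fun _ h => Subtype.ext h
  · exact fun a u hu => hnorm _ (hf.dg_mem a) u hu _ rfl
  · exact fun u hu => (a3 u (mem_UT.1 hu)).imp fun _ h => mem_UT.2 h
  · exact fun n hn => (a4 n (monoT_le hq hK n hn)).imp (fun h t => mem_UT.2 (h t)) fun h t => mem_UT.2 (h t)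
  · exact fun a b e => hg.injective (congrArg Subtype.val e)
  · exact fun t => mem_UT.2 (Subgroup.mem_inf.2 ⟨hg.up_Ubar t, hg.up_Tw t⟩)
  · exact fun b t => (b1 b t).imp fun _ h => Subtype.ext h
  · exact fun b t => (b2 b t).imp fun _ h => Subtype.ext h
  · exact fun a u hu => hnorm _ (hg.dg_mem a) u hu _ rfl
  · exact fun u hu => (b3 u (mem_UT.1 hu)).imp fun _ h => mem_UT.2 h
  · exact fun n hn => (b4 n (monoT_le hq hK n (by rwa [mono_comm] at hn))).imp
      (fun h t => mem_UT.2 (h t)) fun h t => mem_UT.2 (h t)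
  · exact fun a b => Subtype.ext (Sys.Hbar_comm SS (rulesD4 K) hR (glSys_HMul (rulesD4 K) hR) _ (hf.dg_mem a) _
      (hg.dg_mem b))
  · exact fun a b e => dg_prod_inj hq hK a b (congrArg Subtype.val e)
  · intro n hn hn'
    refine torus_of_Hbar hq hK n ?_
    have hle : (UT (K := K) (q := q)) ⊔ torus (phiT hq hK) (psiT hq hK) ≤
        (Sys.Bbar SS).comap (twistedD4 K q).subtype := by
      refine sup_le (fun x hx => Sys.Ubar_le_Bbar SS (Subgroup.mem_inf.1 (mem_UT.1 hx)).1) (sup_le ?_ ?_)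
      · rintro _ ⟨a, rfl⟩; exact Sys.Hbar_le_Bbar SS (hf.dg_mem a)
      · rintro _ ⟨a, rfl⟩; exact Sys.Hbar_le_Bbar SS (hg.dg_mem a)
    rw [← Sys.Bbar_inf_Nbar SS (rulesD4 K) hR]
    exact Subgroup.mem_inf.2 ⟨hle hn', (Subgroup.mem_inf.1 (monoT_le hq hK n hn)).1⟩
  · intro t
    have h := TwGroup.conj_neg_fix (grpD4 hq hK) hg5T hg5c (orbD4 hq hK).posJ_lt
      (B := (orbD4 hq hK).posJ J0) (fun r hr => ?_) ((hf.pos _).2 ⟨t, rfl⟩)
    · exact ((hf.pos _).1 h).imp fun _ h => Subtype.ext h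
    · have hr' := (ep.2 r).2 hr
      have : act chevD4 (twD4.wJ chevD4 J1 ++ twD4.wJ chevD4 J0 ++ twD4.wJ chevD4 J1 ++ twD4.wJ chevD4 J0 ++
          twD4.wJ chevD4 J1) r = r := dataWords.2 r (by revert hr'; simp [TwData.posList, twD4]; tauto)
      rw [this]
      exact hr
  · intro t
    have h := TwGroup.conj_neg_fix (grpD4 hq hK) hg5T hg5c (orbD4 hq hK).negJ_lt
      (B := (orbD4 hq hK).negJ J0) (fun r hr => ?_) ((hf.neg _).2 ⟨t, rfl⟩)
    · exact ((hf.neg _).1 h).imp fun _ h => Subtype.ext h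
    · have hr' := (en.2 r).2 hr
      have : act chevD4 (twD4.wJ chevD4 J1 ++ twD4.wJ chevD4 J0 ++ twD4.wJ chevD4 J1 ++ twD4.wJ chevD4 J0 ++
          twD4.wJ chevD4 J1) r = r := dataWords.2 r (by
        rcases List.mem_map.1 hr' with ⟨r0, h0, rfl⟩
        revert h0; simp [TwData.posList, twD4]
        rintro rfl; simp [negD4.1])
      rw [this]
      exact hr
  · intro k hk e he h
    have hc : Sys.ConjP SS ((phiL hq hK (wm 1) * psiS hq hK (wm 1)) ^ k * phiL hq hK (wm 1) ^ e) (wk k e) :=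
      (conjP_pow (hf.wm_conjP.1.mul hR hg.wm_conjP.1) k).mul hR (conjP_pow hf.wm_conjP.1 e)
    have hle : torus (phiT hq hK) (psiT hq hK) ≤ (Sys.Hbar SS).comap (twistedD4 K q).subtype := by
      refine sup_le ?_ ?_
      · rintro _ ⟨a, rfl⟩; exact hf.dg_mem a
      · rintro _ ⟨a, rfl⟩; exact hg.dg_mem a
    have hH : ((phiL hq hK (wm 1) * psiS hq hK (wm 1)) ^ k * phiL hq hK (wm 1) ^ e) ∈ Sys.Hbar SS := hle h
    rcases dataWords.1 k hk e he with h0 | ⟨r, hr, hne⟩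
    · exact h0
    · exact absurd (act_eq_of_Hbar hc hH hr) hne

include hq hK in
theorem ker_eq_bot_of_ne {p r : ℕ} [Fact p.Prime] [Fact r.Prime] (hne : p ≠ r) (hqp : ∃ f, q = p ^ f)
    {E : Type*} [Group E] [Finite E] (s : E →* GT) (hs : IsStemExtension s) (hk : IsPGroup r s.ker) :
    s.ker = ⊥ := by
  have : CharP K p := by
    obtain ⟨f, hf⟩ := hqp
    exact charP_of_card_eq_prime_pow (f := f * 3) (by rw [hK, hf, ← pow_mul])
  have : Finite ↥(Fx σ) := inferInstance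
  have : CharP ↥(Fx σ) p := (Subfield.subtype (Fx σ)).charP Subtype.val_injective p
  exact BNLift.ker_eq_bot hne hs hk (frameT hq hK Fact.out hqp)

end Cfsg.Agent.CentralExt.D4M
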