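import Cfsg.Agent.CentralExt.RootEmbed
import Cfsg.Prelude.Def_ChevE6
import Cfsg.Prelude.Def_ChevE7

/-! # The embedding of E6 into E7 and the kernel of the fundamental roots -/

set_option autoImplicit false

namespace Cfsg.Agent.CentralExt.Embed

open Cfsg.Lie

/-- The root indices of E6 inside E7. -/
def iotaE6 : List ℕ := [6, 10, 13, 15, 16, 19, 21, 22, 24, 25, 26, 28, 29, 30, 31, 32, 35, 37, 38, 40, 41, 42, 44, 45, 46, 47, 49, 50, 51, 52, 54, 55, 56, 58, 59, 61, 64, 66, 67, 69, 70, 71, 73, 74, 75, 76, 78, 79, 80, 81, 83, 84, 85, 87, 88, 90, 93, 94, 95, 96, 97, 99, 100, 101, 103, 104, 106, 109, 110, 112, 115, 119]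

/-- The fundamental roots of E6 inside E7. -/
def sigmaE6 (i : Fin chevE6.rank) : Fin chevE7.rank :=
  ⟨i.val, lt_trans (show i.val < 6 from i.isLt) (show 6 < chevE7.rank by decide)⟩

set_option maxHeartbeats 0 in
set_option maxRecDepth 100000 in
theorem embedOK_E6 : EmbedOK chevE6 chevE7 (fun r => iotaE6.getD r 0) sigmaE6 where
  lt := by decide +kernel
  comm := by decide +kernel
  simple := by decide +kernel

theorem leftInverse_E6 : ∃ M : Fin chevE7.rank → Fin chevE6.rank → ℤ,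
    ∀ i j : Fin chevE6.rank, ∑ k : Fin chevE7.rank,
      chevE7.cartan (sigmaE6 j) (chevE7.simple k) * M k i = if j = i then 1 else 0 :=
  ⟨(![![0, -1, 1, 0, 0, 0],
    ![-1, -1, 1, 0, 0, 0],
    ![-1, -2, 2, 0, 0, 0],
    ![-2, -3, 2, 0, 0, 0],
    ![-2, -3, 1, -1, 0, 0],
    ![-2, -3, 0, -2, -1, 0],
    ![-2, -3, -1, -3, -2, -1]] : Fin _ → Fin _ → ℤ), by decide +kernel⟩

theorem kerCert_E6 : KerCert chevE6 3 ⟨4, by decide⟩ (![1, 0, 2, 0, 1, 2] : Fin _ → ℤ) where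
  v_i₀ := by decide +kernel
  solve := ⟨(![![0, 1, -1, 2, 0, -2],
    ![-1, 2, -2, 3, 0, -3],
    ![-1, 2, -2, 4, 0, -4],
    ![-2, 3, -4, 6, 0, -6],
    ![-2, 2, -4, 4, 0, -5],
    ![-1, 1, -2, 2, 0, -2]] : Fin _ → Fin _ → ℤ), by decide +kernel⟩
  bound := ⟨(![4, 6, 8, 12, 10, 5] : Fin _ → ℤ), by decide +kernel⟩
  mem := by decide +kernel

end Cfsg.Agent.CentralExt.Embed
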