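import Cfsg.Agent.CentralExt.RootEmbed
import Cfsg.Prelude.Def_ChevE7
import Cfsg.Prelude.Def_ChevE8

/-! # The embedding of E7 into E8 and the kernel of the fundamental roots -/

set_option autoImplicit false

namespace Cfsg.Agent.CentralExt.Embed

open Cfsg.Lie

/-- The root indices of E7 inside E8. -/
def iotaE7 : List ℕ := [13, 20, 25, 29, 32, 34, 35, 39, 42, 44, 45, 48, 50, 51, 53, 54, 55, 58, 60, 61, 63, 64, 65, 67, 68, 69, 70, 72, 73, 74, 75, 76, 77, 80, 82, 83, 85, 86, 87, 89, 90, 91, 92, 94, 95, 96, 97, 98, 100, 101, 102, 103, 104, 106, 107, 108, 109, 111, 112, 113, 115, 116, 118, 121, 123, 124, 126, 127, 128, 130, 131, 132, 133, 135, 136, 137, 138, 139, 141, 142, 143, 144, 145, 147, 148, 149, 150, 152, 153, 154, 156, 157, 159, 162, 163, 164, 165, 166, 167, 169, 170, 171, 172, 174, 175, 176, 178, 179, 181, 184, 185, 186, 188, 189, 191, 194, 195, 197, 200, 204, 205, 207, 210, 214, 219, 226]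

/-- The fundamental roots of E7 inside E8. -/
def sigmaE7 (i : Fin chevE7.rank) : Fin chevE8.rank :=
  ⟨i.val, lt_trans (show i.val < 7 from i.isLt) (show 7 < chevE8.rank by decide)⟩

set_option maxHeartbeats 0 in
set_option maxRecDepth 100000 in
theorem embedOK_E7 : EmbedOK chevE7 chevE8 (fun r => iotaE7.getD r 0) sigmaE7 where
  lt := by decide +kernel
  comm := by decide +kernel
  simple := by decide +kernel

theorem leftInverse_E7 : ∃ M : Fin chevE8.rank → Fin chevE7.rank → ℤ,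
    ∀ i j : Fin chevE7.rank, ∑ k : Fin chevE8.rank,
      chevE8.cartan (sigmaE7 j) (chevE8.simple k) * M k i = if j = i then 1 else 0 :=
  ⟨(![![0, -1, -1, 0, 0, 0, 0],
    ![-1, -1, -2, 0, 0, 0, 0],
    ![-1, -2, -2, 0, 0, 0, 0],
    ![-2, -3, -4, 0, 0, 0, 0],
    ![-2, -3, -4, -1, 0, 0, 0],
    ![-2, -3, -4, -2, -1, 0, 0],
    ![-2, -3, -4, -3, -2, -1, 0],
    ![-2, -3, -4, -4, -3, -2, -1]] : Fin _ → Fin _ → ℤ), by decide +kernel⟩

theorem kerCert_E7 : KerCert chevE7 2 ⟨6, by decide⟩ (![0, 1, 0, 0, 1, 0, 1] : Fin _ → ℤ) where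
  v_i₀ := by decide +kernel
  solve := ⟨(![![2, 1, 3, 4, 2, 2, 0],
    ![2, 2, 4, 6, 3, 3, 0],
    ![3, 2, 6, 8, 4, 4, 0],
    ![4, 3, 8, 12, 6, 6, 0],
    ![3, 2, 6, 9, 5, 5, 0],
    ![2, 1, 4, 6, 3, 4, 0],
    ![1, 0, 2, 3, 1, 2, 0]] : Fin _ → Fin _ → ℤ), by decide +kernel⟩
  bound := ⟨(![2, 3, 4, 6, 5, 4, 3] : Fin _ → ℤ), by decide +kernel⟩
  mem := by decide +kernel

end Cfsg.Agent.CentralExt.Embed
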