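import Cfsg.Agent.CentralExt.SimplyLaced
import Cfsg.Prelude.Def_ChevE7

/-! # The certificate `LacedOK` for type E7 -/

set_option autoImplicit false

namespace Cfsg.Agent.CentralExt.Laced

open Cfsg.Lie

set_option maxHeartbeats 0 in
set_option maxRecDepth 100000 in
theorem lacedOK_E7 : LacedOK chevE7 where
  r0_lt := by decide +kernel
  rows := by decide +kernel
  split := by decide +kernel
  conn := by decide +kernel
  self := by decide +kernel
  toSimple := by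
    intro i
    fin_cases i
    · exact ⟨[], by decide +kernel⟩
    · exact ⟨[⟨3, by decide⟩, ⟨1, by decide⟩, ⟨2, by decide⟩, ⟨3, by decide⟩, ⟨0, by decide⟩, ⟨2, by decide⟩], by decide +kernel⟩
    · exact ⟨[⟨0, by decide⟩, ⟨2, by decide⟩], by decide +kernel⟩
    · exact ⟨[⟨2, by decide⟩, ⟨3, by decide⟩, ⟨0, by decide⟩, ⟨2, by decide⟩], by decide +kernel⟩
    · exact ⟨[⟨3, by decide⟩, ⟨4, by decide⟩, ⟨2, by decide⟩, ⟨3, by decide⟩, ⟨0, by decide⟩, ⟨2, by decide⟩], by decide +kernel⟩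
    · exact ⟨[⟨4, by decide⟩, ⟨5, by decide⟩, ⟨3, by decide⟩, ⟨4, by decide⟩, ⟨2, by decide⟩, ⟨3, by decide⟩, ⟨0, by decide⟩, ⟨2, by decide⟩], by decide +kernel⟩
    · exact ⟨[⟨5, by decide⟩, ⟨6, by decide⟩, ⟨4, by decide⟩, ⟨5, by decide⟩, ⟨3, by decide⟩, ⟨4, by decide⟩, ⟨2, by decide⟩, ⟨3, by decide⟩, ⟨0, by decide⟩, ⟨2, by decide⟩], by decide +kernel⟩

end Cfsg.Agent.CentralExt.Laced
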