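import Cfsg.Agent.CentralExt.SimplyLaced

/-!
# Steinberg's relations lift to central extensions, simply-laced case

If `G` has root elements satisfying (R1) and (R2) for a datum with certificate `LacedOK`, then in every
central extension `π : E →* G` there are preimages of the root elements satisfying (R1) and (R2).
-/

set_option autoImplicit false
set_option linter.unusedSectionVars false

namespace Cfsg.Agent.CentralExt.Laced

open Cfsg.Lie Cfsg.Agent.ChevGrp
open scoped commutatorElement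

variable {D : ChevalleyDatum} {F : Type*} [Field F] {G : Type*} [Group G] {S : Sys D F G}
variable {len : ℕ → ℕ} {E : Type*} [Group E] {π : E →* G}

/-- The coefficient in the commutator formula of a pair of roots with one root in its span. -/
def cc (D : ChevalleyDatum) (F : Type*) [Field F] (p : ℕ × ℕ) : F :=
  ((((D.commTerms p.1 p.2).head?).map fun c => c.2.1).getD 0 : ℤ)

theorem cc_eq {p : ℕ × ℕ} {k : ℕ} {C : ℤ} (h : D.commTerms p.1 p.2 = [(k, C, 1, 1)]) :
    cc D F p = (C : F) := by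
  simp [cc, h]

variable (S) in
/-- The commutator of lifts of `x_c(t)` and `x_d(u)`. -/
noncomputable def pr (hπ : Function.Surjective π) (p : ℕ × ℕ) (t u : F) : E :=
  ⁅Function.surjInv hπ (S.x p.1 t), Function.surjInv hπ (S.x p.2 u)⁆

variable (S) in
/-- The lift of the base root element. -/
noncomputable def x₀ (hπ : Function.Surjective π) (v : F) : E :=
  pr S hπ (base D) (cc D F (base D) * v) 1

variable (S) in
/-- All commutators of lifts attached to the decomposition `p` are the lift of the base root element. -/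
def Cons (hπ : Function.Surjective π) (p : ℕ × ℕ) : Prop :=
  ∀ t u : F, pr S hπ p t u = x₀ S hπ (cc D F p * t * u)

theorem π_surjInv (hπ : Function.Surjective π) (g : G) : π (Function.surjInv hπ g) = g :=
  Function.surjInv_eq hπ g

section Dec

variable (hR : RootTable D len) (hL : LacedOK D)
include hR hL

theorem wf_data {p : ℕ × ℕ} (h : wf D p = true) :
    p.1 < D.nroots ∧ p.2 < D.nroots ∧ cm D (r0 D) p.1 = true ∧ cm D (r0 D) p.2 = true ∧
      p.2 ≠ p.1 ∧ p.2 ≠ D.neg p.1 ∧ ∃ C : ℤ, (C = 1 ∨ C = -1) ∧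
        D.commTerms p.1 p.2 = [(r0 D, C, 1, 1)] ∧ cc D F p = (C : F) := by
  simp only [wf, Bool.and_eq_true, decide_eq_true_eq] at h
  obtain ⟨⟨⟨⟨h1, h2⟩, h3⟩, h4⟩, h5⟩ := h
  obtain ⟨a, b, C, hC, hterm⟩ := commTerms_of_sum1 hL h1 h2 h3
  exact ⟨h1, h2, h4, h5, a, b, C, hC, hterm, cc_eq hterm⟩

theorem cc_mul_self {p : ℕ × ℕ} (h : wf D p = true) : cc D F p * cc D F p = 1 := by
  obtain ⟨-, -, -, -, -, -, C, hC, -, hcc⟩ := wf_data (F := F) hR hL h
  rw [hcc, cast_unit_mul_self hC]

theorem π_pr (hπ : Function.Surjective π) {p : ℕ × ℕ} (h : wf D p = true) (t u : F) :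
    π (pr S hπ p t u) = S.x (r0 D) (cc D F p * t * u) := by
  obtain ⟨h1, h2, -, -, h3, h4, C, -, hterm, hcc⟩ := wf_data (F := F) hR hL h
  rw [pr, map_commutatorElement, π_surjInv, π_surjInv, hcc,
    x_commutator_of_single S h1 h2 hL.r0_lt h3 h4 hterm]

theorem base_wf : wf D (base D) = true := by
  have := hL.conn
  simp only [connOK, Bool.and_eq_true] at this
  exact this.1.1.2

theorem π_x₀ (hπ : Function.Surjective π) (v : F) : π (x₀ S hπ v) = S.x (r0 D) v := by
  rw [x₀, π_pr hR hL hπ (base_wf hR hL), mul_one, ← mul_assoc, cc_mul_self hR hL (base_wf hR hL),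
    one_mul]

variable (hS : Rules D F) (hc : IsCentralMap π)
include hS hc

theorem base_lifts_commute (hπ : Function.Surjective π) {v w : F} {x y : E}
    (hx : π x = S.x (r0 D) v) (hy : π y = S.x (r0 D) w) : Commute x y :=
  lifts_commute hS hR hL hc hπ hL.r0_lt hL.r0_lt (hR.neg_ne hL.r0_lt).symm
    (by rw [commTerms_eq hL hL.r0_lt hL.r0_lt, hL.self]; rfl) hx hy

theorem pr_add (hπ : Function.Surjective π) {p : ℕ × ℕ} (h : wf D p = true) (t t' u : F) :
    pr S hπ p (t + t') u = pr S hπ p t u * pr S hπ p t' u := by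
  obtain ⟨h1, -, h4, -⟩ := wf_data (F := F) hR hL h
  set a := Function.surjInv hπ (S.x p.1 t)
  set a' := Function.surjInv hπ (S.x p.1 t')
  set b := Function.surjInv hπ (S.x p.2 u)
  have e : pr S hπ p (t + t') u = ⁅a * a', b⁆ := lift_comm_eq hc
    (by rw [map_mul, π_surjInv, π_surjInv, π_surjInv, S.x_add _ h1]) rfl
  have e2 : ⁅a * a', b⁆ = a * ⁅a', b⁆ * a⁻¹ * ⁅a, b⁆ := by
    simp only [commutatorElement_def]; group
  have hca : Commute ⁅a', b⁆ a :=
    commute_r0 hR hL hc hπ h1 h4 (π_pr hR hL hπ h t' u) (π_surjInv hπ _)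
  rw [e, e2, ← hca.eq, mul_inv_cancel_right]
  exact (base_lifts_commute hR hL hS hc hπ (π_pr hR hL hπ h t' u) (π_pr hR hL hπ h t u)).eq

theorem x₀_add (hπ : Function.Surjective π) (v w : F) :
    x₀ S hπ (v + w) = x₀ S hπ v * x₀ S hπ w := by
  rw [x₀, mul_add, pr_add hR hL hS hc hπ (base_wf hR hL)]
  rfl

theorem x₀_neg (hπ : Function.Surjective π) (v : F) : x₀ S hπ (-v) = (x₀ S hπ v)⁻¹ := by
  have h0 : x₀ S hπ 0 = 1 := by
    have := x₀_add hR hL hS hc hπ (S := S) (0 : F) 0
    rw [add_zero] at this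
    exact mul_eq_left.1 this.symm
  rw [eq_inv_iff_mul_eq_one, ← x₀_add hR hL hS hc hπ, neg_add_cancel, h0]

/-- Linked decompositions give the same commutators. -/
theorem pr_link (hπ : Function.Surjective π) {p q : ℕ × ℕ} (hp : wf D p = true) (hq : wf D q = true)
    (hl : link D p q = true) :
    ∃ C₁ C₂ : F, C₁ * C₁ = 1 ∧ C₂ * C₂ = 1 ∧ cc D F p * C₁ = cc D F q * C₂ ∧
      ∀ t s u : F, pr S hπ p (C₁ * t * s) u = pr S hπ q t (C₂ * s * u) := by
  obtain ⟨hp1, hp2, -, -, -, -, Cp, -, -, hcp⟩ := wf_data (F := F) hR hL hp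
  obtain ⟨hq1, hq2, -, hq5, -, -, Cq, -, -, hcq⟩ := wf_data (F := F) hR hL hq
  simp only [link, Bool.and_eq_true, decide_eq_true_eq] at hl
  obtain ⟨⟨⟨⟨he, hs1⟩, hs2⟩, hm1⟩, hm2⟩ := hl
  set e := hd D (D.neg q.1) p.1
  obtain ⟨a1, a2, C₁, hC₁, ht1⟩ := commTerms_of_sum1 hL hq1 he hs1
  obtain ⟨b1, b2, C₂, hC₂, ht2⟩ := commTerms_of_sum1 hL he hp2 hs2
  obtain ⟨m1, n1⟩ := commTerms_of_cm hL hq1 hp2 hm1
  obtain ⟨m2, n2⟩ := commTerms_of_cm hL hp1 hq2 hm2
  have key : ∀ t s u : F,
      pr S hπ p ((C₁ : F) * t * s) u = pr S hπ q t ((C₂ : F) * s * u) := by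
    intro t s u
    set A := Function.surjInv hπ (S.x q.1 t)
    set M := Function.surjInv hπ (S.x e s)
    set B := Function.surjInv hπ (S.x p.2 u)
    have hP : π ⁅A, M⁆ = S.x p.1 ((C₁ : F) * t * s) := by
      rw [map_commutatorElement, π_surjInv, π_surjInv,
        x_commutator_of_single S hq1 he hp1 a1 a2 ht1]
    have hQ : π ⁅M, B⁆ = S.x q.2 ((C₂ : F) * s * u) := by
      rw [map_commutatorElement, π_surjInv, π_surjInv,
        x_commutator_of_single S he hp2 hq2 b1 b2 ht2]
    have e1 : pr S hπ p ((C₁ : F) * t * s) u = ⁅⁅A, M⁆, B⁆ :=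
      lift_comm_eq hc (by rw [π_surjInv, hP]) rfl
    have e2 : pr S hπ q t ((C₂ : F) * s * u) = ⁅A, ⁅M, B⁆⁆ :=
      lift_comm_eq hc rfl (by rw [π_surjInv, hQ])
    rw [e1, e2]
    refine hall_witt (lifts_commute hS hR hL hc hπ hq1 hp2 m1 n1 (π_surjInv hπ _) (π_surjInv hπ _))
      (lifts_commute hS hR hL hc hπ hp1 hq2 m2 n2 hP hQ) ?_
    have hAQ : π ⁅A, ⁅M, B⁆⁆ = S.x (r0 D) (cc D F q * t * ((C₂ : F) * s * u)) := by
      rw [← e2, π_pr hR hL hπ hq]
    exact commute_r0 hR hL hc hπ hq2 hq5 hAQ hQ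
  refine ⟨C₁, C₂, cast_unit_mul_self hC₁, cast_unit_mul_self hC₂, ?_, key⟩
  have := congrArg π (key 1 1 1)
  rw [π_pr hR hL hπ hp, π_pr hR hL hπ hq] at this
  simpa using x_inj S hR hL.r0_lt this

theorem cons_base (hπ : Function.Surjective π) : Cons S hπ (base D) := by
  have hconn := hL.conn
  simp only [connOK, Bool.and_eq_true, List.all_eq_true, List.any_eq_true] at hconn
  obtain ⟨⟨⟨hall, hb⟩, q, hq, hl⟩, -⟩ := hconn
  obtain ⟨C₁, C₂, h1, -, -, key⟩ := pr_link hR hL hS hc hπ hb (hall q hq) hl (S := S)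
  have h : ∀ t u : F, pr S hπ (base D) t u = pr S hπ q 1 (C₂ * (C₁ * t) * u) := fun t u => by
    rw [← key 1 (C₁ * t) u, mul_one, ← mul_assoc, h1, one_mul]
  intro t u
  have hb2 := cc_mul_self (F := F) hR hL hb
  rw [x₀, h, h]
  congr 1
  linear_combination C₂ * C₁ * t * u * (-hb2)

theorem cons_of_link (hπ : Function.Surjective π) {p q : ℕ × ℕ} (hp : wf D p = true)
    (hq : wf D q = true) (hl : link D p q = true) (h : Cons S hπ p) : Cons S hπ q := by
  obtain ⟨C₁, C₂, -, h2, hcc, key⟩ := pr_link hR hL hS hc hπ hp hq hl (S := S)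
  intro t u
  have e := key t 1 (C₂ * u)
  rw [h] at e
  rw [show u = C₂ * 1 * (C₂ * u) by rw [mul_one, ← mul_assoc, h2, one_mul], ← e]
  congr 1
  linear_combination t * C₂ * u * hcc

theorem cons_of_link' (hπ : Function.Surjective π) {p q : ℕ × ℕ} (hp : wf D p = true)
    (hq : wf D q = true) (hl : link D p q = true) (h : Cons S hπ q) : Cons S hπ p := by
  obtain ⟨C₁, C₂, h1, -, hcc, key⟩ := pr_link hR hL hS hc hπ hp hq hl (S := S)
  intro t u
  have e := key (C₁ * t) 1 u
  rw [h, mul_one, ← mul_assoc, h1, one_mul] at e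
  rw [e]
  congr 1
  linear_combination -(C₁ * t * u) * hcc + cc D F p * t * u * h1

theorem cons_swap (hπ : Function.Surjective π) {q : ℕ × ℕ} (hq : wf D q = true)
    (hq' : wf D (q.2, q.1) = true) (h : Cons S hπ (q.2, q.1)) : Cons S hπ q := by
  have e : ∀ t u : F, pr S hπ q t u = (pr S hπ (q.2, q.1) u t)⁻¹ := fun t u =>
    (commutatorElement_inv _ _).symm
  have hcc : cc D F q = -cc D F (q.2, q.1) := by
    have := congrArg π (e 1 1)
    rw [map_inv, π_pr hR hL hπ hq, π_pr hR hL hπ hq', S.x_inv hL.r0_lt] at this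
    simpa using x_inj S hR hL.r0_lt this
  intro t u
  rw [e, h, ← x₀_neg hR hL hS hc hπ, hcc]
  congr 1
  ring

theorem cons_grow (hπ : Function.Surjective π) {L : List (ℕ × ℕ)}
    (h : ∀ p ∈ L, wf D p = true ∧ Cons S hπ p) :
    ∀ q ∈ grow D L, wf D q = true ∧ Cons S hπ q := by
  intro q hq
  simp only [grow, List.mem_filter, Bool.or_eq_true, List.contains_iff, List.any_eq_true] at hq
  obtain ⟨hmem, hcase⟩ := hq
  have hconn := hL.conn
  simp only [connOK, Bool.and_eq_true, List.all_eq_true] at hconn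
  have hwf := hconn.1.1.1 q hmem
  refine ⟨hwf, ?_⟩
  rcases hcase with (hm | hm) | ⟨p, hp, hl | hl⟩
  · exact (h q hm).2
  · exact cons_swap hR hL hS hc hπ hwf (h _ hm).1 (h _ hm).2
  · exact cons_of_link hR hL hS hc hπ (h p hp).1 hwf hl (h p hp).2
  · exact cons_of_link' hR hL hS hc hπ hwf (h p hp).1 hl (h p hp).2

theorem cons_decs (hπ : Function.Surjective π) {q : ℕ × ℕ} (hq : q ∈ decs D) : Cons S hπ q := by
  have h0 : ∀ p ∈ [base D], wf D p = true ∧ Cons S hπ p := fun p hp => by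
    rw [List.mem_singleton] at hp
    subst hp
    exact ⟨base_wf hR hL, cons_base hR hL hS hc hπ⟩
  have h3 := cons_grow hR hL hS hc hπ (cons_grow hR hL hS hc hπ (cons_grow hR hL hS hc hπ h0))
  have hconn := hL.conn
  simp only [connOK, Bool.and_eq_true, List.all_eq_true, List.contains_iff] at hconn
  exact (h3 q (hconn.2 q hq)).2

theorem act_sum (w : List (Fin D.rank)) {r s k : ℕ} {C : ℤ} (hr : r < D.nroots) (hs : s < D.nroots)
    (h1 : s ≠ r) (h2 : s ≠ D.neg r) (h : D.commTerms r s = [(k, C, 1, 1)]) :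
    vec D len (act D w k) = vec D len (act D w r) + vec D len (act D w s) := by
  obtain ⟨hk, hv⟩ := terms_lt (len := len) hR hr hs h1 h2 h
  have := hR.act_lin w hr hs hk (a := 1) (b := 1) (by simpa using hv)
  simpa using this

end Dec

variable (S) in
/-- The relations (R1) and (R2) hold for suitable preimages of the root elements. -/
theorem exists_sys (hS : Rules D F) (hR : RootTable D len) (hL : LacedOK D) (hc : IsCentralMap π)
    (hπ : Function.Surjective π) :
    ∃ T : Sys D F E, ∀ r < D.nroots, ∀ t : F, π (T.x r t) = S.x r t := by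
  classical
  have hw : ∀ k : ℕ, ∃ w : List (Fin D.rank), k < D.nroots → act D w (r0 D) = k := fun k => by
    by_cases hk : k < D.nroots
    · obtain ⟨w, hw⟩ := exists_act_r0 hR hL hk
      exact ⟨w, fun _ => hw⟩
    · exact ⟨[], fun h => absurd h hk⟩
  choose w hw using hw
  have hg : ∀ k : ℕ, ∃ a : ℕ → F, (∀ s < D.nroots, a (D.neg s) * a s = 1) ∧
      ∀ s < D.nroots, ∀ t : F,
        S.nW (w k) * S.x s t * (S.nW (w k))⁻¹ = S.x (act D (w k) s) (a s * t) :=
    fun k => S.conjP_nW hS hR (w k)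
  choose a ha hga using hg
  set g : ℕ → E := fun k => Function.surjInv hπ (S.nW (w k))
  set y : ℕ → F → E := fun k v => g k * x₀ S hπ ((a k (r0 D))⁻¹ * v) * (g k)⁻¹ with hy
  have hne : ∀ k, a k (r0 D) ≠ 0 := fun k => right_ne_zero_of_mul_eq_one (ha k _ hL.r0_lt)
  have hyπ : ∀ k < D.nroots, ∀ v, π (y k v) = S.x k v := fun k hk v => by
    rw [hy]
    simp only [g, map_mul, map_inv, π_surjInv, π_x₀ hR hL hπ]
    rw [hga k _ hL.r0_lt, hw k hk, mul_inv_cancel_left₀ (hne k)]
  have hadd : ∀ k < D.nroots, ∀ t u, y k t * y k u = y k (t + u) := fun k _ t u => by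
    simp only [hy, mul_add, x₀_add hR hL hS hc hπ]
    group
  have hsingle : ∀ r < D.nroots, ∀ s < D.nroots, s ≠ r → s ≠ D.neg r → ∀ k C,
      D.commTerms r s = [(k, C, 1, 1)] → ∀ t u : F, ⁅y r t, y s u⁆ = y k ((C : F) * t * u) := by
    intro r hr s hs h1 h2 k C hterm t u
    obtain ⟨hk, hv⟩ := terms_lt (len := len) hR hr hs h1 h2 hterm
    set c := act D (w k).reverse r with hcdef
    set d := act D (w k).reverse s with hddef
    have hcl : c < D.nroots := hR.act_lt _ hr
    have hdl : d < D.nroots := hR.act_lt _ hs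
    have hwc : act D (w k) c = r := hR.act_act_reverse _ hr
    have hwd : act D (w k) d = s := hR.act_act_reverse _ hs
    have hk0 : act D (w k).reverse k = r0 D := by
      have e := hR.act_reverse_act (w k) hL.r0_lt
      rwa [hw k hk] at e
    have hvec : vec D len (r0 D) = vec D len c + vec D len d := by
      rw [← hk0]
      exact act_sum hR hL hS hc (w k).reverse hr hs h1 h2 hterm
    have hdc : d ≠ c := fun e => h1 (by rw [← hwd, e, hwc])
    have hdn : d ≠ D.neg c := fun e => h2 (by rw [← hwd, e, hR.act_neg _ hcl, hwc])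
    have hac : a k c ≠ 0 := right_ne_zero_of_mul_eq_one (ha k _ hcl)
    have had : a k d ≠ 0 := right_ne_zero_of_mul_eq_one (ha k _ hdl)
    have hxr : ∀ v, S.x r v = S.nW (w k) * S.x c ((a k c)⁻¹ * v) * (S.nW (w k))⁻¹ := fun v => by
      rw [hga k _ hcl, hwc, mul_inv_cancel_left₀ hac]
    have hxs : ∀ v, S.x s v = S.nW (w k) * S.x d ((a k d)⁻¹ * v) * (S.nW (w k))⁻¹ := fun v => by
      rw [hga k _ hdl, hwd, mul_inv_cancel_left₀ had]
    obtain ⟨C', hterm'⟩ : ∃ C', D.commTerms c d = [(r0 D, C', 1, 1)] := by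
      rcases commTerms_cases hL hcl hdl with hn | ⟨k', C', -, hk'⟩
      · exfalso
        have e := x_commutator_of_single S hr hs hk h1 h2 hterm (1 : F) 1
        rw [commutatorElement_eq_one_iff_mul_comm.2, mul_one, mul_one] at e
        · refine x_ne_one S hR hk ?_ e.symm
          rcases commTerms_cases hL hr hs with h0 | ⟨_, C'', hC'', h0⟩
          · rw [h0] at hterm; simp at hterm
          · rw [h0] at hterm
            simp only [List.cons.injEq, Prod.mk.injEq, and_true] at hterm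
            rw [← hterm.2]
            exact cast_unit_ne_zero hC''
        · rw [hxr, hxs]
          exact ((Commute.conj_iff _).2 (x_commute_of_nil S hcl hdl hdn hn _ _)).eq
      · obtain ⟨hk'lt, hv'⟩ := terms_lt (len := len) hR hcl hdl hdc hdn hk'
        refine ⟨C', ?_⟩
        rw [hk', hR.vec_inj k' hk'lt (r0 D) hL.r0_lt (by simpa [hvec] using hv')]
    have hcons := cons_decs hR hL hS hc hπ (S := S) (mem_decs hL hcl hdl hterm')
    have hey : ⁅y r t, y s u⁆ =
        g k * pr S hπ (c, d) ((a k c)⁻¹ * t) ((a k d)⁻¹ * u) * (g k)⁻¹ := by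
      rw [pr, conjugate_commutatorElement]
      refine lift_comm_eq hc ?_ ?_
      · simp only [g, map_mul, map_inv, π_surjInv, hyπ r hr, ← hxr]
      · simp only [g, map_mul, map_inv, π_surjInv, hyπ s hs, ← hxs]
    rw [hcons] at hey
    set W : F := cc D F (c, d) * ((a k c)⁻¹ * t) * ((a k d)⁻¹ * u)
    have hey' : ⁅y r t, y s u⁆ = y k (a k (r0 D) * W) := by
      rw [hey, hy]
      simp only [inv_mul_cancel_left₀ (hne k)]
    rw [hey']
    congr 1
    have := congrArg π hey'
    rw [map_commutatorElement, hyπ r hr, hyπ s hs, hyπ k hk,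
      x_commutator_of_single S hr hs hk h1 h2 hterm] at this
    exact (x_inj S hR hk this).symm
  have hcomm : ∀ r < D.nroots, ∀ s < D.nroots, s ≠ r → s ≠ D.neg r → ∀ t u : F,
      y s u * y r t = y r t * y s u * ((D.commWord F r s t u).map fun p => y p.1 p.2).prod := by
    intro r hr s hs h1 h2 t u
    rcases commTerms_cases hL hr hs with hn | ⟨k, C, -, hterm⟩
    · simp only [ChevalleyDatum.commWord, hn, List.map_nil, List.prod_nil, mul_one]
      exact (lifts_commute hS hR hL hc hπ hr hs h2 hn (hyπ r hr t) (hyπ s hs u)).eq.symm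
    · obtain ⟨hk, -⟩ := terms_lt (len := len) hR hr hs h1 h2 hterm
      simp only [ChevalleyDatum.commWord, hterm, List.map_cons, List.map_nil, List.prod_cons,
        List.prod_nil, mul_one, pow_one]
      have hinv : ∀ j < D.nroots, ∀ v, y j (-v) = (y j v)⁻¹ := fun j hj v => by
        rw [eq_inv_iff_mul_eq_one, hadd j hj, neg_add_cancel]
        have := hadd j hj 0 0
        rw [add_zero] at this
        exact mul_eq_left.1 this
      have e := hsingle r hr s hs h1 h2 k C hterm (-t) (-u)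
      rw [hinv r hr, hinv s hs, show (C : F) * -t * -u = -((C : F) * -t * u) by ring, hinv k hk] at e
      rw [← inv_inv (y k ((C : F) * -t * u)), ← e]
      simp only [commutatorElement_def]
      group
  exact ⟨{ x := y
           θ := S.θ.comp π
           θ_x := fun r hr t => by rw [MonoidHom.comp_apply, hyπ r hr, S.θ_x r hr]
           x_add := hadd
           comm := hcomm }, hyπ⟩

/-- Each root element is a commutator. -/
theorem x_mem_commutator (hS : Rules D F) (hR : RootTable D len) (hL : LacedOK D) {r : ℕ}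
    (hr : r < D.nroots) (t : F) : S.x r t ∈ commutator G := by
  obtain ⟨h1, h2, -, -, h3, h4, C, hC, hterm, -⟩ := wf_data (F := F) hR hL (base_wf hR hL)
  obtain ⟨w, hw⟩ := exists_act_r0 hR hL hr
  obtain ⟨a, ha, hga⟩ := S.conjP_nW hS hR w
  have hne : a (r0 D) ≠ 0 := right_ne_zero_of_mul_eq_one (ha _ hL.r0_lt)
  have h0 : S.x (r0 D) ((a (r0 D))⁻¹ * t) ∈ commutator G := by
    rw [show (a (r0 D))⁻¹ * t = (C : F) * ((C : F) * ((a (r0 D))⁻¹ * t)) * 1 by
      rw [mul_one, ← mul_assoc, cast_unit_mul_self hC, one_mul],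
      ← x_commutator_of_single S h1 h2 hL.r0_lt h3 h4 hterm]
    exact Subgroup.commutator_mem_commutator (Subgroup.mem_top _) (Subgroup.mem_top _)
  have e := hga _ hL.r0_lt ((a (r0 D))⁻¹ * t)
  rw [hw, mul_inv_cancel_left₀ hne] at e
  rw [← e]
  exact (Subgroup.commutator_normal ⊤ ⊤).conj_mem _ h0 _

end Cfsg.Agent.CentralExt.Laced
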