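import Cfsg.Agent.CentralExt.Basic
import Cfsg.Agent.CentralExt.SimplyLacedRels
import Cfsg.Agent.CentralExt.SteinbergCover

/-!
# Schur multipliers of simply-laced Chevalley groups

The group presented by (R1), (R2) has no proper central extension, hence over a finite field it is the
universal cover of the Chevalley group and its centre is the multiplier.
-/

set_option autoImplicit false

namespace Cfsg.Agent.CentralExt.Laced

open Cfsg.Lie Cfsg.Agent.ChevGrp

variable {D : ChevalleyDatum} {K : Type*} [Field K]

/-- Every central extension of the group presented by (R1), (R2) splits. -/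
theorem exists_section (hS : Rules D K) (hL : LacedOK D) {E : Type*} [Group E]
    {π : E →* D.SteinbergCover K} (hπ : Function.Surjective π) (hc : IsCentralMap π) :
    ∃ τ : D.SteinbergCover K →* E, π.comp τ = MonoidHom.id _ := by
  obtain ⟨len, hR⟩ := hS.root
  obtain ⟨T, hT⟩ := exists_sys (Cover.scSys hS) hS hR hL hc hπ
  set f : Fin D.nroots × K → E := fun p => T.x p.1 p.2 with hf
  set g : ℕ → K → E := fun r t => if r < D.nroots then T.x r t else 1 with hg
  have hX : ∀ (r : ℕ) (t : K), FreeGroup.lift f (D.stX r t) = g r t := by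
    intro r t
    by_cases hr : r < D.nroots
    · simp [hg, hr, ChevalleyDatum.stX, hf]
    · simp [hg, hr, ChevalleyDatum.stX]
  have hkill : ∀ z ∈ D.steinbergRelsAB K, FreeGroup.lift f z = 1 := by
    rintro z (⟨r, t₁, t₂, hr, rfl⟩ | ⟨r, s, t, u, hr, hs, h1, h2, rfl⟩)
    · simp only [map_mul, map_inv, hX, hg, hr, if_true]
      exact mul_inv_eq_one.2 (T.x_add r hr t₁ t₂)
    · simp only [map_mul, map_inv, hX, stWord_lift _ _ hX]
      have e : ((D.commWord K r s t u).map fun p => g p.1 p.2).prod =
          ((D.commWord K r s t u).map fun p => T.x p.1 p.2).prod := by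
        refine congrArg List.prod (List.map_congr_left fun p hp => ?_)
        simp only [ChevalleyDatum.commWord, List.mem_map] at hp
        obtain ⟨c, hc', rfl⟩ := hp
        simp [hg, (hR.commTerms_vec r hr s hs h1 h2 c hc').1]
      rw [e]
      simp only [hg, hr, hs, if_true]
      rw [mul_inv_eq_one, mul_assoc, mul_assoc, T.comm r hr s hs h1 h2 t u]
      simp [mul_assoc]
  refine ⟨PresentedGroup.toGroup hkill, PresentedGroup.ext fun p => ?_⟩
  rw [MonoidHom.comp_apply, PresentedGroup.toGroup.of, MonoidHom.id_apply, Cover.of_eq_scGen]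
  exact hT p.1 p.1.2 p.2

/-- The group presented by (R1), (R2) over a finite field has trivial multiplier. -/
theorem multiplier_cover [Finite K] (hS : Rules D K) (hL : LacedOK D) :
    HasCyclicSchurMultiplier (D.SteinbergCover K) 1 := by
  haveI := Cover.finite_cover hS
  refine hasCyclicSchurMultiplier_one_of fun Δ _ _ τ hτ => ?_
  obtain ⟨σ, hσ⟩ := exists_section hS hL hτ.1 (fun z hz g => Subgroup.mem_center_iff.1 (hτ.2.1 hz) g)
  have hsur : Function.Surjective σ :=
    surjective_of_comp_surjective hτ σ (fun g => ⟨g, DFunLike.congr_fun hσ g⟩)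
  rw [Subgroup.eq_bot_iff_forall]
  intro z hz
  obtain ⟨c, rfl⟩ := hsur z
  rw [MonoidHom.mem_ker, ← MonoidHom.comp_apply, hσ, MonoidHom.id_apply] at hz
  rw [hz, map_one]

/-- The universal Chevalley group over a finite field has trivial multiplier. -/
theorem multiplier_steinbergGroup [Finite K] (hS : Rules D K) (hL : LacedOK D) :
    HasCyclicSchurMultiplier (D.SteinbergGroup K) 1 := by
  obtain ⟨e, -⟩ := Cover.exists_equiv_steinberg hS
  exact hasSchurMultiplier_congr e (multiplier_cover hS hL)

theorem perfect_steinbergGroup [Finite K] (hS : Rules D K) (hP : Sys.PerfectData D K) :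
    commutator (D.SteinbergGroup K) = ⊤ := by
  obtain ⟨len, hR⟩ := hS.root
  have h := (stSys hS).Gbar_perfect hS hR hP
  rwa [stSys_Gbar hS, ← _root_.commutator_def] at h

/-- The multiplier of the Chevalley group is the centre of the universal one. -/
theorem multiplier_group [Finite K] (hS : Rules D K) (hL : LacedOK D) (hP : Sys.PerfectData D K)
    {n : ℕ} (hcyc : IsCyclic (Subgroup.center (D.SteinbergGroup K)))
    (hcard : Nat.card (Subgroup.center (D.SteinbergGroup K)) = n) :
    HasCyclicSchurMultiplier ↥(D.group K) n := by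
  haveI := Cover.finite_steinbergGroup hS
  obtain ⟨θ, hsur, hker, -⟩ := thm_S1077 hS
  have hst : IsStemExtension θ :=
    ⟨hsur, hker.le, by rw [perfect_steinbergGroup hS hP]; exact le_top⟩
  refine hasSchurMultiplier_of_universal hst (multiplier_steinbergGroup hS hL) ?_
  subst hcard
  exact (MulEquiv.subgroupCongr hker).trans (zmodCyclicMulEquiv hcyc).symm

end Cfsg.Agent.CentralExt.Laced
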