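import Cfsg.Agent.CentralExt.Sylow
import Cfsg.Agent.CentralExt.Bounds
import Cfsg.Agent.CentralExt.FieldAction
import Cfsg.Agent.Suzuki.Sylow
import Cfsg.Agent.Suzuki.LieModel

/-!
# The Schur multiplier of `Sz(q)`, `q ≥ 32`, is trivial
-/

set_option autoImplicit false
set_option linter.style.haveILetI false
set_option linter.unusedSectionVars false

namespace Cfsg.Agent.CentralExt.Suzuki

open Subgroup MulAction Cfsg.Agent.Suzuki
open scoped commutatorElement

variable {F : Type*} [Field F] [Fintype F] {m : ℕ} [hS : SuzukiField F m]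
include hS

/-- The Borel subgroup. -/
noncomputable abbrev borel (F : Type*) [Field F] [Fintype F] (m : ℕ) [SuzukiField F m] :
    Subgroup (Cfsg.Sz F m) := stabilizer (Cfsg.Sz F m) (oInf F m)

/-- Unipotent elements of the Borel subgroup. -/
noncomputable def bT (a b : F) : borel F m :=
  ⟨gT a b, mem_stabilizer_iff.2 (gT_smul_oInf a b)⟩

/-- Torus elements of the Borel subgroup. -/
noncomputable def bD (l : Fˣ) : borel F m := ⟨gD l, mem_stabilizer_iff.2 (gD_smul_oInf l)⟩

lemma bT_mul (a b c d : F) :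
    (bT a b * bT c d : borel F m) = bT (a + c) (b + d + th F m a * c) :=
  Subtype.ext (gT_mul a b c d)

lemma bT_inj {a b c d : F} (h : (bT a b : borel F m) = bT c d) : a = c ∧ b = d :=
  gT_inj (congrArg Subtype.val h)

lemma bT_zero : (bT 0 0 : borel F m) = 1 := Subtype.ext gT_zero

lemma bD_conj (l : Fˣ) (a b : F) :
    (bD l * bT a b * (bD l)⁻¹ : borel F m) =
      bT ((l : F) ^ 2 * a) (th F m l ^ 2 * (l : F) ^ 2 * b) := by
  apply Subtype.ext
  show gD l * gT a b * (gD l)⁻¹ = gT _ _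
  rw [gD_conj_gT, mul_inv_cancel_right]

lemma exists_eq (x : borel F m) : ∃ a b l, x = bT a b * bD l := by
  obtain ⟨a, b, l, h⟩ := exists_gT_gD_of_fix (mem_stabilizer_iff.1 x.2)
  exact ⟨a, b, l, Subtype.ext h⟩

lemma th_nu_surjective : ∀ y : F, y ≠ 0 → ∃ l : Fˣ, th F m l ^ 2 * (l : F) ^ 2 = y := by
  have hinj : Function.Injective (fun l : Fˣ =>
      Units.mk0 (th F m (l : F) ^ 2 * (l : F) ^ 2)
        (mul_ne_zero (pow_ne_zero 2 ((map_ne_zero _).2 l.ne_zero)) (pow_ne_zero 2 l.ne_zero))) := by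
    intro k l h
    have h' : th F m (k : F) ^ 2 * (k : F) ^ 2 = th F m (l : F) ^ 2 * (l : F) ^ 2 :=
      congrArg Units.val h
    rw [← mul_pow, ← mul_pow] at h'
    have h2 : th F m ((k : F) / l) * ((k : F) / l) = 1 := by
      rw [map_div₀, div_mul_div_comm, sq_injective (m := m) h', div_self]
      exact mul_ne_zero ((map_ne_zero _).2 l.ne_zero) l.ne_zero
    have h3 := th_mul_self_eq_one h2
    rw [div_eq_one_iff_eq l.ne_zero] at h3
    exact Units.ext h3
  intro y hy
  obtain ⟨l, hl⟩ := (Finite.injective_iff_surjective.1 hinj) (Units.mk0 y hy)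
  exact ⟨l, congrArg Units.val hl⟩

lemma sq_units_surjective : ∀ y : F, y ≠ 0 → ∃ l : Fˣ, (l : F) ^ 2 = y := by
  intro y hy
  obtain ⟨k, hk⟩ := sq_surjective (m := m) y
  have hk' : k ^ 2 = y := hk
  exact ⟨Units.mk0 k (by rintro rfl; exact hy (by simpa using hk'.symm)), hk'⟩

/-- There is `d` with `d, d + 1, d² + d + 1` non-zero. -/
lemma exists_generic : ∃ d : F, d ≠ 0 ∧ d + 1 ≠ 0 ∧ d ^ 2 + d + 1 ≠ 0 := by
  classical
  let P : Polynomial F :=
    Polynomial.X * (Polynomial.X + 1) * (Polynomial.X ^ 2 + Polynomial.X + 1)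
  have hdeg : P.natDegree < Fintype.card F :=
    lt_of_le_of_lt (b := 4) (by simp only [P]; compute_degree)
      (lt_of_lt_of_le (by norm_num) (eight_le_card (m := m)))
  obtain ⟨d, hd⟩ : ∃ d : F, P.eval d ≠ 0 := by
    by_contra hcon
    simp only [not_exists, ne_eq, not_not] at hcon
    have h1 : P = 0 :=
      Polynomial.eq_zero_of_natDegree_lt_card_of_eval_eq_zero P Function.injective_id hcon hdeg
    rcases mul_eq_zero.1 h1 with hz | hz
    · rcases mul_eq_zero.1 hz with hz | hz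
      · exact Polynomial.X_ne_zero hz
      · simpa using congrArg (Polynomial.eval 0) hz
    · simpa using congrArg (Polynomial.eval 0) hz
  simp only [P, Polynomial.eval_mul, Polynomial.eval_add, Polynomial.eval_pow, Polynomial.eval_X,
    Polynomial.eval_one, mul_ne_zero_iff] at hd
  exact ⟨d, hd.1.1, hd.1.2, hd.2⟩

/-- For `q ≥ 32` the function `k ↦ 1 / (θ k * k)` is not affine. -/
lemma exists_nonaffine (hm : 2 ≤ m) : ∃ k : F, k ≠ 0 ∧ k + 1 ≠ 0 ∧
    (th F m (k + 1) * (k + 1))⁻¹ + 1 + (th F m k * k)⁻¹ ≠ 0 := by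
  classical
  set e := 2 ^ (m + 1) + 1 with he
  have h2 : 2 * e + 2 < Fintype.card F := by
    rw [hS.card]
    have h1 : 2 ^ (2 * m + 1) = 2 ^ (m + 1) * 2 ^ m := by rw [← pow_add]; congr 1; omega
    have h3 : 4 ≤ 2 ^ m := le_trans (by norm_num) (Nat.pow_le_pow_right two_pos hm)
    have h5 : 8 ≤ 2 ^ (m + 1) :=
      le_trans (by norm_num) (Nat.pow_le_pow_right two_pos (show 3 ≤ m + 1 by omega))
    rw [h1]; nlinarith
  let P : Polynomial F := Polynomial.X * (Polynomial.X + 1) *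
    (Polynomial.X ^ e + (Polynomial.X + 1) ^ e * (Polynomial.X ^ e + 1))
  have hdeg : P.natDegree < Fintype.card F := by
    refine lt_of_le_of_lt ?_ h2
    simp only [P]
    compute_degree
    all_goals omega
  obtain ⟨k, hk⟩ : ∃ k : F, P.eval k ≠ 0 := by
    by_contra hcon
    simp only [not_exists, ne_eq, not_not] at hcon
    have h1 : P = 0 :=
      Polynomial.eq_zero_of_natDegree_lt_card_of_eval_eq_zero P Function.injective_id hcon hdeg
    rcases mul_eq_zero.1 h1 with hz | hz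
    · rcases mul_eq_zero.1 hz with hz | hz
      · exact Polynomial.X_ne_zero hz
      · simpa using congrArg (Polynomial.eval 0) hz
    · simpa [he] using congrArg (Polynomial.eval 0) hz
  simp only [P, Polynomial.eval_mul, Polynomial.eval_add, Polynomial.eval_pow, Polynomial.eval_X,
    Polynomial.eval_one, mul_ne_zero_iff] at hk
  obtain ⟨⟨hk0, hk1⟩, hk2⟩ := hk
  refine ⟨k, hk0, hk1, ?_⟩
  have hpow : ∀ x : F, th F m x * x = x ^ e := fun x => by rw [th_apply, he, ← pow_succ]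
  rw [hpow, hpow]
  intro h
  apply hk2
  have hke : k ^ e ≠ 0 := pow_ne_zero _ hk0
  have hke1 : (k + 1) ^ e ≠ 0 := pow_ne_zero _ hk1
  field_simp at h
  linear_combination h

variable {Γ : Type*} [Group Γ] [Finite Γ]

/-- The Borel subgroup of `Sz(q)`, `q ≥ 32`, has no non-trivial stem extension. -/
theorem ker_eq_bot_borel (hm : 2 ≤ m) {σ : Γ →* borel F m} (hσ : IsStemExtension σ) :
    σ.ker = ⊥ := by
  classical
  have hcent : ∀ {z : Γ}, σ z = 1 → ∀ g, g * z = z * g := fun {z} hz g =>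
    Subgroup.mem_center_iff.1 (hσ.2.1 hz) g
  let s : F → F → Γ := fun a b => Function.surjInv hσ.1 (bT a b)
  have hs : ∀ a b, σ (s a b) = bT a b := fun a b => Function.surjInv_eq hσ.1 _
  let t : Fˣ → Γ := fun l => Function.surjInv hσ.1 (bD l)
  have ht : ∀ l, σ (t l) = bD l := fun l => Function.surjInv_eq hσ.1 _
  have hσcomm : ∀ x y, Commute (σ x) (σ y) → σ ⁅x, y⁆ = 1 := fun x y h => by
    rw [map_commutatorElement, commutatorElement_eq_one_iff_mul_comm]; exact h
  -- changing representatives does not change commutators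
  have hwell : ∀ x y x' y' : Γ, σ x' = σ x → σ y' = σ y → ⁅x', y'⁆ = ⁅x, y⁆ := by
    intro x y x' y' hx hy
    obtain ⟨z, hz, rfl⟩ : ∃ z, σ z = 1 ∧ x' = x * z :=
      ⟨x⁻¹ * x', by rw [map_mul, map_inv, hx, inv_mul_cancel], by group⟩
    obtain ⟨w, hw, rfl⟩ : ∃ w, σ w = 1 ∧ y' = y * w :=
      ⟨y⁻¹ * y', by rw [map_mul, map_inv, hy, inv_mul_cancel], by group⟩
    have h1 : ∀ g, z * g = g * z := fun g => (hcent hz g).symm
    have h2 : ∀ g, w * g = g * w := fun g => (hcent hw g).symm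
    simp only [commutatorElement_def, mul_inv_rev]
    calc x * z * (y * w) * (z⁻¹ * x⁻¹) * (w⁻¹ * y⁻¹)
        = x * (z * (y * w)) * z⁻¹ * x⁻¹ * w⁻¹ * y⁻¹ := by group
      _ = x * y * w * x⁻¹ * w⁻¹ * y⁻¹ := by rw [h1 (y * w)]; group
      _ = x * y * (w * x⁻¹) * w⁻¹ * y⁻¹ := by group
      _ = x * y * x⁻¹ * y⁻¹ := by rw [h2 x⁻¹]; group
  have hconj : ∀ (l : Fˣ) x y, σ x = σ y → σ (t l * x * (t l)⁻¹) = bD l * σ y * (bD l)⁻¹ := by
    intro l x y h; rw [map_mul, map_mul, map_inv, ht, h]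
  letI : CommGroup σ.ker :=
    { (inferInstance : Group σ.ker) with
      mul_comm := fun a b => Subtype.ext (hcent b.2 (a : Γ)) }
  -- commutators of `x` with `Z̃`
  have hZcomm : ∀ a b d : F, Commute (bT a b : borel F m) (bT 0 d) := by
    intro a b d
    rw [commute_iff_eq, bT_mul, bT_mul]
    simp only [map_zero, zero_mul, mul_zero, add_zero, zero_add, add_comm]
  let P : F → F → F → Additive σ.ker := fun a b d => Additive.ofMul
    ⟨⁅s a b, s 0 d⁆, hσcomm _ _ (by rw [hs, hs]; exact hZcomm a b d)⟩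
  have hPl : ∀ a b c e d, P (a + c) (b + e + th F m a * c) d = P a b d + P c e d := by
    intro a b c e d
    apply Additive.toMul.injective
    apply Subtype.ext
    show ⁅s (a + c) _, s 0 d⁆ = ⁅s a b, s 0 d⁆ * ⁅s c e, s 0 d⁆
    rw [← commutatorElement_mul_left_of_central (hσ.2.1 (hσcomm _ _ (by
      rw [hs, hs]; exact hZcomm c e d)))]
    refine hwell _ _ _ _ ?_ rfl
    rw [map_mul, hs, hs, hs, bT_mul]
  have hPr : ∀ a b d d', P a b (d + d') = P a b d + P a b d' := by
    intro a b d d'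
    apply Additive.toMul.injective
    apply Subtype.ext
    show ⁅s a b, s 0 (d + d')⁆ = ⁅s a b, s 0 d⁆ * ⁅s a b, s 0 d'⁆
    have hzz : ⁅s a b, s 0 d'⁆ ∈ σ.ker := hσcomm _ _ (by rw [hs, hs]; exact hZcomm a b d')
    rw [hwell (s a b) (s 0 d * s 0 d') (s a b) (s 0 (d + d')) rfl (by
      rw [map_mul, hs, hs, hs, bT_mul]; simp)]
    calc ⁅s a b, s 0 d * s 0 d'⁆
        = ⁅s a b, s 0 d⁆ * (s 0 d * ⁅s a b, s 0 d'⁆ * (s 0 d)⁻¹) := by
          simp only [commutatorElement_def]; group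
      _ = _ := by rw [hcent hzz, mul_inv_cancel_right]
  have hPinv : ∀ (l : Fˣ) a b d, P ((l : F) ^ 2 * a) (th F m l ^ 2 * (l : F) ^ 2 * b)
      (th F m l ^ 2 * (l : F) ^ 2 * d) = P a b d := by
    intro l a b d
    apply Additive.toMul.injective
    apply Subtype.ext
    show ⁅s _ _, s 0 _⁆ = ⁅s a b, s 0 d⁆
    have hmem : σ ⁅s a b, s 0 d⁆ = 1 := hσcomm _ _ (by rw [hs, hs]; exact hZcomm a b d)
    rw [hwell (t l * s a b * (t l)⁻¹) (t l * s 0 d * (t l)⁻¹) _ _
      (by rw [hs, hconj l _ _ rfl, hs, bD_conj]) (by rw [hs, hconj l _ _ rfl, hs, bD_conj, mul_zero]),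
      ← conjugate_commutatorElement, hcent hmem, mul_inv_cancel_right]
  -- the preimage of the centre is abelian
  have hPzero : ∀ b d, P 0 b d = 0 := by
    obtain ⟨d₀, hd0, hd1, hd2⟩ := exists_generic (F := F) (m := m)
    obtain ⟨l₁, hl₁⟩ := th_nu_surjective (m := m) d₀ hd0
    obtain ⟨l₂, hl₂⟩ := th_nu_surjective (m := m) (d₀ + 1) hd1
    refine pairing_eq_zero (fun b d => P 0 b d) (fun x x' y => ?_) (fun x y y' => hPr 0 x y y')
      hd0 (fun x y => ?_) (fun x y => ?_) hd2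
    · simpa using hPl 0 x 0 x' y
    · simpa [hl₁] using hPinv l₁ 0 x y
    · simpa [hl₂] using hPinv l₂ 0 x y
  have hPindep : ∀ a b d, P a b d = P a 0 d := by
    intro a b d
    have h := hPl 0 b a 0 d
    simp only [zero_add, map_zero, zero_mul, add_zero, hPzero] at h
    exact h
  -- the preimage of the centre is centralised by the preimage of the unipotent radical
  have hPall : ∀ a b d, P a b d = 0 := by
    have hl : ∀ a c d, P (a + c) 0 d = P a 0 d + P c 0 d := fun a c d => by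
      rw [← hPindep (a + c) (0 + 0 + th F m a * c) d]; exact hPl a 0 c 0 d
    have hinv : ∀ (k : F), k ≠ 0 → ∀ a d, P (k * a) 0 d = P a 0 ((th F m k * k)⁻¹ * d) := by
      intro k hk a d
      obtain ⟨l, rfl⟩ := sq_units_surjective (m := m) k hk
      have hne : th F m ((l : F) ^ 2) * (l : F) ^ 2 ≠ 0 :=
        mul_ne_zero ((map_ne_zero _).2 hk) hk
      conv_lhs => rw [← one_mul d, ← mul_inv_cancel₀ hne, mul_assoc]
      have h := hPinv l a 0 ((th F m ((l : F) ^ 2) * (l : F) ^ 2)⁻¹ * d)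
      rw [mul_zero, ← map_pow] at h
      exact h
    obtain ⟨k, hk0, hk1, hk2⟩ := exists_nonaffine (F := F) hm
    intro a b d
    rw [hPindep]
    have key : ∀ d, P a 0 (((th F m (k + 1) * (k + 1))⁻¹ + 1 + (th F m k * k)⁻¹) * d) = 0 := by
      intro d
      have h1 := hinv (k + 1) hk1 a d
      rw [add_mul, one_mul, hl, hinv k hk0] at h1
      have h2 : ∀ x, P a 0 x + P a 0 x = 0 := fun x => by
        rw [← hPr, CharTwo.add_self_eq_zero]
        have h3 := hPr a 0 0 0
        rw [add_zero] at h3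
        exact left_eq_add.1 h3
      rw [add_mul, add_mul, one_mul, hPr, hPr, ← h1]
      calc P a 0 ((th F m k * k)⁻¹ * d) + P a 0 d + P a 0 d + P a 0 ((th F m k * k)⁻¹ * d)
          = (P a 0 ((th F m k * k)⁻¹ * d) + P a 0 ((th F m k * k)⁻¹ * d)) +
              (P a 0 d + P a 0 d) := by abel
        _ = 0 := by rw [h2, h2, add_zero]
    have h := key (((th F m (k + 1) * (k + 1))⁻¹ + 1 + (th F m k * k)⁻¹)⁻¹ * d)
    rwa [← mul_assoc, mul_inv_cancel₀ hk2, one_mul] at h
  have hcommZ : ∀ x w : Γ, (∃ a b, σ x = bT a b) → (∃ d, σ w = bT 0 d) → Commute x w := by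
    rintro x w ⟨a, b, hx⟩ ⟨d, hw⟩
    rw [commute_iff_eq, ← commutatorElement_eq_one_iff_mul_comm,
      hwell (s a b) (s 0 d) x w (by rw [hs, hx]) (by rw [hs, hw])]
    exact congrArg (fun p : Additive σ.ker => ((Additive.toMul p : σ.ker) : Γ)) (hPall a b d)
  -- a torus element moving the centre
  obtain ⟨g₀, hg₀⟩ := IsCyclic.exists_generator (α := Fˣ)
  have hg₀2 : (g₀ : F) ^ 2 ≠ 1 := by
    intro h
    have h1 : g₀ = 1 := Units.ext (sq_eq_one (m := m) h)
    have h2 := orderOf_eq_card_of_forall_mem_zpowers hg₀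
    rw [h1, orderOf_one, Nat.card_units, Nat.card_eq_fintype_card] at h2
    have := eight_le_card (F := F) (m := m); omega
  set ν := th F m g₀ ^ 2 * (g₀ : F) ^ 2 with hν
  have hν1 : ν ≠ 1 := by
    intro h
    rw [hν, ← map_pow] at h
    exact hg₀2 (th_mul_self_eq_one h)
  have hν0 : ν ≠ 0 := mul_ne_zero (pow_ne_zero 2 ((map_ne_zero _).2 g₀.ne_zero))
    (pow_ne_zero 2 g₀.ne_zero)
  set t₀ := t g₀ with ht₀
  -- the complement of the kernel in the preimage of the centre
  let φ : F → Γ := fun d => ⁅t₀, s 0 d⁆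
  have hσφ : ∀ d, σ (φ d) = bT 0 (ν * d + d) := by
    intro d
    have hinv : (bT 0 d : borel F m)⁻¹ = bT 0 d := inv_eq_of_mul_eq_one_right (by
      rw [bT_mul, ← bT_zero]; congr 1 <;> simp [CharTwo.add_self_eq_zero])
    show σ ⁅t₀, s 0 d⁆ = _
    rw [map_commutatorElement, ht, hs, commutatorElement_def, bD_conj, mul_zero, hinv, bT_mul]
    simp [hν]
  have hφ : ∀ w d, σ w = bT 0 d → ⁅t₀, w⁆ = φ d := fun w d hw =>
    hwell _ _ _ _ rfl (by rw [hs, hw])
  have hφadd : ∀ x y, φ (x + y) = φ x * φ y := by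
    intro x y
    rw [← hφ (s 0 x * s 0 y) (x + y) (by rw [map_mul, hs, hs, bT_mul]; simp)]
    have hcm : Commute (s 0 x) (φ y) := hcommZ _ _ ⟨0, x, hs 0 x⟩ ⟨_, hσφ y⟩
    calc ⁅t₀, s 0 x * s 0 y⁆ = ⁅t₀, s 0 x⁆ * (s 0 x * ⁅t₀, s 0 y⁆ * (s 0 x)⁻¹) := by
          simp only [commutatorElement_def]; group
      _ = φ x * φ y := by
          show ⁅t₀, s 0 x⁆ * (s 0 x * φ y * (s 0 x)⁻¹) = _
          rw [hcm.eq, mul_inv_cancel_right]
  let N : Subgroup Γ := (MonoidHom.mk' (fun x : Multiplicative F => φ x.toAdd)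
    (fun x y => hφadd _ _)).range
  have hbD_zpow : ∀ l : Fˣ, (bD l : borel F m) ∈ zpowers (bD g₀ : borel F m) := by
    intro l
    obtain ⟨k, rfl⟩ := Subgroup.mem_zpowers_iff.1 (hg₀ l)
    refine ⟨k, Subtype.ext ?_⟩
    show ((bD g₀ ^ k : borel F m) : Cfsg.Sz F m) = gDHom F m (g₀ ^ k)
    rw [map_zpow, SubgroupClass.coe_zpow]
    rfl
  have hdecomp : ∀ w : Γ, ∃ a b, ∃ j : ℤ, σ w = bT a b * bD g₀ ^ j := by
    intro w
    obtain ⟨a, b, l, h⟩ := exists_eq (σ w)
    obtain ⟨j, hj⟩ := Subgroup.mem_zpowers_iff.1 (hbD_zpow l)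
    exact ⟨a, b, j, by rw [hj, h]⟩
  haveI hN : N.Normal := by
    refine ⟨fun n hn w => ?_⟩
    obtain ⟨x, rfl⟩ := hn
    show w * φ x.toAdd * w⁻¹ ∈ N
    obtain ⟨a, b, j, hw⟩ := hdecomp w
    have htn : ∀ y, t₀ * φ y * t₀⁻¹ = φ (ν * y) := by
      intro y
      rw [show t₀ * φ y * t₀⁻¹ = ⁅t₀, t₀ * s 0 y * t₀⁻¹⁆ by
        simp only [φ, commutatorElement_def]; group]
      exact hφ _ _ (by rw [hconj g₀ _ _ rfl, hs, bD_conj, mul_zero])
    have ht0 : t₀ ∈ normalizer (N : Set Γ) := by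
      rw [Subgroup.mem_normalizer_iff]
      intro g
      constructor
      · rintro ⟨y, rfl⟩
        exact ⟨Multiplicative.ofAdd (ν * y.toAdd), (htn _).symm⟩
      · rintro ⟨y, hy⟩
        refine ⟨Multiplicative.ofAdd (ν⁻¹ * y.toAdd), ?_⟩
        have h := htn (ν⁻¹ * y.toAdd)
        rw [← mul_assoc, mul_inv_cancel₀ hν0, one_mul] at h
        exact mul_left_cancel (mul_right_cancel (h.trans hy))
    obtain ⟨u, hu, rfl⟩ : ∃ u, σ u = bT a b ∧ w = u * t₀ ^ j :=
      ⟨w * (t₀ ^ j)⁻¹, by rw [map_mul, map_inv, map_zpow, hw, ht, mul_inv_cancel_right],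
        by group⟩
    have h2 : t₀ ^ j * φ x.toAdd * (t₀ ^ j)⁻¹ ∈ N :=
      ((Subgroup.mem_normalizer_iff.1 (zpow_mem ht0 j)) _).1 ⟨x, rfl⟩
    obtain ⟨y, hy⟩ := h2
    have h3 : (MonoidHom.mk' (fun x : Multiplicative F => φ x.toAdd) (fun x y => hφadd _ _)) y =
        φ y.toAdd := rfl
    rw [h3] at hy
    rw [show u * t₀ ^ j * φ x.toAdd * (u * t₀ ^ j)⁻¹ =
      u * (t₀ ^ j * φ x.toAdd * (t₀ ^ j)⁻¹) * u⁻¹ by group, ← hy,
      (hcommZ _ _ ⟨a, b, hu⟩ ⟨_, hσφ y.toAdd⟩).eq, mul_inv_cancel_right]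
    exact ⟨y, rfl⟩
  -- `N` maps onto the centre of the unipotent radical and meets the kernel trivially
  have hν1' : ν + 1 ≠ 0 := fun h => hν1 (CharTwo.add_eq_zero.1 h)
  have hNker : ∀ n ∈ N, σ n = 1 → n = 1 := by
    rintro _ ⟨x, rfl⟩ h
    have h' : σ (φ x.toAdd) = 1 := h
    rw [hσφ, ← bT_zero] at h'
    have h0 := (bT_inj h').2
    rw [show ν * x.toAdd + x.toAdd = (ν + 1) * x.toAdd by ring, mul_eq_zero,
      or_iff_right hν1'] at h0
    rw [show x = 1 from Multiplicative.toAdd.injective h0, map_one]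
  let Zb : Subgroup (borel F m) := N.map σ
  have hZb : ∀ d, (bT 0 d : borel F m) ∈ Zb := fun d =>
    ⟨φ ((ν + 1)⁻¹ * d), ⟨Multiplicative.ofAdd ((ν + 1)⁻¹ * d), rfl⟩, by
      rw [hσφ]; congr 1; field_simp⟩
  haveI hZn : Zb.Normal := hN.map σ hσ.1
  have hNle : N ≤ Zb.comap σ := Subgroup.le_comap_map σ N
  let σ' : Γ ⧸ N →* borel F m ⧸ Zb := QuotientGroup.map N Zb σ hNle
  have hσ' : IsStemExtension σ' := by
    have hkerle : ∀ y ∈ σ'.ker, ∃ z ∈ σ.ker, QuotientGroup.mk' N z = y := by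
      intro y hy
      obtain ⟨g, rfl⟩ := QuotientGroup.mk'_surjective N y
      have hg : σ g ∈ Zb := (QuotientGroup.eq_one_iff _).1 hy
      obtain ⟨n, hn, hn'⟩ := hg
      refine ⟨g * n⁻¹, ?_, ?_⟩
      · rw [MonoidHom.mem_ker, map_mul, map_inv, hn', mul_inv_cancel]
      · rw [map_mul, map_inv, show QuotientGroup.mk' N n = 1 from
          (QuotientGroup.eq_one_iff _).2 hn, inv_one, mul_one]
    refine ⟨?_, ?_, ?_⟩
    · intro y
      obtain ⟨g, rfl⟩ := QuotientGroup.mk'_surjective Zb y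
      obtain ⟨g, rfl⟩ := hσ.1 g
      exact ⟨QuotientGroup.mk' N g, rfl⟩
    · intro y hy
      obtain ⟨z, hz, rfl⟩ := hkerle y hy
      exact mem_center_map (QuotientGroup.mk'_surjective N) (hσ.2.1 hz)
    · intro y hy
      obtain ⟨z, hz, rfl⟩ := hkerle y hy
      rw [← map_commutator_top (QuotientGroup.mk' N) (QuotientGroup.mk'_surjective N)]
      exact Subgroup.mem_map_of_mem _ (hσ.2.2 hz)
  let q : borel F m →* borel F m ⧸ Zb := QuotientGroup.mk' Zb
  let u : Multiplicative F →* borel F m ⧸ Zb := MonoidHom.mk' (fun x => q (bT x.toAdd 0)) (by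
    intro x y
    rw [← map_mul, bT_mul]
    apply (QuotientGroup.eq).2
    have h : (bT (x * y).toAdd 0 : borel F m) * bT 0 (th F m x.toAdd * y.toAdd) =
        bT (x.toAdd + y.toAdd) (0 + 0 + th F m x.toAdd * y.toAdd) := by
      rw [bT_mul]; simp
    rw [show ((bT (x * y).toAdd 0 : borel F m))⁻¹ *
      bT (x.toAdd + y.toAdd) (0 + 0 + th F m x.toAdd * y.toAdd) =
        bT 0 (th F m x.toAdd * y.toAdd) by rw [← h, inv_mul_cancel_left]]
    exact hZb _)
  have hNσ : ∀ n ∈ N, ∃ e, σ n = bT 0 e := by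
    rintro _ ⟨x, rfl⟩; exact ⟨_, hσφ x.toAdd⟩
  have hqinj : ∀ a, q (bT a 0) = 1 → a = 0 := by
    intro a h
    obtain ⟨n, hn, hn'⟩ := (QuotientGroup.eq_one_iff _).1 h
    obtain ⟨e, he⟩ := hNσ n hn
    exact (bT_inj (hn'.symm.trans he)).1
  have hu : Function.Injective u := by
    rw [injective_iff_map_eq_one]
    intro x hx
    exact Multiplicative.toAdd.injective (hqinj _ hx)
  obtain ⟨d, hd0, hd1, hd2⟩ := exists_generic (F := F) (m := m)
  have hpow : ∀ y : F, y ≠ 0 → ∃ i : ℕ, ((g₀ : F) ^ 2) ^ i = y := by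
    intro y hy
    obtain ⟨l, rfl⟩ := sq_units_surjective (m := m) y hy
    obtain ⟨k, hk⟩ := mem_powers_iff_mem_zpowers.2 (hg₀ l)
    refine ⟨k, ?_⟩
    rw [← pow_mul, mul_comm, pow_mul]
    congr 1
    exact congrArg Units.val hk
  obtain ⟨i, hi⟩ := hpow d hd0
  obtain ⟨j, hj⟩ := hpow (d + 1) hd1
  have hbot : σ'.ker = ⊥ := by
    refine ker_eq_bot_of_field_action hσ' u hu (q (bD g₀)) ((g₀ : F) ^ 2) ?_ ?_ hg₀2
      (pow_ne_zero 2 g₀.ne_zero) i j (by rw [hi, hj]) ?_
    · rw [eq_top_iff]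
      intro y _
      obtain ⟨x, rfl⟩ := QuotientGroup.mk'_surjective Zb y
      obtain ⟨a, b, l, rfl⟩ := exists_eq x
      obtain ⟨k, hk⟩ := Subgroup.mem_zpowers_iff.1 (hbD_zpow l)
      rw [map_mul, ← hk, map_zpow]
      refine mul_mem (mem_sup_left ⟨Multiplicative.ofAdd a, ?_⟩)
        (mem_sup_right (zpow_mem (mem_zpowers _) k))
      show q (bT a 0) = q (bT a b)
      apply (QuotientGroup.eq).2
      have h : (bT a 0 : borel F m) * bT 0 b = bT a b := by rw [bT_mul]; simp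
      rw [← h, inv_mul_cancel_left]
      exact hZb b
    · intro x
      show q (bD g₀) * q (bT x 0) * (q (bD g₀))⁻¹ = q (bT ((g₀ : F) ^ 2 * x) 0)
      rw [← map_inv, ← map_mul, ← map_mul, bD_conj, mul_zero]
    · rw [hi, ← sq]; exact hd2
  rw [eq_bot_iff]
  intro z hz
  have h1 : QuotientGroup.mk' N z ∈ σ'.ker := by
    show q (σ z) = 1
    rw [MonoidHom.mem_ker.1 hz, map_one]
  rw [hbot, Subgroup.mem_bot] at h1
  rw [Subgroup.mem_bot]
  exact hNker z ((QuotientGroup.eq_one_iff z).1 h1) hz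

/-- An odd prime dividing `q² + 1` has cyclic Sylow subgroups in `Sz(q)`. -/
theorem isCyclic_sylow {r : ℕ} [Fact r.Prime] (hodd : Odd r)
    (hr : r ∣ Fintype.card F ^ 2 + 1) (P : Sylow r (Cfsg.Sz F m)) : IsCyclic P := by
  classical
  set q := Fintype.card F with hq
  have hrp : r.Prime := Fact.out
  have hr2 : r ≠ 2 := by rintro rfl; exact absurd hodd (by decide)
  obtain ⟨p, hp⟩ := CharP.exists F
  haveI := hp
  haveI : Fact p.Prime := ⟨CharP.char_is_prime F p⟩
  let K := FiniteField.Extension F p 4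
  haveI : Finite K := Module.finite_of_finite F
  let B : Module.Basis (Fin 4) F K :=
    Module.finBasisOfFinrankEq F K (FiniteField.finrank_extension F p 4)
  let f : Kˣ →* GL (Fin 4) F := Units.map (Algebra.leftMulMatrix B : K →* Matrix (Fin 4) (Fin 4) F)
  have hf : Function.Injective f := Units.map_injective (Algebra.leftMulMatrix_injective B)
  have hcardH : Nat.card f.range = q ^ 4 - 1 := by
    rw [← Nat.card_congr (MonoidHom.ofInjective hf).toEquiv, Nat.card_units,
      FiniteField.natCard_extension, Nat.card_eq_fintype_card]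
  haveI : IsCyclic f.range := isCyclic_of_surjective f.rangeRestrict f.rangeRestrict_surjective
  have hq8 : 8 ≤ q := eight_le_card (F := F) (m := m)
  have hidx : ¬ r ∣ f.range.index := by
    intro hd
    have h := f.range.card_mul_index
    rw [hcardH, Matrix.card_GL_field, ← hq, Fin.prod_univ_four] at h
    simp only [Fin.val_zero, pow_zero, Fin.val_one, pow_one, Fin.val_two,
      show ((3 : Fin 4) : ℕ) = 3 from rfl] at h
    rw [mul_assoc, mul_assoc] at h
    have hpos : 0 < q ^ 4 - 1 := by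
      have : 8 ^ 4 ≤ q ^ 4 := Nat.pow_le_pow_left hq8 4
      omega
    rw [Nat.eq_of_mul_eq_mul_left hpos h] at hd
    have hsplit : ∀ a b, q ^ a * q ^ b - q ^ a = q ^ a * (q ^ b - 1) := fun a b => by
      rw [Nat.mul_sub, mul_one]
    have e1 : q ^ 4 - q = q ^ 1 * (q ^ 3 - 1) := by rw [← hsplit, ← pow_add, pow_one]
    have e2 : q ^ 4 - q ^ 2 = q ^ 2 * (q ^ 2 - 1) := by rw [← hsplit, ← pow_add]
    have e3 : q ^ 4 - q ^ 3 = q ^ 3 * (q ^ 1 - 1) := by rw [← hsplit, ← pow_add]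
    rw [e1, e2, e3] at hd
    have hnq : ¬ r ∣ q := fun h1 => by
      have h2 := Nat.dvd_sub hr (dvd_pow h1 two_ne_zero)
      rw [Nat.add_sub_cancel_left] at h2
      exact hrp.not_dvd_one h2
    have hnq' : ∀ k, ¬ r ∣ q ^ k := fun k h1 => hnq (hrp.dvd_of_dvd_pow h1)
    have hmod : ((q : ZMod r)) ^ 2 = -1 := by
      have := (ZMod.natCast_eq_zero_iff _ r).2 hr
      push_cast at this
      exact eq_neg_of_add_eq_zero_left this
    have h11 : ((-1 : ZMod r)) ≠ 1 := by
      intro h1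
      have h2 : ((2 : ℕ) : ZMod r) = 0 := by push_cast; linear_combination (-1 : ZMod r) * h1
      have := (ZMod.natCast_eq_zero_iff _ r).1 h2
      exact hr2 ((Nat.prime_dvd_prime_iff_eq hrp Nat.prime_two).1 this)
    have hcast : ∀ k, r ∣ q ^ k - 1 → ((q : ZMod r)) ^ k = 1 := by
      intro k hk
      have h2 : 1 ≤ q ^ k := Nat.one_le_pow _ _ (by omega)
      have := (ZMod.natCast_eq_zero_iff _ r).2 hk
      rw [Nat.cast_sub h2] at this
      push_cast at this
      linear_combination this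
    have n1 : ¬ r ∣ q ^ 1 - 1 := fun h1 => h11 (by
      have := hcast 1 h1
      rw [pow_one] at this
      rw [← hmod, this, one_pow])
    have n2 : ¬ r ∣ q ^ 2 - 1 := fun h1 => h11 (by rw [← hmod, hcast 2 h1])
    have n3 : ¬ r ∣ q ^ 3 - 1 := fun h1 => h11 (by
      have h3 := hcast 3 h1
      rw [pow_succ, hmod] at h3
      have h4 : ((q : ZMod r)) = -1 := by linear_combination -h3
      rw [← hmod, h4]; ring)
    rw [hrp.dvd_mul, hrp.dvd_mul, hrp.dvd_mul, hrp.dvd_mul, hrp.dvd_mul] at hd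
    have := hnq' 1; have := hnq' 2; have := hnq' 3
    tauto
  -- transfer cyclicity to `P`
  obtain ⟨S⟩ : Nonempty (Sylow r f.range) := inferInstance
  have hS : ¬ r ∣ (S.toSubgroup.map f.range.subtype).index := by
    rw [Subgroup.index_map_subtype, hrp.dvd_mul, not_or]
    exact ⟨S.not_dvd_index, hidx⟩
  let S' : Sylow r (GL (Fin 4) F) := (S.2.map f.range.subtype).toSylow hS
  haveI : IsCyclic S' := by
    show IsCyclic (S.toSubgroup.map f.range.subtype)
    exact isCyclic_of_surjective _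
      (MonoidHom.subgroupMap_surjective f.range.subtype S.toSubgroup)
  obtain ⟨R, hR⟩ := (P.2.map (szToGL F m)).exists_le_sylow
  obtain ⟨g, hg⟩ := exists_smul_eq (GL (Fin 4) F) S' R
  haveI : IsCyclic R := by
    subst hg
    exact isCyclic_of_surjective (Sylow.equivSMul S' g).toMonoidHom (Sylow.equivSMul S' g).surjective
  haveI : IsCyclic (P.toSubgroup.map (szToGL F m)) :=
    isCyclic_of_injective (Subgroup.inclusion hR) (Subgroup.inclusion_injective hR)
  exact isCyclic_of_injective (P.toSubgroup.equivMapOfInjective _ szToGL_injective).toMonoidHom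
    (P.toSubgroup.equivMapOfInjective _ szToGL_injective).injective

/-- For `q ≥ 32` the multiplier of `Sz(q)` is trivial. -/
theorem hasCyclicSchurMultiplier_sz (hm : 2 ≤ m) :
    HasCyclicSchurMultiplier (Cfsg.Sz F m) 1 := by
  refine hasCyclicSchurMultiplier_one_of_not_dvd fun r hr => ?_
  haveI : Fact r.Prime := ⟨hr⟩
  have hq : 8 ≤ Fintype.card F := eight_le_card (F := F) (m := m)
  have heven : 2 ∣ Fintype.card F := hS.card ▸ dvd_pow_self 2 (by omega)
  have hq2even : 2 ∣ Fintype.card F ^ 2 := dvd_pow heven two_ne_zero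
  rcases hr.eq_two_or_odd' with rfl | hodd
  · refine not_dvd_card_schurMult_of_subgroup 2 (borel F m) ?_ ?_
    · rw [index_stabilizer_of_transitive, card_suzukiOvoid]
      omega
    · rw [hasCyclicSchurMultiplier_one_iff.1
        (hasCyclicSchurMultiplier_one_of fun Δ _ _ τ hτ => ker_eq_bot_borel hm hτ)]
      norm_num
  · by_cases h1 : r ∣ Fintype.card F ^ 2 + 1
    · obtain ⟨P⟩ : Nonempty (Sylow r (Cfsg.Sz F m)) := inferInstance
      haveI := isCyclic_sylow hodd h1 P
      exact not_dvd_card_schurMult_of_subgroup r P.toSubgroup P.not_dvd_index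
        (not_dvd_card_schurMult_of_isCyclic hr)
    · haveI : IsCyclic (gDHom F m).range :=
        isCyclic_of_surjective (gDHom F m).rangeRestrict (gDHom F m).rangeRestrict_surjective
      refine not_dvd_card_schurMult_of_subgroup r (gDHom F m).range ?_
        (not_dvd_card_schurMult_of_isCyclic hr)
      have hcard : Nat.card (gDHom F m).range = Fintype.card F - 1 := by
        rw [← Nat.card_congr (MonoidHom.ofInjective (f := gDHom F m) fun _ _ h => gD_inj h).toEquiv,
          Nat.card_units, Nat.card_eq_fintype_card]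
      have h := (gDHom F m).range.card_mul_index
      rw [hcard, card_sz, ← hS.card, mul_comm (_ * _) (Fintype.card F - 1)] at h
      rw [Nat.eq_of_mul_eq_mul_left (by omega) h, hr.dvd_mul, not_or]
      refine ⟨fun h2 => ?_, h1⟩
      have h3 := hr.dvd_of_dvd_pow (hS.card ▸ hr.dvd_of_dvd_pow h2)
      have h4 := (Nat.prime_dvd_prime_iff_eq hr Nat.prime_two).1 h3
      subst h4
      exact absurd hodd (by decide)

end Cfsg.Agent.CentralExt.Suzuki
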